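import Cfsg.Agent.OTensor90.Form

/-!
An involutory isometry of a four-dimensional space of Witt index one has exactly one split eigenplane;
products of two reflections of an anisotropic plane.
-/

set_option autoImplicit false
set_option linter.unusedSectionVars false
set_option linter.unusedSimpArgs false
set_option linter.unusedVariables false

namespace CfsgLib.OTensor90

open Module CfsgLib.SpO90

variable {F : Type*} [Field F] [Finite F] {W : Type*} [AddCommGroup W] [Module F W] [FiniteDimensional F W]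
variable {β : LinearMap.BilinForm F W}

lemma isSquare_mul_of_not_isSquare {a b : F} (ha : ¬ IsSquare a) (hb : ¬ IsSquare b) : IsSquare (a * b) := by
  classical
  have := Fintype.ofFinite F
  have ha0 : a ≠ 0 := fun h => ha (h ▸ IsSquare.zero)
  have hb0 : b ≠ 0 := fun h => hb (h ▸ IsSquare.zero)
  rw [← quadraticChar_one_iff_isSquare (mul_ne_zero ha0 hb0), map_mul,
    quadraticChar_neg_one_iff_not_isSquare.2 ha, quadraticChar_neg_one_iff_not_isSquare.2 hb]
  rfl

lemma exists_split_of_singular (hs : Sym β) (hW : WittOne β) (h4 : finrank F W = 4) {P N : Submodule F W}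
    (hP : ND β P) (hPN : ∀ x ∈ P, ∀ y ∈ N, β x y = 0) (hN : finrank F N = 2) {l : W} (hl : l ∈ P)
    (hll : β l l = 0) (hl0 : l ≠ 0) :
    ∃ l' ∈ P, Frame β l l' ∧ mid β l l' = N := by
  obtain ⟨y, hy, hly⟩ : ∃ y ∈ P, β l y ≠ 0 := by
    by_contra! h
    exact hl0 (hP l hl h)
  set y' := (β l y)⁻¹ • y with hy'
  set l' := y' - (β y' y' / 2) • l
  have h3 : β l y' = 1 := by simp [hy', inv_mul_cancel₀ hly]
  have hl' : l' ∈ P := Submodule.sub_mem _ (Submodule.smul_mem _ _ hy) (Submodule.smul_mem _ _ hl)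
  have h2 := hs.two_ne
  have hf : Frame β l l' := by
    refine frame_of_pair hW hll ?_ ?_ hs
    · simp only [l', map_sub, map_smul, LinearMap.sub_apply, LinearMap.smul_apply, smul_eq_mul, hll, h3,
        hs.symm y' l]
      field_simp
      ring
    · simp [l', hll, h3]
  refine ⟨l', hl', hf, (Submodule.eq_of_le_of_finrank_le (fun z hz => ?_) ?_).symm⟩
  · exact mem_mid.2 ⟨hPN l hl z hz, hPN l' hl' z hz⟩
  · have := hf.finrank_mid hs
    omega

lemma not_isSquare_of_plane (hs : Sym β) {P : Submodule F W} (haniso : ∀ z ∈ P, β z z = 0 → z = 0)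
    {x x' : W} (hx : x ∈ P) (hx' : x' ∈ P) (hxx : β x x ≠ 0) (hxx' : β x' x' ≠ 0) (ho : β x x' = 0) :
    ¬ IsSquare (-(β x x) * β x' x') := by
  rintro ⟨r, hr⟩
  set z := x' + (r / β x x) • x
  have hz : β z z = 0 := by
    simp only [z, map_add, map_smul, LinearMap.add_apply, LinearMap.smul_apply, smul_eq_mul, ho,
      hs.symm x' x]
    field_simp
    linear_combination -hr
  have h1 := congrArg (β x') (haniso z (P.add_mem hx' (P.smul_mem _ hx)) hz)
  simp [z, hs.symm x' x, ho, hxx'] at h1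

/-- The split eigenplane of an involution. -/
theorem invol_split (hs : Sym β) (hW : WittOne β) (h4 : finrank F W = 4) {b : W →ₗ[F] W} (hb : IsIso β b)
    (hbb : ∀ x, b (b x) = x) (h2d : finrank F (LinearMap.ker (b - LinearMap.id)) = 2) :
    ∃ (w w' : W) (ε : F), (ε = 1 ∨ ε = -1) ∧ Frame β w w' ∧ b w = ε • w ∧ b w' = ε • w' ∧
      ∀ z ∈ mid β w w', b z = (-ε) • z := by
  have h2 := hs.two_ne
  set P := LinearMap.ker (b - LinearMap.id)
  set N := LinearMap.ker (b + LinearMap.id)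
  have hmP : ∀ x, x ∈ P ↔ b x = x := fun x => by simp [P, sub_eq_zero]
  have hmN : ∀ x, x ∈ N ↔ b x = -x := fun x => by simp [N, add_eq_zero_iff_eq_neg]
  have hPN : ∀ x ∈ P, ∀ y ∈ N, β x y = 0 := fun x hx y hy => by
    have h := hb x y
    rw [(hmP x).1 hx, (hmN y).1 hy, map_neg] at h
    exact (mul_eq_zero.1 (show (2 : F) * β x y = 0 by linear_combination -h)).resolve_left h2
  have hsup : ∀ x, ∃ u ∈ P, ∃ v ∈ N, x = u + v := fun x => by
    refine ⟨(2 : F)⁻¹ • (x + b x), (hmP _).2 ?_, (2 : F)⁻¹ • (x - b x), (hmN _).2 ?_, ?_⟩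
    · rw [map_smul, map_add, hbb, add_comm]
    · rw [map_smul, map_sub, hbb, ← smul_neg, neg_sub]
    · rw [← smul_add, add_add_sub_cancel, ← two_smul F x, inv_smul_smul₀ h2]
  have hndP : ND β P := fun x hx h => hs.nondeg x fun y => by
    obtain ⟨u, hu, v, hv, rfl⟩ := hsup y
    rw [map_add, h u hu, hPN x hx v hv, add_zero]
  have hndN : ND β N := fun x hx h => hs.nondeg x fun y => by
    obtain ⟨u, hu, v, hv, rfl⟩ := hsup y
    rw [map_add, h v hv, hs.symm, hPN u hu x hx, add_zero]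
  have hN : finrank F N = 2 := by
    have h1 := Submodule.finrank_sup_add_finrank_inf_eq P N
    have ht : P ⊔ N = ⊤ := eq_top_iff.2 fun x _ => by
      obtain ⟨u, hu, v, hv, rfl⟩ := hsup x
      exact Submodule.add_mem_sup hu hv
    have hb0 : P ⊓ N = ⊥ := (Submodule.eq_bot_iff _).2 fun x hx => by
      have h : (2 : F) • x = 0 := by
        have := (hmP x).1 hx.1
        rw [two_smul, ← eq_neg_iff_add_eq_zero]
        exact this.symm.trans ((hmN x).1 hx.2)
      exact (smul_eq_zero.1 h).resolve_left h2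
    rw [ht, hb0, finrank_bot, finrank_top, h4] at h1
    omega
  by_cases hsP : ∃ l ∈ P, β l l = 0 ∧ l ≠ 0
  · obtain ⟨l, hl, hll, hl0⟩ := hsP
    obtain ⟨l', hl', hf, hm⟩ := exists_split_of_singular hs hW h4 hndP hPN hN hl hll hl0
    exact ⟨l, l', 1, Or.inl rfl, hf, by rw [one_smul]; exact (hmP l).1 hl, by rw [one_smul]; exact (hmP l').1 hl',
      fun z hz => by rw [neg_smul, one_smul]; exact (hmN z).1 (hm ▸ hz)⟩
  by_cases hsN : ∃ l ∈ N, β l l = 0 ∧ l ≠ 0
  · obtain ⟨l, hl, hll, hl0⟩ := hsN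
    obtain ⟨l', hl', hf, hm⟩ := exists_split_of_singular hs hW h4 hndN
      (fun x hx y hy => by rw [hs.symm]; exact hPN y hy x hx) h2d hl hll hl0
    exact ⟨l, l', -1, Or.inr rfl, hf, by rw [neg_smul, one_smul]; exact (hmN l).1 hl,
      by rw [neg_smul, one_smul]; exact (hmN l').1 hl',
      fun z hz => by rw [neg_neg, one_smul]; exact (hmP z).1 (hm ▸ hz)⟩
  exfalso
  have haP : ∀ z ∈ P, β z z = 0 → z = 0 := fun z hz h => by_contra fun h0 => hsP ⟨z, hz, h, h0⟩
  have haN : ∀ z ∈ N, β z z = 0 → z = 0 := fun z hz h => by_contra fun h0 => hsN ⟨z, hz, h, h0⟩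
  obtain ⟨x, hx, hxx⟩ := hs.exists_aniso hndP fun h => by rw [h, finrank_bot] at h2d; omega
  obtain ⟨y, hy, hyy⟩ := hs.exists_value_in hndN hN.ge (-(β x x))
  have hyy0 : β y y ≠ 0 := by rw [hyy]; exact neg_ne_zero.2 hxx
  obtain ⟨x', hx', hxx'⟩ := hs.exists_aniso (hs.nd_inf_perp hndP hx hxx) fun h => by
    have := hs.finrank_inf_perp P x; rw [h, finrank_bot] at this; omega
  obtain ⟨y', hy', hyy'⟩ := hs.exists_aniso (hs.nd_inf_perp hndN hy hyy0) fun h => by
    have := hs.finrank_inf_perp N y; rw [h, finrank_bot] at this; omega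
  have hox := mem_perp_single.1 hx'.2
  have hoy := mem_perp_single.1 hy'.2
  obtain ⟨r, hr⟩ := isSquare_mul_of_not_isSquare (not_isSquare_of_plane hs haP hx hx'.1 hxx hxx' hox)
    (not_isSquare_of_plane hs haN hy hy'.1 hyy0 hyy' hoy)
  rw [hyy] at hr
  set z := x' + (r / (β x x * β y' y')) • y'
  have hzz : β z z = 0 := by
    simp only [z, map_add, map_smul, LinearMap.add_apply, LinearMap.smul_apply, smul_eq_mul,
      hPN x' hx'.1 y' hy'.1, hs.symm y' x']
    field_simp
    linear_combination -hr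
  have hxy : β (x + y) (x + y) = 0 := by
    simp [hPN x hx y hy, hs.symm y x, hyy]
  have hxyz : β (x + y) z = 0 := by
    simp [z, hox, hoy, hPN x hx y' hy'.1, hs.symm y x', hPN x' hx'.1 y hy]
  obtain ⟨c, hc⟩ := hW _ z hxy hzz hxyz fun h => hxx (by
    have := congrArg (β x) h
    simpa [hPN x hx y hy] using this)
  have h5 := congrArg (β x') hc
  simp [z, hs.symm x' x, hox, hPN x' hx'.1 y hy, hPN x' hx'.1 y' hy'.1, hxx'] at h5

/-- A product of two reflections of an anisotropic plane and its inverse do not sum to `λ + λ⁻¹`. -/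
theorem refl_pair_sum_ne (hs : Sym β) {N : Submodule F W} (haniso : ∀ z ∈ N, β z z = 0 → z = 0)
    {p₁ p₂ : W} (h1 : p₁ ∈ N) (h2 : p₂ ∈ N) (hli : ∀ c : F, p₂ ≠ c • p₁) (hp1 : p₁ ≠ 0)
    (h12 : β p₁ p₂ ≠ 0) {k : F} (hk : k ≠ 0) :
    refl β p₁ (refl β p₂ p₁) + refl β p₂ (refl β p₁ p₁) ≠ (k + k⁻¹) • p₁ := by
  intro h
  have ha : β p₁ p₁ ≠ 0 := fun h0 => hp1 (haniso _ h1 h0)
  have hb : β p₂ p₂ ≠ 0 := fun h0 => hli 0 (by rw [zero_smul]; exact haniso _ h2 h0)
  have h3 := congrArg (β p₁) h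
  simp only [refl_apply, map_add, map_sub, map_smul, smul_eq_mul, hs.symm p₂ p₁] at h3
  field_simp at h3
  have h4 : 4 * k * β p₁ p₂ ^ 2 = (k + 1) ^ 2 * (β p₁ p₁ * β p₂ p₂) := by linear_combination h3
  have hk1 : k + 1 ≠ 0 := fun h0 => by
    rw [h0, zero_pow two_ne_zero, zero_mul] at h4
    exact mul_ne_zero (mul_ne_zero (by
      rw [show (4 : F) = 2 * 2 by norm_num]; exact mul_ne_zero hs.two_ne hs.two_ne) hk) (pow_ne_zero 2 h12) h4
  set d := (k - 1) * β p₁ p₂ / (k + 1) with hd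
  set z := ((-β p₁ p₂ + d) / β p₁ p₁) • p₁ + p₂
  have hz : β z z = 0 := by
    simp only [z, hd, map_add, map_smul, LinearMap.add_apply, LinearMap.smul_apply, smul_eq_mul, hs.symm p₂ p₁]
    field_simp
    linear_combination -h4
  exact hli (-((-β p₁ p₂ + d) / β p₁ p₁)) (by
    rw [neg_smul]
    exact eq_neg_of_add_eq_zero_right (haniso z (N.add_mem (N.smul_mem _ h1) h2) hz))

end CfsgLib.OTensor90
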