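import Cfsg.Agent.OTensor90.Sigma
import Cfsg.Agent.OTensor90.Split

/-!
Without root maps every element of the group is a tensor map.
-/

set_option autoImplicit false
set_option linter.unusedSectionVars false
set_option linter.unusedSimpArgs false
set_option linter.unusedVariables false

namespace CfsgLib.OTensor90

open Module CfsgLib.SpO90

section dihedral

variable {G : Type*} [Group G] {k j : G}

lemma dihedral_flip (hk : k * k = 1) (hj : j * j = 1) (s : ℕ) : k * (k * j) ^ s = ((k * j) ^ s)⁻¹ * k := by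
  induction s with
  | zero => simp
  | succ s ih =>
    have e : k * (k * j) = (k * j)⁻¹ * k := by
      rw [mul_inv_rev, inv_eq_of_mul_eq_one_right hj, inv_eq_of_mul_eq_one_right hk, ← mul_assoc, hk, one_mul,
        mul_assoc, hk, mul_one]
    rw [pow_succ, ← mul_assoc, ih, mul_assoc, e, ← mul_assoc, ← mul_inv_rev, ← pow_succ', ← pow_succ]

/-- Two involutions: their product has odd order and they are conjugate, or half the order gives a central one. -/
lemma dihedral_cases [Finite G] (hk : k * k = 1) (hj : j * j = 1) :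
    (∃ s : ℕ, (k * j) ^ s * k = j * (k * j) ^ s) ∨
      ∃ c : G, (∃ m : ℕ, c = (k * j) ^ m) ∧ c * c = 1 ∧ c ≠ 1 ∧ c * k = k * c ∧ c * j = j * c ∧
        ((∃ s : ℕ, (k * j) ^ s * j = k * c * (k * j) ^ s) ∨ ∃ s : ℕ, (k * j) ^ s * k = k * c * (k * j) ^ s) := by
  set a := k * j with ha
  have hflip := dihedral_flip hk hj
  rw [← ha] at hflip
  have hpos : 0 < orderOf a := orderOf_pos a
  have hja : j = k * a := by rw [ha, ← mul_assoc, hk, one_mul]
  rcases Nat.even_or_odd (orderOf a) with ⟨m, hm⟩ | ⟨m, hm⟩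
  · right
    set c := a ^ m with hc
    have hcc : c * c = 1 := by rw [hc, ← pow_add, ← hm, pow_orderOf_eq_one]
    have hci : c⁻¹ = c := inv_eq_of_mul_eq_one_right hcc
    have hck : c * k = k * c := by rw [hc, hflip, ← hc, hci]
    have hca : c * a = a * c := by rw [hc, ← pow_succ, ← pow_succ']
    refine ⟨c, ⟨m, hc⟩, hcc, ?_, hck, ?_, ?_⟩
    · intro h1
      have := Nat.le_of_dvd (by omega) (orderOf_dvd_of_pow_eq_one (hc.symm.trans h1))
      omega
    · have h1 : c * (k * a) = k * a * c := by rw [← mul_assoc c, hck, mul_assoc k c, hca, ← mul_assoc k a c]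
      rwa [← hja] at h1
    · rcases Nat.even_or_odd m with ⟨l, hl⟩ | ⟨l, hl⟩
      · refine Or.inr ⟨l, ?_⟩
        rw [← hck, mul_assoc, hflip, hc, hl, pow_add]
        group
      · refine Or.inl ⟨l + 1, ?_⟩
        have e1 : a * j = k := by rw [ha, mul_assoc, hj, mul_one]
        have e2 : a ^ m * k = a ^ (2 * l + 1) * k := by rw [hl]
        rw [← hck, hc, e2, mul_assoc, hflip, ← e1, pow_succ]
        group
  · left
    refine ⟨m, ?_⟩
    have h1 : a ^ (2 * m + 1) = 1 := by rw [← hm, pow_orderOf_eq_one]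
    have h2 : j = a ^ (2 * m + 1) * j := by rw [h1, one_mul]
    have e1 : a * j = k := by rw [ha, mul_assoc, hj, mul_one]
    rw [pow_succ, mul_assoc, e1] at h2
    conv_rhs => rw [h2]
    rw [mul_assoc, hflip, two_mul, pow_add]
    group

end dihedral

variable {F A B V : Type*} [Field F] [Finite F] [AddCommGroup A] [Module F A] [AddCommGroup B]
  [Module F B] [AddCommGroup V] [Module F V] [FiniteDimensional F A] [FiniteDimensional F B]
  [FiniteDimensional F V]

section pair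

variable {W : Type*} [AddCommGroup W] [Module F W] [FiniteDimensional F W] {β : LinearMap.BilinForm F W}

lemma finrank_sup_lines {p q : W} (hp : p ≠ 0) (hq : ∀ c : F, q ≠ c • p) :
    finrank F ((F ∙ p) ⊔ (F ∙ q) : Submodule F W) = 2 := by
  have hq0 : q ≠ 0 := fun h => hq 0 (by simp [h])
  have hd : (F ∙ p) ⊓ (F ∙ q) = ⊥ := by
    refine eq_bot_iff.2 fun x hx => ?_
    obtain ⟨c, rfl⟩ := Submodule.mem_span_singleton.1 hx.1
    obtain ⟨d, hd⟩ := Submodule.mem_span_singleton.1 hx.2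
    rcases eq_or_ne d 0 with rfl | hd0
    · simp [← hd]
    · refine absurd ?_ (hq (d⁻¹ * c))
      rw [mul_smul, ← hd, inv_smul_smul₀ hd0]
  have h := Submodule.finrank_sup_add_finrank_inf_eq (F ∙ p) (F ∙ q)
  rw [hd, finrank_bot, finrank_span_singleton hp, finrank_span_singleton hq0] at h
  omega

/-- In a non-degenerate plane only zero is orthogonal to two independent vectors. -/
lemma eq_zero_of_perp_pair (hs : Sym β) {N : Submodule F W} (hN : ND β N) (h2 : finrank F N = 2) {p q n : W}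
    (hp : p ∈ N) (hq : q ∈ N) (hp0 : p ≠ 0) (hli : ∀ c : F, q ≠ c • p) (hn : n ∈ N) (h1 : β p n = 0)
    (h3 : β q n = 0) : n = 0 := by
  have heq : (F ∙ p) ⊔ (F ∙ q) = N :=
    Submodule.eq_of_le_of_finrank_le (sup_le ((Submodule.span_singleton_le_iff_mem _ _).2 hp)
      ((Submodule.span_singleton_le_iff_mem _ _).2 hq)) (by rw [h2, finrank_sup_lines hp0 hli])
  refine hN n hn fun z hz => ?_
  rw [← heq] at hz
  obtain ⟨x, hx, y, hy, rfl⟩ := Submodule.mem_sup.1 hz
  obtain ⟨c, rfl⟩ := Submodule.mem_span_singleton.1 hx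
  obtain ⟨d, rfl⟩ := Submodule.mem_span_singleton.1 hy
  rw [hs.symm]
  simp [h1, h3]

lemma refl_pair_invol (hs : Sym β) {a b : W} (ha : β a a ≠ 0) (hb : β b b ≠ 0) (hab : β a b = 0) :
    (∀ x, (refl β a ∘ₗ refl β b) ((refl β a ∘ₗ refl β b) x) = x) ∧
      finrank F (LinearMap.ker (refl β a ∘ₗ refl β b - LinearMap.id)) + 2 = finrank F W := by
  have hba : β b a = 0 := by rw [hs.symm]; exact hab
  have ha0 : a ≠ 0 := fun h => ha (by simp [h])
  refine ⟨fun x => ?_, ?_⟩
  · simp only [LinearMap.comp_apply, refl_apply, map_sub, map_smul, smul_eq_mul, hab, hba]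
    match_scalars <;> field_simp <;> ring
  · have hk : LinearMap.ker (refl β a ∘ₗ refl β b - LinearMap.id) = perp β ((F ∙ a) ⊔ (F ∙ b)) := by
      ext x
      constructor
      · intro hx
        rw [LinearMap.mem_ker, LinearMap.sub_apply, LinearMap.id_apply, sub_eq_zero] at hx
        have e : (refl β a ∘ₗ refl β b) x = x - (2 / β b b * β b x) • b - (2 / β a a * β a x) • a := by
          simp [refl_apply, hab]
        rw [e, sub_sub, sub_eq_self] at hx
        have h1 : β a x = 0 := by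
          have h' := congrArg (β a) hx
          rw [map_add, map_smul, map_smul, map_zero, hab, smul_zero, zero_add, smul_eq_mul, mul_right_comm,
            div_mul_cancel₀ _ ha] at h'
          exact (mul_eq_zero.1 h').resolve_left hs.two_ne
        have h2 : β b x = 0 := by
          have h' := congrArg (β b) hx
          rw [map_add, map_smul, map_smul, map_zero, hba, smul_zero, add_zero, smul_eq_mul, mul_right_comm,
            div_mul_cancel₀ _ hb] at h'
          exact (mul_eq_zero.1 h').resolve_left hs.two_ne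
        intro z hz
        obtain ⟨y, hy, y', hy', rfl⟩ := Submodule.mem_sup.1 hz
        obtain ⟨c, rfl⟩ := Submodule.mem_span_singleton.1 hy
        obtain ⟨d, rfl⟩ := Submodule.mem_span_singleton.1 hy'
        simp [h1, h2]
      · intro hx
        have h1 : β a x = 0 := hx a (Submodule.mem_sup_left (Submodule.mem_span_singleton_self a))
        have h2 : β b x = 0 := hx b (Submodule.mem_sup_right (Submodule.mem_span_singleton_self b))
        rw [LinearMap.mem_ker, LinearMap.sub_apply, LinearMap.id_apply, LinearMap.comp_apply, refl_apply, refl_apply,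
          h2]
        simp [h1]
    rw [hk]
    have h := hs.finrank_perp ((F ∙ a) ⊔ (F ∙ b))
    rw [finrank_sup_lines ha0 (fun c h' => hb (by
      conv_lhs => arg 2; rw [h']
      simp [hba]))] at h
    exact h

end pair

namespace Setting

variable (S : Setting F A B V)

/-- Vectors in the eigenspace of `1 ⊗ D` lie in `A ⊗ <w, w'>`. -/
lemma exists_two' {w w' : B} (hw : Frame S.be w w') {D : B →ₗ[F] B} {c : F}
    (hker : ∀ n, D n = c • n → ∃ x y : F, n = x • w + y • w') {X : V}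
    (hX : S.tmap LinearMap.id D X = c • X) : ∃ p, X = S.two' w w' p := by
  refine ⟨(S.con w' X, S.con w X), S.ext_pi fun a => ?_⟩
  have h1 : D (S.pi a X) = c • S.pi a X := by
    have := S.pi_tmap (s := LinearMap.id) isIso_id D a X
    rw [LinearMap.id_apply, hX, map_smul] at this
    exact this.symm
  obtain ⟨x, y, hxy⟩ := hker _ h1
  have e1 : S.al (S.con w' X) a = x := by
    rw [← S.be_pi_con, hxy]; simp [hw.pair, hw.right]
  have e2 : S.al (S.con w X) a = y := by
    rw [← S.be_pi_con, hxy]; simp [hw.left, hw.pair' S.sym_be]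
  simp [S.two'_apply, e1, e2, hxy]

/-- An element commuting with `1 ⊗ D` preserves `A ⊗ <w, w'>`. -/
lemma split_of_comm {w w' : B} (hw : Frame S.be w w') {D : B →ₗ[F] B} {c : F} (h1 : D w = c • w)
    (h2 : D w' = c • w') (hker : ∀ n, D n = c • n → ∃ x y : F, n = x • w + y • w') {g : V ≃ₗ[F] V}
    (hg : ∀ X, g (S.tmap LinearMap.id D X) = S.tmap LinearMap.id D (g X)) (q : A × A) :
    ∃ p, g (S.two' w w' q) = S.two' w w' p := by
  refine S.exists_two' hw hker ?_
  rw [← hg, ← map_smul]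
  simp [S.two'_apply, h1, h2]

lemma tmap_smul_right (s : A →ₗ[F] A) (t : B →ₗ[F] B) (c : F) : S.tmap s (c • t) = c • S.tmap s t :=
  S.hom_ext fun a b => by simp

lemma tmap_add_right (s : A →ₗ[F] A) (t t' : B →ₗ[F] B) : S.tmap s (t + t') = S.tmap s t + S.tmap s t' :=
  S.hom_ext fun a b => by simp

end Setting

lemma rot_smul_vec (β : LinearMap.BilinForm F A) {v : A} {c : F} (hc : c ≠ 0) : rot β (c • v) = rot β v :=
  LinearMap.ext fun x => by
    simp only [rot_apply, map_smul, LinearMap.smul_apply, smul_eq_mul, smul_smul]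
    congr 2
    field_simp

namespace Hyp

variable {S : Setting F A B V} {M : Subgroup (V ≃ₗ[F] V)}

/-- An element commuting with an involution `1 ⊗ b` is a tensor map. -/
lemma isT_of_comm (H : Hyp S M) (hno : NoRoot S M) {b : B →ₗ[F] B} (hb : IsIso S.be b)
    (hbb : ∀ x, b (b x) = x) (h2d : finrank F (LinearMap.ker (b - LinearMap.id)) = 2) {g : V ≃ₗ[F] V}
    (hg : g ∈ M) (hc : ∀ X, g (S.tmap LinearMap.id b X) = S.tmap LinearMap.id b (g X)) : S.IsT g := by
  obtain ⟨w, w', ε, hε, hw, e1, e2, e3⟩ := invol_split S.sym_be H.wB H.four hb hbb h2d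
  refine H.isT_of_split hno hw hg (S.split_of_comm hw e1 e2 (fun n hn => ?_) hc)
  have hm := hw.decomp S.sym_be n
  set m := n - S.be w' n • w - S.be w n • w' with hmdef
  have h2 : b m = ε • m := by
    rw [hmdef, map_sub, map_sub, map_smul, map_smul, hn, e1, e2]
    module
  rw [e3 m hm] at h2
  have hε0 : ε ≠ 0 := by rcases hε with rfl | rfl <;> simp
  have h3 : (2 * ε) • m = 0 := by
    rw [show (2 * ε) • m = ε • m - (-ε) • m by module, h2, sub_self]
  have h4 : m = 0 := (smul_eq_zero.1 h3).resolve_left (mul_ne_zero S.two hε0)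
  exact ⟨S.be w' n, S.be w n, by rw [hmdef, sub_sub, sub_eq_zero] at h4; exact h4⟩

/-- An involution with four-dimensional fixed space which is no tensor map commutes with some `rot v ⊗ b`
for every involution `b` with a plane of fixed vectors. -/
lemma comm_step (H : Hyp S M) (hno : NoRoot S M) {j : V ≃ₗ[F] V} (hj : j ∈ M) (hjj : ∀ X, j (j X) = X)
    (hj4 : nfix j.toLinearMap = 4) (hjT : ¬ S.IsT j) {b : B →ₗ[F] B} (hb : IsSO S.be b) (hbb : ∀ x, b (b x) = x)
    (h2d : finrank F (LinearMap.ker (b - LinearMap.id)) = 2) :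
    ∃ v, S.al v v ≠ 0 ∧ ∀ X, j (S.tmap (rot S.al v) b X) = S.tmap (rot S.al v) b (j X) := by
  classical
  have : Finite V := Module.finite_of_finite F
  have : Finite (V ≃ₗ[F] V) := Finite.of_injective (fun f : V ≃ₗ[F] V => (f : V → V)) DFunLike.coe_injective
  obtain ⟨k, hk, e, he, hke⟩ : ∃ k ∈ M, ∃ e : F, (e = 1 ∨ e = -1) ∧ ∀ X, k X = e • S.tmap LinearMap.id b X := by
    rcases H.memB b hb with ⟨g, hg, h⟩ | ⟨g, hg, h⟩
    · exact ⟨g, hg, 1, Or.inl rfl, fun X => by rw [h, one_smul]⟩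
    · exact ⟨g, hg, -1, Or.inr rfl, fun X => by rw [h]; simp⟩
  have he0 : e ≠ 0 := by rcases he with rfl | rfl <;> simp
  have hcomm : ∀ {g : V ≃ₗ[F] V}, g ∈ M → g * k = k * g → S.IsT g := fun {g} hg hgk =>
    H.isT_of_comm hno hb.1 hbb h2d hg fun X => by
      have h1 := LinearEquiv.congr_fun hgk X
      rw [LinearEquiv.mul_apply, LinearEquiv.mul_apply, hke, hke, map_smul] at h1
      exact smul_right_injective V he0 h1
  have hee : e * e = 1 := by rcases he with rfl | rfl <;> simp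
  have hkk : k * k = 1 := LinearEquiv.ext fun X => by
    rw [LinearEquiv.mul_apply, hke, hke, map_smul, ← LinearMap.comp_apply, S.tmap_comp, LinearMap.id_comp,
      show b ∘ₗ b = LinearMap.id from LinearMap.ext hbb, S.tmap_id, smul_smul, hee, one_smul]
    rfl
  have hk6 : nfix k.toLinearMap = 6 := by
    rw [show k.toLinearMap = e • S.tmap LinearMap.id b from LinearMap.ext hke]
    exact H.nfix_smul_id hbb h2d he
  have hpow : ∀ s : ℕ, (k * j) ^ s ∈ M := fun s => M.pow_mem (M.mul_mem hk hj) s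
  rcases dihedral_cases hkk (LinearEquiv.ext hjj : j * j = 1) with ⟨s, hs⟩ | ⟨c, ⟨m, hcm⟩, hcc, hc1, hck, hcj, hor⟩
  · exfalso
    have h := nfix_eq_of_conj (f := k.toLinearMap) (f' := j.toLinearMap) (g := (k * j) ^ s)
      fun X => LinearEquiv.congr_fun hs X
    omega
  have hcM : c ∈ M := hcm ▸ hpow m
  have hcT := hcomm hcM hck
  have hcc' : ∀ X, c (c X) = X := fun X => LinearEquiv.congr_fun hcc X
  obtain ⟨s, t, hs, ht, hce, hss, htt, hcase⟩ := H.invol_normal hcM hcT hcc'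
  have hjc : ∀ X, j (S.tmap s t X) = S.tmap s t (j X) := fun X => by
    rw [← hce, ← hce]
    exact (LinearEquiv.congr_fun hcj X).symm
  rcases hcase with rfl | ⟨v, hv, rfl⟩
  · exact absurd (H.isT_of_comm hno ht htt (H.two_dim_of_mem hcM htt hce hc1) hj hjc) hjT
  have hkc : ∀ X, (k * c) X = S.tmap (rot S.al v) (e • (b ∘ₗ t)) X := fun X => by
    rw [LinearEquiv.mul_apply, hke, hce, ← LinearMap.comp_apply, S.tmap_comp, LinearMap.id_comp,
      S.tmap_smul_right]
    rfl
  rcases hor with ⟨r, hr⟩ | ⟨r, hr⟩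
  · have hkcM := M.mul_mem hk hcM
    have hkcc : ∀ X, (k * c) ((k * c) X) = X := fun X => by
      have : (k * c) * (k * c) = 1 := by rw [mul_assoc, ← mul_assoc c, hck, mul_assoc, hcc, mul_one, hkk]
      exact LinearEquiv.congr_fun this X
    have h4 : nfix (k * c).toLinearMap = 4 :=
      (nfix_eq_of_conj (f := j.toLinearMap) (f' := (k * c).toLinearMap) (g := (k * j) ^ r)
        fun X => LinearEquiv.congr_fun hr X).symm.trans hj4
    have hkT : S.IsT k := ⟨LinearEquiv.refl F A, (isoEquiv S.sym_be hb.1).trans (LinearEquiv.smulOfNeZero F B e he0),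
      fun a z => by rw [hke, S.tmap_tp]; simp⟩
    obtain ⟨v₁, hv₁, he₁⟩ := H.exists_rot_of_fix_four hkcM (S.isT_mul hkT hcT) hkcc h4
    have h1 : S.tmap (rot S.al v₁ ∘ₗ rot S.al v) (LinearMap.id ∘ₗ (e • (b ∘ₗ t))) = LinearMap.id :=
      LinearMap.ext fun X => by
        rw [← S.tmap_comp, LinearMap.comp_apply, ← hkc, ← he₁, hkcc]
        rfl
    obtain ⟨d, -, hd⟩ := S.tmap_eq_one H.posA H.posB h1
    have hte : ∀ x, (d * e) • t x = b x := fun x => by
      have h2 := congrArg b (hd x)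
      simpa [hbb, smul_smul] using h2
    have hde : d * e ≠ 0 := by
      intro h0
      obtain ⟨z, -, hz⟩ := S.sym_be.exists_value_in (B := ⊤) (fun x _ hx => S.be_nd x fun y => hx y trivial)
        (by rw [finrank_top, H.four]; norm_num) 1
      have h2 := congrArg b (hte z)
      rw [h0, zero_smul, map_zero, hbb] at h2
      simp [← h2] at hz
    refine ⟨v, hv, fun X => ?_⟩
    have hb' : b = (d * e) • t := LinearMap.ext fun x => by rw [LinearMap.smul_apply, hte]
    rw [hb', S.tmap_smul_right, LinearMap.smul_apply, LinearMap.smul_apply, map_smul, hjc]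
  · exfalso
    set w := (k * j) ^ r
    have hw : w ∈ M := hpow r
    obtain ⟨q, hq, hqe⟩ := H.rot_mem v hv
    have hqkc : q * (k * c) = k * c * q := LinearEquiv.ext fun X => by
      show q ((k * c) X) = (k * c) (q X)
      rw [hqe, hqe, hkc, hkc, ← LinearMap.comp_apply,
        ← LinearMap.comp_apply, S.tmap_comp, S.tmap_comp, LinearMap.id_comp, LinearMap.comp_id]
    have hXk : (w⁻¹ * q * w) * k = k * (w⁻¹ * q * w) := by
      have h1 : k = w⁻¹ * (k * c) * w := by rw [mul_assoc, ← hr]; group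
      conv_lhs => arg 2; rw [h1]
      conv_rhs => arg 1; rw [h1]
      calc w⁻¹ * q * w * (w⁻¹ * (k * c) * w) = w⁻¹ * (q * (k * c)) * w := by group
        _ = _ := by rw [hqkc]; group
    have hXM : w⁻¹ * q * w ∈ M := M.mul_mem (M.mul_mem (M.inv_mem hw) hq) hw
    have hwX : ∀ X, w ((w⁻¹ * q * w) X) = S.tmap (rot S.al v) LinearMap.id (w X) := fun X => by
      rw [LinearEquiv.mul_apply, LinearEquiv.mul_apply, show w (w⁻¹ (q (w X))) = q (w X) from w.apply_symm_apply _,
        hqe]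
    have hXX : ∀ X, (w⁻¹ * q * w) ((w⁻¹ * q * w) X) = X := fun X => w.injective (by
      rw [hwX, hwX, ← LinearMap.comp_apply, S.tmap_comp, LinearMap.id_comp,
        show rot S.al v ∘ₗ rot S.al v = LinearMap.id from LinearMap.ext (rot_rot S.sym_al v), S.tmap_id]
      rfl)
    have h4 : nfix (w⁻¹ * q * w).toLinearMap = 4 :=
      (nfix_eq_of_conj (f := (w⁻¹ * q * w).toLinearMap) (f' := S.tmap (rot S.al v) LinearMap.id) hwX).trans
        (H.nfix_rot_one hv)
    obtain ⟨v₁, hv₁, he₁⟩ := H.exists_rot_of_fix_four hXM (hcomm hXM hXk) hXX h4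
    have hwT := H.isT_of_conj hno hv hv₁ hw fun X => by rw [← he₁, hwX]
    obtain ⟨s', t', hs', ht', hwe⟩ := H.normal_form hw hwT
    obtain ⟨z, -, hz⟩ := S.sym_be.exists_value_in (B := ⊤) (fun x _ hx => S.be_nd x fun y => hx y trivial)
      (by rw [finrank_top, H.four]; norm_num) 1
    set y₂ := e • b (t (t' z)) with hy₂
    obtain ⟨z', hz'⟩ : ∃ z', S.be y₂ z' ≠ 0 := by
      by_contra! h0
      have h1 := S.be_nd _ h0
      rw [hy₂, smul_eq_zero] at h1
      have h2 : b (t (t' z)) = 0 := h1.resolve_left he0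
      have h3 := (hb.1.comp (ht.comp ht')) z z
      rw [LinearMap.comp_apply, LinearMap.comp_apply, h2, map_zero, hz] at h3
      exact one_ne_zero h3.symm
    refine H.rot_ne_smul hv (S.be (e • t' (b z)) z' / S.be y₂ z') (LinearMap.ext fun a => ?_)
    obtain ⟨a, rfl⟩ := LinearMap.injective_iff_surjective.1 (S.sym_al.iso_injective hs'.1) a
    have h1 : w (k (S.tp a z)) = (k * c) (w (S.tp a z)) := LinearEquiv.congr_fun hr (S.tp a z)
    rw [hkc, hwe, hwe, hke, map_smul, S.tmap_tp, S.tmap_tp, S.tmap_tp, S.tmap_tp, LinearMap.id_apply,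
      ← map_smul] at h1
    have h2 := congrArg (S.con z') h1
    simp only [S.con_tp, LinearMap.smul_apply, LinearMap.comp_apply] at h2
    rw [LinearMap.smul_apply, LinearMap.id_apply, div_eq_inv_mul, mul_smul, h2, inv_smul_smul₀ hz']

set_option maxHeartbeats 1000000 in
/-- Without root maps, every element of the group is a tensor map. -/
theorem isT_of_noRoot (H : Hyp S M) (hno : NoRoot S M) {g : V ≃ₗ[F] V} (hg : g ∈ M) : S.IsT g := by
  classical
  have := Fintype.ofFinite F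
  obtain ⟨v, -, hv⟩ := S.sym_al.exists_value_in (B := ⊤) (fun x _ hx => S.al_nd x fun y => hx y trivial)
    (by rw [finrank_top, H.three]; norm_num) 1
  have hv1 : S.al v v ≠ 0 := by rw [hv]; exact one_ne_zero
  obtain ⟨h, hh, he⟩ := H.rot_mem v hv1
  set j := g * h * g⁻¹ with hj
  have hjM : j ∈ M := M.mul_mem (M.mul_mem hg hh) (M.inv_mem hg)
  have hjg : ∀ X, g (S.tmap (rot S.al v) LinearMap.id X) = j (g X) := fun X => by
    rw [hj, LinearEquiv.mul_apply, LinearEquiv.mul_apply, show g⁻¹ (g X) = X from g.symm_apply_apply X, he]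
  have hjj : ∀ X, j (j X) = X := fun X => by
    obtain ⟨X, rfl⟩ := g.surjective X
    rw [← hjg, ← hjg, ← LinearMap.comp_apply (f := S.tmap _ _), S.tmap_comp, LinearMap.id_comp,
      show rot S.al v ∘ₗ rot S.al v = LinearMap.id from LinearMap.ext (rot_rot S.sym_al v), S.tmap_id]
    rfl
  have hj4 : nfix j.toLinearMap = 4 :=
    (nfix_eq_of_conj (f := S.tmap (rot S.al v) LinearMap.id) (f' := j.toLinearMap) hjg).symm.trans
      (H.nfix_rot_one hv1)
  by_cases hjT : S.IsT j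
  · obtain ⟨v₁, hv₁, he₁⟩ := H.exists_rot_of_fix_four hjM hjT hjj hj4
    exact H.isT_of_conj hno hv₁ hv1 hg fun X => by rw [hjg, he₁]
  exfalso
  obtain ⟨w, hw0, hwne⟩ : ∃ w, S.be w w = 0 ∧ w ≠ 0 := by
    obtain ⟨w, -, h1, h2⟩ := S.sym_be.exists_iso_in (B := ⊤)
      (fun x _ hx => S.be_nd x fun y => hx y trivial) (by rw [finrank_top]; exact H.dB)
    exact ⟨w, h2, h1⟩
  obtain ⟨w', hw⟩ := exists_frame S.sym_be H.wB hw0 hwne
  set N := mid S.be w w'
  have hN : ND S.be N := hw.nd_mid S.sym_be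
  have hN2 : finrank F N = 2 := by
    have := hw.finrank_mid S.sym_be; rw [H.four] at this
    show finrank F (mid S.be w w') = 2
    omega
  have hNa : ∀ n ∈ N, n ≠ 0 → S.be n n ≠ 0 := fun n hn hn0 h0 => hn0 (hw.aniso' hn h0)
  have horth : ∀ p ∈ N, p ≠ 0 → ∃ p' ∈ N, p' ≠ 0 ∧ S.be p p' = 0 := by
    intro p hp hp0
    have h1 := S.sym_be.finrank_inf_perp N p
    obtain ⟨x, hx, hx0⟩ := Submodule.exists_mem_ne_zero_of_ne_bot
      (p := N ⊓ perp S.be (F ∙ p)) (fun h0 => by rw [h0, finrank_bot, hN2] at h1; omega)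
    exact ⟨x, hx.1, hx0, mem_perp_single.1 hx.2⟩
  obtain ⟨p₁, hp₁, hp₁0⟩ := hw.exists_mid_ne S.sym_be H.dB
  obtain ⟨p₁', hp₁', hp₁'0, hpp₁⟩ := horth p₁ hp₁ hp₁0
  set p₂ := p₁ + p₁' with hp₂def
  have hp₂ : p₂ ∈ N := Submodule.add_mem _ hp₁ hp₁'
  have hli : ∀ c : F, p₂ ≠ c • p₁ := fun c h0 => hNa p₁' hp₁' hp₁'0 (by
    have := congrArg (S.be p₁') h0
    simpa [hp₂def, S.be_symm p₁' p₁, hpp₁] using this)
  have hp₂0 : p₂ ≠ 0 := fun h0 => hli 0 (by rw [h0, zero_smul])
  have hli' : ∀ c : F, p₁ ≠ c • p₂ := fun c h0 => by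
    rcases eq_or_ne c 0 with rfl | hc
    · exact hp₁0 (by rw [h0, zero_smul])
    · exact hli c⁻¹ (by rw [h0, inv_smul_smul₀ hc])
  have h12 : S.be p₁ p₂ ≠ 0 := by rw [hp₂def, map_add, hpp₁, add_zero]; exact hNa p₁ hp₁ hp₁0
  -- the family of involutions
  have hfam : ∀ a b : B, S.be a a ≠ 0 → S.be b b ≠ 0 → S.be a b = 0 →
      ∃ v, S.al v v ≠ 0 ∧ ∀ X, j (S.tmap (rot S.al v) (refl S.be a ∘ₗ refl S.be b) X) =
        S.tmap (rot S.al v) (refl S.be a ∘ₗ refl S.be b) (j X) := fun a b ha hb hab => by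
    obtain ⟨h1, h2⟩ := refl_pair_invol S.sym_be ha hb hab
    rw [H.four] at h2
    exact H.comm_step hno hjM hjj hj4 hjT (isSO_refl_refl S.sym_be ha hb) h1 (by omega)
  obtain ⟨v₀, hv₀, hc₀⟩ := hfam p₁ p₁' (hNa _ hp₁ hp₁0) (hNa _ hp₁' hp₁'0) hpp₁
  set b₀ := refl S.be p₁ ∘ₗ refl S.be p₁'
  have hb₀ : ∀ p p', p ∈ N → p' ∈ N → p ≠ 0 → p' ≠ 0 → S.be p p' = 0 → refl S.be p ∘ₗ refl S.be p' = b₀ := by
    have key : ∀ p p', p ∈ N → p' ∈ N → p ≠ 0 → p' ≠ 0 → S.be p p' = 0 →
        ∀ n ∈ N, refl S.be p (refl S.be p' n) = -n := by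
      intro p p' hp hp' hp0 hp'0 hpp n hn
      have hp'p : S.be p' p = 0 := by rw [S.be_symm]; exact hpp
      have hm : refl S.be p (refl S.be p' n) + n ∈ N := by
        simp only [refl_apply]
        exact Submodule.add_mem _ (Submodule.sub_mem _ (Submodule.sub_mem _ hn (Submodule.smul_mem _ _ hp'))
          (Submodule.smul_mem _ _ hp)) hn
      refine eq_neg_of_add_eq_zero_left (eq_zero_of_perp_pair S.sym_be hN hN2 hp hp' hp0
        (fun c h0 => hNa p' hp' hp'0 (by conv_lhs => arg 2; rw [h0]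
                                         simp [hp'p])) hm ?_ ?_)
      · have := hNa p hp hp0
        simp only [refl_apply, map_add, map_sub, map_smul, smul_eq_mul, hpp]
        field_simp
        ring
      · have := hNa p' hp' hp'0
        simp only [refl_apply, map_add, map_sub, map_smul, smul_eq_mul, hp'p]
        field_simp
        ring
    intro p p' hp hp' hp0 hp'0 hpp
    have hfix : ∀ {x : B}, (∀ n ∈ N, S.be n x = 0) → ∀ q q', q ∈ N → q' ∈ N →
        (refl S.be q ∘ₗ refl S.be q') x = x := fun {x} hx q q' hq hq' => by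
      rw [LinearMap.comp_apply, Sym.refl_perp (hx q' hq'), Sym.refl_perp (hx q hq)]
    have h1 : ∀ n ∈ N, S.be n w = 0 := fun n hn => by rw [S.be_symm]; exact (mem_mid.1 hn).1
    have h2 : ∀ n ∈ N, S.be n w' = 0 := fun n hn => by rw [S.be_symm]; exact (mem_mid.1 hn).2
    exact hw.hom_ext S.sym_be ((hfix h1 p p' hp hp').trans (hfix h1 p₁ p₁' hp₁ hp₁').symm)
      ((hfix h2 p p' hp hp').trans (hfix h2 p₁ p₁' hp₁ hp₁').symm) fun n hn =>
      (key p p' hp hp' hp0 hp'0 hpp n hn).trans (key p₁ p₁' hp₁ hp₁' hp₁0 hp₁'0 hpp₁ n hn).symm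
  let l : Fˣ → B := fun t => w + (t : F) • w'
  have hlN : ∀ (t : Fˣ), ∀ n ∈ N, S.be (l t) n = 0 := fun t n hn => by
    simp [l, (mem_mid.1 hn).1, (mem_mid.1 hn).2]
  have hll : ∀ t : Fˣ, S.be (l t) (l t) = 2 * (t : F) := fun t => by
    simp [l, hw.left, hw.right, hw.pair, hw.pair' S.sym_be]; ring
  have hll0 : ∀ t : Fˣ, S.be (l t) (l t) ≠ 0 := fun t => by rw [hll]; exact mul_ne_zero S.two t.ne_zero
  let P : Fin 2 → B := ![p₁, p₂]
  have hP : ∀ i, P i ∈ N ∧ P i ≠ 0 := Fin.forall_fin_two.2 ⟨⟨hp₁, hp₁0⟩, hp₂, hp₂0⟩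
  choose vQ hvQ hcQ using fun Q : Fˣ × Fin 2 =>
    hfam (l Q.1) (P Q.2) (hll0 Q.1) (hNa _ (hP Q.2).1 (hP Q.2).2) (hlN Q.1 _ (hP Q.2).1)
  have hsplit : ∀ {s : A →ₗ[F] A}, IsSO S.al s →
      (∀ X, j (S.tmap s LinearMap.id X) = S.tmap s LinearMap.id (j X)) → s = LinearMap.id := by
    intro s hs hc
    by_contra hne
    obtain ⟨u, hu0, hu, hfix⟩ := exists_fix_line S.sym_al H.three hs hne
    have hE := S.map_fixed hs.1 hu0 hfix hu hc
    rcases ne_or_eq (S.al u u) 0 with huu | huu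
    · exact hjT (H.isT_of_aniso hno huu hjM hE)
    · obtain ⟨u', hu'⟩ := exists_frame S.sym_al H.wA huu hu0
      exact hjT (H.toSide.isT_of_frames hno hu' hu' hjM hE)
  have hrot : ∀ {u : A}, S.al u u ≠ 0 → IsSO S.al (rot S.al u) := fun {u} hu =>
    rot_isSO S.sym_al (by rw [H.three]; decide) hu
  have hperp : ∀ Q, S.al v₀ (vQ Q) = 0 := by
    intro Q
    obtain ⟨p', hp', hp'0, hpp⟩ := horth _ (hP Q.2).1 (hP Q.2).2
    obtain ⟨v', hv', hc'⟩ := hfam (l Q.1) p' (hll0 Q.1) (hNa _ hp' hp'0) (hlN Q.1 _ hp')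
    have hprod : b₀ ∘ₗ (refl S.be (l Q.1) ∘ₗ refl S.be (P Q.2)) ∘ₗ (refl S.be (l Q.1) ∘ₗ refl S.be p') =
        LinearMap.id := by
      rw [← hb₀ _ _ (hP Q.2).1 hp' (hP Q.2).2 hp'0 hpp]
      refine LinearMap.ext fun x => ?_
      have a1 := hlN Q.1 _ (hP Q.2).1
      have a2 := hlN Q.1 _ hp'
      have a3 : S.be (P Q.2) (l Q.1) = 0 := by rw [S.be_symm]; exact a1
      have a4 : S.be p' (l Q.1) = 0 := by rw [S.be_symm]; exact a2
      have a5 : S.be p' (P Q.2) = 0 := by rw [S.be_symm]; exact hpp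
      have b1 := hll0 Q.1
      have b2 := hNa _ (hP Q.2).1 (hP Q.2).2
      have b3 := hNa _ hp' hp'0
      simp only [LinearMap.comp_apply, LinearMap.id_apply, refl_apply, map_sub, map_smul, smul_eq_mul, a1, a2, a3,
        a4, a5, hpp]
      match_scalars <;> field_simp <;> ring
    have hs := hsplit ((hrot hv₀).comp ((hrot (hvQ Q)).comp (hrot hv'))) fun X => by
      rw [← hprod, ← S.tmap_comp, ← S.tmap_comp]
      simp only [LinearMap.comp_apply]
      rw [hc₀, hcQ, hc']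
    have hs' : ∀ a, rot S.al v₀ (rot S.al (vQ Q) a) = rot S.al v' a := fun a => by
      have := LinearMap.congr_fun hs (rot S.al v' a)
      simpa [rot_rot S.sym_al] using this
    have hcom : rot S.al v₀ (rot S.al (vQ Q) v₀) = rot S.al (vQ Q) v₀ := by
      have h1 := rot_rot S.sym_al v' v₀
      rw [← hs', ← hs'] at h1
      have h2 := congrArg (fun a => rot S.al (vQ Q) (rot S.al v₀ a)) h1
      simp only [rot_rot S.sym_al, rot_self S.sym_al hv₀] at h2
      exact h2
    obtain ⟨d, hd⟩ := rot_fixed S.sym_al hv₀ hcom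
    have hdd : d = 1 ∨ d = -1 := by
      have := (hrot (hvQ Q)).1 v₀ v₀
      rw [hd, map_smul, map_smul, LinearMap.smul_apply, smul_eq_mul, smul_eq_mul, ← mul_assoc] at this
      exact mul_self_eq_one_iff.1 (mul_right_cancel₀ hv₀ (by rw [one_mul]; exact this))
    rcases hdd with rfl | rfl
    · exfalso
      rw [one_smul] at hd
      obtain ⟨c, hc⟩ := rot_fixed S.sym_al (hvQ Q) hd
      have hc0 : c ≠ 0 := fun h0 => hv₀ (by simp [hc, h0])
      refine H.rot_ne_smul hv' 1 (LinearMap.ext fun a => ?_)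
      rw [← hs', hc, rot_smul_vec S.al hc0, rot_rot S.sym_al, one_smul, LinearMap.id_apply]
    · rw [rot_apply, neg_one_smul, sub_eq_neg_self, smul_eq_zero] at hd
      rcases hd with h0 | h0
      · rw [mul_eq_zero, div_eq_zero_iff] at h0
        rcases h0 with (h0 | h0) | h0
        · exact absurd h0 S.two
        · exact absurd h0 (hvQ Q)
        · rw [S.al_symm]; exact h0
      · exact absurd (by simp [h0]) (hvQ Q)
  -- two members of the family share their line
  have hv₀0 : v₀ ≠ 0 := fun h0 => hv₀ (by simp [h0])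
  have hdim : finrank F (perp S.al (F ∙ v₀)) = 2 := by
    have := S.sym_al.finrank_perp (F ∙ v₀)
    rw [finrank_span_singleton hv₀0, H.three] at this
    omega
  let bs := Module.finBasisOfFinrankEq F (perp S.al (F ∙ v₀)) hdim
  let co : Fˣ × Fin 2 → Fin 2 → F := fun Q => bs.repr ⟨vQ Q, mem_perp_single.2 (hperp Q)⟩
  have hco : ∀ Q, vQ Q = co Q 0 • (bs 0 : A) + co Q 1 • (bs 1 : A) := fun Q => by
    have := congrArg Subtype.val (bs.sum_repr ⟨vQ Q, mem_perp_single.2 (hperp Q)⟩)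
    simp only [Fin.sum_univ_two, Submodule.coe_add, Submodule.coe_smul] at this
    exact this.symm
  let f : Fˣ × Fin 2 → Option F := fun Q => if co Q 0 = 0 then none else some (co Q 1 / co Q 0)
  obtain ⟨Q₁, Q₂, hne, hf⟩ := Fintype.exists_ne_map_eq_of_card_lt f (by
    rw [Fintype.card_option, Fintype.card_prod, Fintype.card_units, Fintype.card_fin]
    have := H.hq
    rw [Nat.card_eq_fintype_card] at this
    omega)
  obtain ⟨c, hc0, hcv⟩ : ∃ c : F, c ≠ 0 ∧ vQ Q₂ = c • vQ Q₁ := by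
    have hne0 : ∀ Q, co Q 0 = 0 → co Q 1 ≠ 0 := fun Q h0 h1 => hvQ Q (by
      rw [hco, h0, h1]; simp)
    simp only [f] at hf
    by_cases h1 : co Q₁ 0 = 0 <;> by_cases h2 : co Q₂ 0 = 0
    · refine ⟨co Q₂ 1 / co Q₁ 1, div_ne_zero (hne0 _ h2) (hne0 _ h1), ?_⟩
      rw [hco, hco Q₁, h1, h2]
      simp [smul_smul, div_mul_cancel₀ _ (hne0 _ h1)]
    · simp [h1, h2] at hf
    · simp [h1, h2] at hf
    · simp only [h1, h2, if_false, Option.some.injEq] at hf
      refine ⟨co Q₂ 0 / co Q₁ 0, div_ne_zero h2 h1, ?_⟩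
      rw [hco, hco Q₁, smul_add, smul_smul, smul_smul, div_mul_cancel₀ _ h1,
        show co Q₂ 0 / co Q₁ 0 * co Q₁ 1 = co Q₂ 1 by field_simp at hf ⊢; linear_combination hf]
  have hrr : rot S.al (vQ Q₂) = rot S.al (vQ Q₁) := by rw [hcv, rot_smul_vec S.al hc0]
  set B₁ := refl S.be (l Q₁.1) ∘ₗ refl S.be (P Q₁.2) with hB₁
  set B₂ := refl S.be (l Q₂.1) ∘ₗ refl S.be (P Q₂.2) with hB₂
  set D := B₁ ∘ₗ B₂ + B₂ ∘ₗ B₁ with hD
  have hDc : ∀ X, j (S.tmap LinearMap.id D X) = S.tmap LinearMap.id D (j X) := fun X => by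
    have hid : rot S.al (vQ Q₁) ∘ₗ rot S.al (vQ Q₁) = LinearMap.id := LinearMap.ext (rot_rot S.sym_al _)
    have e : S.tmap LinearMap.id D = S.tmap (rot S.al (vQ Q₁)) B₁ ∘ₗ S.tmap (rot S.al (vQ Q₂)) B₂ +
        S.tmap (rot S.al (vQ Q₂)) B₂ ∘ₗ S.tmap (rot S.al (vQ Q₁)) B₁ := by
      rw [hD, S.tmap_comp, S.tmap_comp, hrr, hid, S.tmap_add_right]
    simp only [e, LinearMap.add_apply, LinearMap.comp_apply, map_add, hB₁, hB₂, hcQ]
  set t₁ : F := ((Q₁.1 : Fˣ) : F) with ht₁def
  set t₂ : F := ((Q₂.1 : Fˣ) : F) with ht₂def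
  have ht₁ : t₁ ≠ 0 := Q₁.1.ne_zero
  have ht₂ : t₂ ≠ 0 := Q₂.1.ne_zero
  have hBw : ∀ Q : Fˣ × Fin 2, (refl S.be (l Q.1) ∘ₗ refl S.be (P Q.2)) w = -(Q.1 : F) • w' ∧
      (refl S.be (l Q.1) ∘ₗ refl S.be (P Q.2)) w' = -(Q.1 : F)⁻¹ • w := fun Q => by
    have h1 : S.be (P Q.2) w = 0 := by rw [S.be_symm]; exact (mem_mid.1 (hP Q.2).1).1
    have h2 : S.be (P Q.2) w' = 0 := by rw [S.be_symm]; exact (mem_mid.1 (hP Q.2).1).2
    have ht := Q.1.ne_zero
    have h2' := S.two
    constructor <;> simp only [LinearMap.comp_apply, Sym.refl_perp h1, Sym.refl_perp h2, refl_apply, hll] <;>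
      simp only [l, map_add, map_smul, LinearMap.add_apply, LinearMap.smul_apply, smul_eq_mul, hw.left, hw.right,
        hw.pair, hw.pair' S.sym_be] <;>
      match_scalars <;> field_simp <;> ring
  have hDw : D w = (t₂ / t₁ + t₁ / t₂) • w := by
    simp only [hD, hB₁, hB₂, LinearMap.add_apply, LinearMap.comp_apply (f := refl S.be (l Q₁.1) ∘ₗ _),
      LinearMap.comp_apply (f := refl S.be (l Q₂.1) ∘ₗ _), (hBw Q₁).1, (hBw Q₂).1, map_smul, (hBw Q₁).2, (hBw Q₂).2,
      smul_smul]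
    rw [← add_smul]
    congr 1
    show -t₂ * -t₁⁻¹ + -t₁ * -t₂⁻¹ = _
    field_simp
  have hDw' : D w' = (t₂ / t₁ + t₁ / t₂) • w' := by
    simp only [hD, hB₁, hB₂, LinearMap.add_apply, LinearMap.comp_apply (f := refl S.be (l Q₁.1) ∘ₗ _),
      LinearMap.comp_apply (f := refl S.be (l Q₂.1) ∘ₗ _), (hBw Q₁).1, (hBw Q₂).1, map_smul, (hBw Q₁).2, (hBw Q₂).2,
      smul_smul]
    rw [← add_smul]
    congr 1
    show -t₂⁻¹ * -t₁ + -t₁⁻¹ * -t₂ = _
    field_simp
    ring
  have hBn : ∀ (Q : Fˣ × Fin 2), ∀ n ∈ N, (refl S.be (l Q.1) ∘ₗ refl S.be (P Q.2)) n = refl S.be (P Q.2) n := by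
    intro Q n hn
    refine Sym.refl_perp (hlN _ _ ?_)
    rw [refl_apply]
    exact Submodule.sub_mem _ hn (Submodule.smul_mem _ _ (hP Q.2).1)
  have hrN : ∀ i, ∀ n ∈ N, refl S.be (P i) n ∈ N := fun i n hn => by
    rw [refl_apply]
    exact Submodule.sub_mem _ hn (Submodule.smul_mem _ _ (hP i).1)
  refine hjT (H.isT_of_split hno hw hjM (S.split_of_comm hw hDw hDw' (fun n hn => ?_) hDc))
  set cc := t₂ / t₁ + t₁ / t₂ with hcc
  have hm := hw.decomp S.sym_be n
  set m := n - S.be w' n • w - S.be w n • w' with hmdef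
  have h2 : D m = cc • m := by
    rw [hmdef, map_sub, map_sub, map_smul, map_smul, hn, hDw, hDw']
    module
  have hBn' : ∀ (Q : Fˣ × Fin 2), ∀ n ∈ N, refl S.be (l Q.1) (refl S.be (P Q.2) n) = refl S.be (P Q.2) n := hBn
  simp only [hD, hB₁, hB₂, LinearMap.add_apply, LinearMap.comp_apply] at h2
  rw [hBn' Q₁ m hm, hBn' Q₂ m hm, hBn' Q₁ _ (hrN _ _ hm), hBn' Q₂ _ (hrN _ _ hm)] at h2
  suffices hm0 : m = 0 by
    exact ⟨S.be w' n, S.be w n, by rw [hmdef, sub_sub, sub_eq_zero] at hm0; exact hm0⟩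
  by_cases hi : Q₁.2 = Q₂.2
  · rw [hi, S.sym_be.refl_refl, ← two_smul F, ← sub_eq_zero, ← sub_smul, smul_eq_zero] at h2
    refine h2.resolve_left fun h0 => hne (Prod.ext (Units.ext ?_) hi)
    rw [hcc] at h0
    field_simp at h0
    have hsq : (t₁ - t₂) ^ 2 = 0 := by linear_combination -h0
    exact sub_eq_zero.1 (eq_zero_of_pow_eq_zero hsq)
  · -- the two middle vectors are `p₁` and `p₂`
    have h3 : refl S.be p₁ (refl S.be p₂ m) + refl S.be p₂ (refl S.be p₁ m) = cc • m := by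
      have hcases : Q₁.2 = 0 ∧ Q₂.2 = 1 ∨ Q₁.2 = 1 ∧ Q₂.2 = 0 := by omega
      rcases hcases with ⟨e1, e2⟩ | ⟨e1, e2⟩
      · simpa [e1, e2, P] using h2
      · rw [add_comm]; simpa [e1, e2, P] using h2
    have haniso : ∀ z ∈ N, S.be z z = 0 → z = 0 := fun z hz => hw.aniso' hz
    have hk : t₂ / t₁ ≠ 0 := div_ne_zero ht₂ ht₁
    have hcc' : cc = t₂ / t₁ + (t₂ / t₁)⁻¹ := by rw [hcc, inv_div]
    have r1 := S.sym_be.refl_refl p₁
    have r2 := S.sym_be.refl_refl p₂
    have key1 : refl S.be p₁ (refl S.be p₂ (refl S.be p₁ m)) + refl S.be p₂ (refl S.be p₁ (refl S.be p₁ m)) =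
        cc • refl S.be p₁ m := by
      have := congrArg (refl S.be p₁) h3
      rw [map_add, map_smul, r1] at this
      rw [← this, r1, add_comm]
    have key2 : refl S.be p₁ (refl S.be p₂ (refl S.be p₂ m)) + refl S.be p₂ (refl S.be p₁ (refl S.be p₂ m)) =
        cc • refl S.be p₂ m := by
      have := congrArg (refl S.be p₂) h3
      rw [map_add, map_smul, r2] at this
      rw [← this, r2, add_comm]
    have z1 : S.be p₁ m = 0 := by
      by_contra hne1
      refine refl_pair_sum_ne S.sym_be haniso hp₁ hp₂ hli hp₁0 h12 hk ?_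
      have hd : 2 / S.be p₁ p₁ * S.be p₁ m ≠ 0 :=
        mul_ne_zero (div_ne_zero S.two (hNa _ hp₁ hp₁0)) hne1
      set d := (2 / S.be p₁ p₁ * S.be p₁ m)⁻¹ with hddef
      have he : d • (m - refl S.be p₁ m) = p₁ := by
        rw [refl_apply, sub_sub_cancel, hddef, inv_smul_smul₀ hd]
      let L : B →ₗ[F] B := refl S.be p₁ ∘ₗ refl S.be p₂ + refl S.be p₂ ∘ₗ refl S.be p₁
      have hL : L (d • (m - refl S.be p₁ m)) = cc • (d • (m - refl S.be p₁ m)) := by
        rw [map_smul, map_sub, show L m = cc • m from h3, show L (refl S.be p₁ m) = cc • refl S.be p₁ m from key1,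
          ← smul_sub, smul_comm]
      rw [he] at hL
      rw [← hcc', ← hL]
      rfl
    have z2 : S.be p₂ m = 0 := by
      by_contra hne1
      refine refl_pair_sum_ne S.sym_be haniso hp₂ hp₁ hli' hp₂0 (by rwa [S.be_symm]) hk ?_
      have hd : 2 / S.be p₂ p₂ * S.be p₂ m ≠ 0 :=
        mul_ne_zero (div_ne_zero S.two (hNa _ hp₂ hp₂0)) hne1
      set d := (2 / S.be p₂ p₂ * S.be p₂ m)⁻¹ with hddef
      have he : d • (m - refl S.be p₂ m) = p₂ := by
        rw [refl_apply, sub_sub_cancel, hddef, inv_smul_smul₀ hd]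
      let L : B →ₗ[F] B := refl S.be p₁ ∘ₗ refl S.be p₂ + refl S.be p₂ ∘ₗ refl S.be p₁
      have hL : L (d • (m - refl S.be p₂ m)) = cc • (d • (m - refl S.be p₂ m)) := by
        rw [map_smul, map_sub, show L m = cc • m from h3, show L (refl S.be p₂ m) = cc • refl S.be p₂ m from key2,
          ← smul_sub, smul_comm]
      rw [he] at hL
      rw [← hcc', ← hL, add_comm]
      rfl
    exact eq_zero_of_perp_pair S.sym_be hN hN2 hp₁ hp₂ hp₁0 hli hm z1 z2

end Hyp

end CfsgLib.OTensor90
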