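import Cfsg.Agent.OTensor90.Form

/-!
Endomorphisms fixed by the Eichler maps of a frame, rotations of determinant one, and the fixed line of
an isometry of determinant one in dimension three.
-/

set_option autoImplicit false
set_option linter.unusedSectionVars false
set_option linter.unusedSimpArgs false
set_option linter.unusedVariables false

namespace CfsgLib.OTensor90

open Module CfsgLib.SpO90

variable {F : Type*} [Field F] [Finite F] {W : Type*} [AddCommGroup W] [Module F W] [FiniteDimensional F W]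
variable {β : LinearMap.BilinForm F W} {e e' : W}

lemma beta_right_eich (hs : Sym β) (hf : Frame β e e') {y : W} (hy : y ∈ mid β e e') (x : W) :
    β e' (eich β e y x) = β e' x + β y x - β y y / 2 * β e x := by
  have h2 : β e' y = 0 := (mem_mid.1 hy).2
  rw [eich_apply, map_sub, map_sub, map_add, map_smul, map_smul, map_smul, hf.pair' hs, h2]
  simp only [smul_eq_mul]
  ring

lemma beta_left_eich (hs : Sym β) (hf : Frame β e e') {y : W} (hy : y ∈ mid β e e') (x : W) :
    β e (eich β e y x) = β e x := by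
  simp [eich_apply, hf.left, (mem_mid.1 hy).1]

lemma beta_mid_eich (hs : Sym β) (hf : Frame β e e') {y z : W} (hy : y ∈ mid β e e')
    (hz : z ∈ mid β e e') (x : W) : β z (eich β e y x) = β z x - β e x * β z y := by
  simp [eich_apply, hs.symm z e, (mem_mid.1 hz).1]

lemma eq_of_mid (hs : Sym β) (hf : Frame β e e') {q : W} (h1 : ∀ y ∈ mid β e e', β y q = 0) :
    q = β e' q • e + β e q • e' := by
  have hd := hf.decomp hs q
  have h : q - β e' q • e - β e q • e' = 0 := by
    refine hf.nd_mid hs _ hd fun y hy => ?_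
    obtain ⟨hy1, hy2⟩ := mem_mid.1 hy
    rw [hs.symm]
    simp [h1 y hy, hy1, hy2, hs.symm y e, hs.symm y e']
  calc q = q - β e' q • e - β e q • e' + (β e' q • e + β e q • e') := by abel
    _ = _ := by rw [h, zero_add]

/-- A self-adjoint map which commutes with the Eichler maps up to scalars. -/
theorem fixed_selfadj (hs : Sym β) (hf : Frame β e e') (hd : 3 ≤ finrank F W)
    (hq : ∃ k : F, k ≠ 0 ∧ k ^ 2 ≠ 1) {φ : W →ₗ[F] W} (hφ : ∀ u v, β (φ u) v = β u (φ v))
    (h : ∀ y ∈ mid β e e', ∃ σ : F, ∀ x, eich β e y (φ x) - φ (eich β e y x) = σ • eich β e y x) :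
    ∃ a c : F, ∀ x, φ x = a • x + (c * β e x) • e := by
  have h2 := hs.two_ne
  have had : ∀ u v, β u (φ v) = β (φ u) v := fun u v => (hφ u v).symm
  set q := φ e with hqd
  set q' := φ e' with hqd'
  have key : ∀ y ∈ mid β e e', β e q * β y y = 0 ∧ ∃ σ : F, σ = β q y + β y y / 2 * β e q ∧
      4 * β y q' = -(σ * β y y) ∧
      ∀ z ∈ mid β e e', β q' z + β y (φ z) - β y y / 2 * β q z - β q' (z + β y z • e) = σ * β y z := by
    intro y hy
    obtain ⟨σ, hσ⟩ := h y hy
    obtain ⟨hy1, hy2⟩ := mem_mid.1 hy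
    have e1 := congrArg (β e) (hσ e')
    simp only [map_sub, map_smul, smul_eq_mul, beta_left_eich hs hf hy, hf.pair, mul_one] at e1
    rw [had, had, eich_right hs hf hy, ← hqd] at e1
    simp only [map_sub, map_smul, smul_eq_mul, hs.symm q e] at e1
    have e2 := congrArg (β y) (hσ e)
    simp only [map_sub, map_smul, smul_eq_mul, beta_mid_eich hs hf hy hy, eich_left hs hf hy, ← hqd,
      hs.symm y e, hy1, mul_zero] at e2
    have e3 := congrArg (β e') (hσ e')
    simp only [map_sub, map_smul, smul_eq_mul, beta_right_eich hs hf hy, ← hqd', hf.pair, hf.right,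
      hs.symm y e', hy2] at e3
    rw [had e' (eich β e y e'), ← hqd', eich_right hs hf hy] at e3
    simp only [map_sub, map_smul, smul_eq_mul, hs.symm q' e, hs.symm q' e', hs.symm q' y] at e3
    refine ⟨by linear_combination -e2, σ, by linear_combination -e1, ?_, fun z hz => ?_⟩
    · field_simp at e3
      linear_combination e3
    · have e4 := congrArg (β e') (hσ z)
      simp only [map_sub, map_smul, smul_eq_mul, beta_right_eich hs hf hy, (mem_mid.1 hz).1, (mem_mid.1 hz).2,
        mul_zero, sub_zero, zero_add] at e4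
      rw [eich_mid hs hf hz, had e' (z + β y z • e), had e' z, had e z, ← hqd, ← hqd'] at e4
      exact e4
  obtain ⟨y₀, hy₀, hy₀0⟩ := hf.exists_mid_ne hs hd
  have hγ : β e q = 0 :=
    (mul_eq_zero.1 (key y₀ hy₀).1).resolve_right fun h0 => hy₀0 (hf.aniso' hy₀ h0)
  obtain ⟨k, hk, hk2⟩ := hq
  have hzero : ∀ y ∈ mid β e e', β y q = 0 ∧ β y q' = 0 := by
    intro y hy
    obtain ⟨-, σ, hσ, h4, -⟩ := key y hy
    obtain ⟨-, σ', hσ', h4', -⟩ := key (k • y) (Submodule.smul_mem _ _ hy)
    rw [hγ, mul_zero, add_zero] at hσ hσ'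
    subst hσ hσ'
    simp only [map_smul, LinearMap.smul_apply, smul_eq_mul] at h4'
    have h5 : β q y * β y y * (k * (k ^ 2 - 1)) = 0 := by linear_combination h4' - k * h4
    have h6 : β q y * β y y = 0 := (mul_eq_zero.1 h5).resolve_right (mul_ne_zero hk (sub_ne_zero.2 hk2))
    have h4z : (2 * 2 : F) * β y q' = 0 := by linear_combination h4 - h6
    refine ⟨?_, (mul_eq_zero.1 h4z).resolve_left (mul_ne_zero h2 h2)⟩
    rw [hs.symm]
    rcases mul_eq_zero.1 h6 with h7 | h7
    · exact h7
    · simp [hf.aniso' hy h7]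
  have hqe : q = β e' q • e := by
    have := eq_of_mid hs hf (fun y hy => (hzero y hy).1)
    rwa [hγ, zero_smul, add_zero] at this
  have hq'e : q' = β e' q' • e + β e q' • e' := eq_of_mid hs hf fun y hy => (hzero y hy).2
  set a := β e' q with ha
  have haq : β e q' = a := by rw [ha, hqd', had, ← hqd, hs.symm]
  have hmid : ∀ z ∈ mid β e e', φ z = a • z := by
    intro z hz
    obtain ⟨hz1, hz2⟩ := mem_mid.1 hz
    have h3 : φ z ∈ mid β e e' := mem_mid.2
      ⟨by rw [had, ← hqd, hs.symm]; exact (hzero z hz).1, by rw [had, ← hqd', hs.symm]; exact (hzero z hz).2⟩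
    refine sub_eq_zero.1 (hf.nd_mid hs _ (Submodule.sub_mem _ h3 (Submodule.smul_mem _ a hz)) fun y hy => ?_)
    obtain ⟨-, σ, hσ, -, h8⟩ := key y hy
    have h9 := h8 z hz
    rw [hσ, hγ, hs.symm q y, (hzero y hy).1, hs.symm q z, (hzero z hz).1, map_add, map_smul, smul_eq_mul,
      hs.symm q' e, haq] at h9
    simp only [map_sub, map_smul, LinearMap.sub_apply, LinearMap.smul_apply, smul_eq_mul, hs.symm _ y]
    linear_combination h9
  refine ⟨a, β e' q', fun x => LinearMap.congr_fun (hf.hom_ext hs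
    (g := a • LinearMap.id + (β e' q') • (β e).smulRight e) ?_ ?_ fun z hz => ?_) x |>.trans ?_⟩
  · rw [← hqd, hqe]; simp [hf.left]
  · rw [← hqd']
    conv_lhs => rw [hq'e, haq]
    simp [hf.pair]
    abel
  · simp [hmid z hz, (mem_mid.1 hz).1]
  · simp [smul_smul]

/-- A skew map which commutes with the Eichler maps. -/
theorem fixed_skew (hs : Sym β) (hf : Frame β e e') (hd : 3 ≤ finrank F W) {τ : W →ₗ[F] W}
    (hτ : ∀ u v, β (τ u) v = -β u (τ v))
    (h : ∀ y ∈ mid β e e', ∀ x, eich β e y (τ x) = τ (eich β e y x)) :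
    ∃ x₀ ∈ mid β e e', ∀ x, τ x = β e x • x₀ - β x₀ x • e := by
  have h2 := hs.two_ne
  have hsk : ∀ u v, β u (τ v) = -β (τ u) v := fun u v => by rw [hτ, neg_neg]
  have hdiag : ∀ u, β u (τ u) = 0 := fun u => by
    have h3 : (2 : F) * β u (τ u) = 0 := by
      have := hsk u u
      rw [hs.symm (τ u) u] at this
      linear_combination this
    exact (mul_eq_zero.1 h3).resolve_left h2
  have hq0 : ∀ y ∈ mid β e e', β y (τ e) = 0 := fun y hy => by
    have := congrArg (β e') (h y hy e)
    simp only [beta_right_eich hs hf hy, eich_left hs hf hy, hdiag e, mul_zero] at this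
    linear_combination this
  have hqe : τ e = β e' (τ e) • e := by
    have := eq_of_mid hs hf hq0
    rwa [hdiag e, zero_smul, add_zero] at this
  set a := β e' (τ e)
  have hdz : ∀ z ∈ mid β e e', β e (τ z) = 0 := fun z hz => by
    rw [hsk, hs.symm, hq0 z hz, neg_zero]
  have hmid : ∀ y ∈ mid β e e', ∀ z ∈ mid β e e', β y (τ z) = a * β y z := by
    intro y hy z hz
    have := congrArg (β e') (h y hy z)
    simp only [beta_right_eich hs hf hy, eich_mid hs hf hz, map_add, map_smul, smul_eq_mul, hdz z hz] at this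
    linear_combination this
  obtain ⟨y₀, hy₀, hy₀0⟩ := hf.exists_mid_ne hs hd
  have ha : a = 0 := by
    have := hmid y₀ hy₀ y₀ hy₀
    rw [hdiag y₀] at this
    exact (mul_eq_zero.1 this.symm).resolve_right fun h0 => hy₀0 (hf.aniso' hy₀ h0)
  rw [ha, zero_smul] at hqe
  have hx0 : τ e' ∈ mid β e e' := mem_mid.2 ⟨by rw [hsk, hqe]; simp, hdiag e'⟩
  refine ⟨τ e', hx0, fun x => LinearMap.congr_fun (hf.hom_ext hs (f := τ)
    (g := (β e).smulRight (τ e') - (β (τ e')).smulRight e) ?_ ?_ fun z hz => ?_) x |>.trans ?_⟩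
  · simp [hqe, hf.left, hs.symm (τ e') e, (mem_mid.1 hx0).1]
  · simp [hf.pair, hs.symm (τ e') e', hdiag e']
  · have h3 := eq_of_mid hs hf (q := τ z) fun y hy => by rw [hmid y hy z hz, ha, zero_mul]
    rw [h3, hdz z hz, hsk e' z]
    simp [(mem_mid.1 hz).1]
  · simp

/-- A map commuting with the Eichler maps of both vectors of a frame is a scalar. -/
theorem commutant (hs : Sym β) (hf : Frame β e e') (hd : 3 ≤ finrank F W) {φ : W →ₗ[F] W}
    (h : ∀ y ∈ mid β e e', ∀ x, eich β e y (φ x) = φ (eich β e y x))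
    (h' : ∀ y ∈ mid β e e', ∀ x, eich β e' y (φ x) = φ (eich β e' y x)) :
    ∃ a : F, ∀ x, φ x = a • x := by
  obtain ⟨y₀, hy₀, hy₀0⟩ := hf.exists_mid_ne hs hd
  have hyy : β y₀ y₀ ≠ 0 := fun h0 => hy₀0 (hf.aniso' hy₀ h0)
  have half : ∀ {u u' : W}, Frame β u u' → (∀ y ∈ mid β u u', ∀ x, eich β u y (φ x) = φ (eich β u y x)) →
      y₀ ∈ mid β u u' → φ u = β u' (φ u) • u ∧
      ∀ z ∈ mid β u u', β u (φ z) = 0 ∧ ∀ y ∈ mid β u u', β y (φ z) = β u' (φ u) * β y z := by
    intro u u' hf h hy₀
    have h1 := h y₀ hy₀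
    have hγ : β u (φ u) = 0 := by
      have := congrArg (β y₀) (h1 u)
      rw [beta_mid_eich hs hf hy₀ hy₀, eich_left hs hf hy₀] at this
      exact (mul_eq_zero.1 (show β u (φ u) * β y₀ y₀ = 0 by linear_combination -this)).resolve_right hyy
    have hq : ∀ y ∈ mid β u u', β y (φ u) = 0 := fun y hy => by
      have := congrArg (β u') (h y hy u)
      rw [beta_right_eich hs hf hy, eich_left hs hf hy, hγ] at this
      linear_combination this
    have hqe : φ u = β u' (φ u) • u := by
      have := eq_of_mid hs hf hq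
      rwa [hγ, zero_smul, add_zero] at this
    refine ⟨hqe, fun z hz => ?_⟩
    have hd0 : β u (φ z) = 0 := by
      have := congrArg (β y₀) (h1 z)
      rw [beta_mid_eich hs hf hy₀ hy₀, eich_mid hs hf hz, map_add, map_smul, map_add, map_smul,
        hq y₀ hy₀, smul_zero, add_zero] at this
      exact (mul_eq_zero.1 (show β u (φ z) * β y₀ y₀ = 0 by linear_combination -this)).resolve_right hyy
    refine ⟨hd0, fun y hy => ?_⟩
    have := congrArg (β u') (h y hy z)
    rw [beta_right_eich hs hf hy, eich_mid hs hf hz, map_add, map_smul, map_add, map_smul, hd0] at this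
    simp only [smul_eq_mul] at this
    linear_combination this
  have hm : mid β e' e = mid β e e' := Submodule.ext fun z => by simp [mem_mid, and_comm]
  obtain ⟨he, hz⟩ := half hf h hy₀
  obtain ⟨he', hz'⟩ := half (hf.swap hs) (fun y hy => h' y (hm ▸ hy)) (hm.symm ▸ hy₀)
  have haa : β e (φ e') = β e' (φ e) := by
    have h3 := (hz y₀ hy₀).2 y₀ hy₀
    have h4 := (hz' y₀ (hm.symm ▸ hy₀)).2 y₀ (hm.symm ▸ hy₀)
    exact mul_right_cancel₀ hyy (h4.symm.trans h3)
  rw [haa] at he'
  refine ⟨β e' (φ e), fun x => LinearMap.congr_fun (hf.hom_ext hs (g := β e' (φ e) • LinearMap.id) ?_ ?_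
    fun z hzm => ?_) x⟩
  · exact he
  · exact he'
  · have h5 : φ z ∈ mid β e e' := mem_mid.2 ⟨(hz z hzm).1, (hz' z (hm.symm ▸ hzm)).1⟩
    refine sub_eq_zero.1 (hf.nd_mid hs _ (Submodule.sub_mem _ h5 (Submodule.smul_mem _ _ hzm)) fun y hy => ?_)
    simp [hs.symm _ y, (hz z hzm).2 y hy]

/-- Minus the reflection. -/
noncomputable def rot (β : LinearMap.BilinForm F W) (v : W) : W →ₗ[F] W := -refl β v

lemma rot_apply (v x : W) : rot β v x = (2 / β v v * β v x) • v - x := by simp [rot, refl_apply]

lemma rot_self (hs : Sym β) {v : W} (hv : β v v ≠ 0) : rot β v v = v := by simp [rot, hs.refl_self hv]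

lemma rot_perp {v x : W} (hx : β v x = 0) : rot β v x = -x := by simp [rot, Sym.refl_perp hx]

lemma rot_rot (hs : Sym β) (v x : W) : rot β v (rot β v x) = x := by simp [rot, hs.refl_refl]

lemma rot_isSO (hs : Sym β) (hodd : Odd (finrank F W)) {v : W} (hv : β v v ≠ 0) : IsSO β (rot β v) := by
  refine ⟨fun x y => by simp [rot, hs.refl_isIso v x y], ?_⟩
  rw [rot, show -refl β v = (-1 : F) • refl β v by simp, LinearMap.det_smul, det_refl hs hv, hodd.neg_one_pow]
  norm_num

lemma rot_fixed (hs : Sym β) {v : W} (hv : β v v ≠ 0) {x : W} (hx : rot β v x = x) :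
    ∃ c : F, x = c • v := by
  refine ⟨β v x / β v v, ?_⟩
  rw [rot_apply, sub_eq_iff_eq_add, ← two_smul F] at hx
  rw [← smul_right_inj hs.two_ne, smul_smul, ← hx]
  congr 1
  ring

/-- An isometry of determinant one in dimension three fixes a line, and no more unless trivial. -/
theorem exists_fix_line (hs : Sym β) (h3 : finrank F W = 3) {o : W →ₗ[F] W} (ho : IsSO β o)
    (hne : o ≠ LinearMap.id) : ∃ v, v ≠ 0 ∧ o v = v ∧ ∀ x, o x = x → ∃ c : F, x = c • v := by
  classical
  set bs := Module.finBasisOfFinrankEq F W h3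
  set G := LinearMap.BilinForm.toMatrix bs β
  set O := LinearMap.toMatrix bs bs o
  have hG : G.det ≠ 0 := (LinearMap.BilinForm.nondegenerate_iff_det_ne_zero bs).1 hs.nondegenerate
  have hO : O.det = 1 := by rw [LinearMap.det_toMatrix]; exact ho.2
  have hiso : O.transpose * G * O = G := by
    rw [← LinearMap.BilinForm.toMatrix_comp bs bs β o o]
    ext i j
    simp [G, LinearMap.BilinForm.toMatrix_apply, ho.1 _ _]
  have e1 : O.transpose * G * (O - 1) = -((O - 1).transpose) * G := by
    rw [Matrix.mul_sub, hiso, Matrix.mul_one, Matrix.transpose_sub, Matrix.transpose_one, neg_sub,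
      Matrix.sub_mul, Matrix.one_mul]
  have e2 := congrArg Matrix.det e1
  rw [Matrix.det_mul, Matrix.det_mul, Matrix.det_mul, Matrix.det_transpose, hO, one_mul, Matrix.det_neg,
    Matrix.det_transpose, Fintype.card_fin] at e2
  have e3 : (O - 1).det = 0 := by
    have : (2 : F) * (G.det * (O - 1).det) = 0 := by linear_combination e2
    exact (mul_eq_zero.1 ((mul_eq_zero.1 this).resolve_left hs.two_ne)).resolve_left hG
  have e4 : LinearMap.det (o - LinearMap.id) = 0 := by
    rw [← LinearMap.det_toMatrix bs, map_sub, LinearMap.toMatrix_id]; exact e3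
  obtain ⟨v, hv, hv0⟩ := Submodule.exists_mem_ne_zero_of_ne_bot
    (LinearMap.bot_lt_ker_of_det_eq_zero e4).ne'
  rw [LinearMap.mem_ker, LinearMap.sub_apply, LinearMap.id_apply, sub_eq_zero] at hv
  refine ⟨v, hv0, hv, fun x hx => ?_⟩
  by_contra hx'
  apply hne
  have hli : LinearIndependent F ![v, x] := by
    rw [LinearIndependent.pair_iff' hv0]
    exact fun c hc => hx' ⟨c, hc.symm⟩
  set K := Submodule.span F (Set.range ![v, x])
  have hK : finrank F K = 2 := by rw [finrank_span_eq_card hli, Fintype.card_fin]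
  have hK1 : finrank F (perp β K) = 1 := by have := hs.finrank_perp K; omega
  obtain ⟨⟨l, hl⟩, hl0, hspan⟩ := finrank_eq_one_iff'.1 hK1
  have hfix : ∀ k ∈ K, o k = k := fun k hk => by
    induction hk using Submodule.span_induction with
    | mem u hu =>
      obtain ⟨i, rfl⟩ := hu
      fin_cases i
      · exact hv
      · exact hx
    | zero => simp
    | add a b _ _ ha hb => simp [ha, hb]
    | smul c a _ ha => simp [ha]
  have hd : ∀ z, ∃ t : F, o z = z + t • l := fun z => by
    obtain ⟨t, ht⟩ := hspan ⟨o z - z, fun k hk => by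
      show β k (o z - z) = 0
      rw [map_sub]
      conv_lhs => arg 1; rw [← hfix k hk, ho.1]
      exact sub_self _⟩
    exact ⟨t, by rw [show t • l = o z - z from congrArg Subtype.val ht]; abel⟩
  have hl0' : l ≠ 0 := fun h => hl0 (Subtype.ext h)
  obtain ⟨z₀, hz₀⟩ : ∃ z, β l z ≠ 0 := by
    by_contra! h
    exact hl0' (hs.nondeg l h)
  let f : W →ₗ[F] F := (β l z₀)⁻¹ • (β z₀ ∘ₗ (o - LinearMap.id))
  have hf : ∀ z, o z = z + f z • l := fun z => by
    obtain ⟨t, ht⟩ := hd z
    have : f z = t := by simp [f, ht, hs.symm z₀ l]; field_simp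
    rw [this, ht]
  have hdet : f l = 0 := by
    have h4 : o = LinearMap.transvection f l := LinearMap.ext hf
    have h5 := ho.2
    rw [h4, LinearMap.transvection.det] at h5
    simpa using h5
  have hkey : ∀ z, f z = 0 ∨ 2 * β z l + f z * β l l = 0 := fun z => by
    have h4 := ho.1 z z
    simp only [hf, map_add, map_smul, LinearMap.add_apply, LinearMap.smul_apply, smul_eq_mul, hs.symm l z] at h4
    exact mul_eq_zero.1 (by linear_combination h4)
  have hfl : ∀ z, f z = 0 := fun z => by
    by_cases hll : β l l = 0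
    · have hz0 : f z₀ = 0 := (hkey z₀).resolve_right (by
        rw [hll, mul_zero, add_zero, hs.symm z₀ l]; exact mul_ne_zero hs.two_ne hz₀)
      rcases hkey z with h | h
      · exact h
      rw [hll, mul_zero, add_zero] at h
      have h5 := (hkey (z + z₀)).resolve_right fun h6 => by
        rw [hll, mul_zero, add_zero, map_add, LinearMap.add_apply, mul_add, h, zero_add, hs.symm z₀ l] at h6
        exact mul_ne_zero hs.two_ne hz₀ h6
      rwa [map_add, hz0, add_zero] at h5
    · rcases hkey z with h | h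
      · exact h
      rcases hkey (z + l) with h' | h'
      · rwa [map_add, hdet, add_zero] at h'
      · rw [map_add f, hdet, add_zero, map_add, LinearMap.add_apply] at h'
        exact absurd ((mul_eq_zero.1 (show (2 : F) * β l l = 0 by linear_combination h' - h)).resolve_left
          hs.two_ne) hll
  exact LinearMap.ext fun z => by rw [hf, hfl, zero_smul, add_zero]; rfl

end CfsgLib.OTensor90
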