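import Cfsg.Agent.OTensor90.Member
import Cfsg.Agent.OTensor90.Root
import Cfsg.Agent.Coprime.Generation

/-!
The centralisers in the group of the involutions `rot v ⊗ 1` consist of tensor maps.
-/

set_option autoImplicit false
set_option linter.unusedSectionVars false
set_option linter.unusedSimpArgs false
set_option linter.unusedVariables false

namespace CfsgLib.OTensor90

open Module CfsgLib.SpO90

variable {F A B V : Type*} [Field F] [Finite F] [AddCommGroup A] [Module F A] [AddCommGroup B]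
  [Module F B] [AddCommGroup V] [Module F V] [FiniteDimensional F A] [FiniteDimensional F B]
  [FiniteDimensional F V]

/-- The hypotheses for a three-dimensional by four-dimensional decomposition. -/
structure Hyp (S : Setting F A B V) (M : Subgroup (V ≃ₗ[F] V)) : Prop extends Side S M where
  three : finrank F A = 3
  four : finrank F B = 4
  rot_mem : ∀ v, S.al v v ≠ 0 → InM M (S.tmap (rot S.al v) LinearMap.id)
  neg_notMem : ¬ InM M (-LinearMap.id)
  even_neg : ∀ g ∈ M, (∀ X, g (g X) = X) → Even (finrank F (LinearMap.ker (g.toLinearMap + LinearMap.id)))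

lemma id_pow (n : ℕ) : ((LinearMap.id : A →ₗ[F] A) : Module.End F A) ^ n = 1 := one_pow n

namespace Setting

variable (S : Setting F A B V)

lemma tmap_eq_one {s : A →ₗ[F] A} {t : B →ₗ[F] B} (hA : 0 < finrank F A) (hB : 0 < finrank F B)
    (h : S.tmap s t = LinearMap.id) : ∃ c : F, (∀ a, s a = c • a) ∧ ∀ b, c • t b = b := by
  have : Nontrivial A := Module.nontrivial_of_finrank_pos (R := F) hA
  have : Nontrivial B := Module.nontrivial_of_finrank_pos (R := F) hB
  obtain ⟨b₀, hb₀⟩ := exists_ne (0 : B)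
  obtain ⟨z, hz⟩ : ∃ z, S.be b₀ z ≠ 0 := by
    by_contra! h0
    exact hb₀ (S.be_nd b₀ h0)
  obtain ⟨a₀, ha₀⟩ := exists_ne (0 : A)
  have h1 : ∀ a b, S.tp (s a) (t b) = S.tp a b := fun a b => by rw [← S.tmap_tp, h]; rfl
  have h2 : ∀ a, S.be (t b₀) z • s a = S.be b₀ z • a := fun a => by
    have := congrArg (S.con z) (h1 a b₀)
    rwa [S.con_tp, S.con_tp] at this
  have hc : S.be (t b₀) z ≠ 0 := fun h0 => ha₀ (by
    have := h2 a₀
    rw [h0, zero_smul] at this
    exact (smul_eq_zero.1 this.symm).resolve_left hz)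
  refine ⟨S.be b₀ z / S.be (t b₀) z, fun a => ?_, fun b => S.tp_injective ha₀ ?_⟩
  · rw [div_eq_inv_mul, mul_smul, ← h2, inv_smul_smul₀ hc]
  · rw [map_smul, ← LinearMap.smul_apply, ← map_smul, ← h1 a₀ b]
    rw [show s a₀ = (S.be b₀ z / S.be (t b₀) z) • a₀ by rw [div_eq_inv_mul, mul_smul, ← h2, inv_smul_smul₀ hc]]

lemma tmap_pow (s : A →ₗ[F] A) (t : B →ₗ[F] B) (n : ℕ) :
    (S.tmap s t : Module.End F V) ^ n = S.tmap ((s : Module.End F A) ^ n) ((t : Module.End F B) ^ n) := by
  induction n with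
  | zero => exact S.tmap_id.symm
  | succ n ih => rw [pow_succ, ih, pow_succ, pow_succ]; exact S.tmap_comp _ _ _ _

lemma fixed_mem {s : A →ₗ[F] A} (hs : IsIso S.al s) {v : A} (hv : v ≠ 0)
    (hfix : ∀ x, s x = x → ∃ c : F, x = c • v) {X : V} (hX : S.tmap s LinearMap.id X = X) :
    ∃ y, X = S.tp v y := by
  have h1 : ∀ a, S.pi (s a) X = S.pi a X := fun a => by
    have h : S.pi (s a) ∘ₗ S.tmap s LinearMap.id = S.pi a := S.hom_ext fun c w => by simp [hs _ _]
    conv_lhs => rw [← hX]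
    exact LinearMap.congr_fun h X
  have hsurj : Function.Surjective s := LinearMap.injective_iff_surjective.1 (S.sym_al.iso_injective hs)
  have h2 : perp S.al (F ∙ v) ≤ LinearMap.range (s - LinearMap.id) := by
    rw [← S.sym_al.perp_perp (LinearMap.range (s - LinearMap.id))]
    intro c hc x hx
    obtain ⟨x', hx'⟩ := hsurj x
    have h3 : x' = x := S.al_eq_of_forall fun a => by
      have h4 : S.al ((s - LinearMap.id : A →ₗ[F] A) a) x = 0 := hx _ (LinearMap.mem_range_self _ a)
      rw [LinearMap.sub_apply, LinearMap.id_apply, map_sub, LinearMap.sub_apply, sub_eq_zero, ← hx', hs, hx'] at h4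
      rw [S.al_symm x', h4, S.al_symm]
    obtain ⟨k, rfl⟩ := hfix x (by rw [h3] at hx'; exact hx')
    show S.al (k • v) c = 0
    rw [map_smul, LinearMap.smul_apply, mem_perp_single.1 hc, smul_zero]
  obtain ⟨v', hv'⟩ : ∃ v', S.al v v' = 1 := by
    obtain ⟨y, hy⟩ : ∃ y, S.al v y ≠ 0 := by
      by_contra! h0
      exact hv (S.al_nd v h0)
    exact ⟨(S.al v y)⁻¹ • y, by simp [inv_mul_cancel₀ hy]⟩
  refine ⟨S.pi v' X, S.ext_pi fun c => ?_⟩
  obtain ⟨d, hd⟩ := h2 (mem_perp_single.2 (show S.al v (c - S.al v c • v') = 0 by simp [hv']))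
  have h5 : S.pi (c - S.al v c • v') X = 0 := by
    rw [← hd, LinearMap.sub_apply, LinearMap.id_apply, map_sub, LinearMap.sub_apply, h1, sub_self]
  rw [map_sub, map_smul, LinearMap.sub_apply, LinearMap.smul_apply, sub_eq_zero] at h5
  rw [S.pi_tp, h5]

lemma map_fixed {s s₁ : A →ₗ[F] A} (hs : IsIso S.al s) {v v₁ : A} (hv : v ≠ 0)
    (hfix : ∀ x, s x = x → ∃ c : F, x = c • v) (hv₁ : s₁ v₁ = v₁) {g : V ≃ₗ[F] V}
    (h : ∀ X, g (S.tmap s₁ LinearMap.id X) = S.tmap s LinearMap.id (g X)) (y : B) :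
    ∃ z, g (S.tp v₁ y) = S.tp v z :=
  S.fixed_mem hs hv hfix (by rw [← h, S.tmap_tp, hv₁]; rfl)

lemma u_sq {w y : B} (hw : S.be w w = 0) (hy : S.be w y = 0) (X : V) :
    S.tmap LinearMap.id (eich S.be w y) (S.tmap LinearMap.id (eich S.be w y) X) -
      (2 : F) • S.tmap LinearMap.id (eich S.be w y) X + X = -S.be y y • S.tp (S.con w X) w := by
  have h : S.tmap LinearMap.id (eich S.be w y) ∘ₗ S.tmap LinearMap.id (eich S.be w y) -
      (2 : F) • S.tmap LinearMap.id (eich S.be w y) + LinearMap.id =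
      -S.be y y • (S.tp.flip w ∘ₗ S.con w) := S.hom_ext fun a b => by
    have hyw : S.be y w = 0 := by rw [S.be_symm]; exact hy
    have h2 := S.two
    simp only [LinearMap.add_apply, LinearMap.sub_apply, LinearMap.smul_apply, LinearMap.comp_apply, S.tmap_tp,
      LinearMap.id_apply, LinearMap.flip_apply, S.con_tp, eich_apply, map_add, map_sub, map_smul,
      LinearMap.smul_apply, hw, hy, hyw, S.be_symm b w, smul_eq_mul]
    match_scalars <;> field_simp <;> ring
  exact LinearMap.congr_fun h X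

end Setting

namespace Hyp

variable {S : Setting F A B V} {M : Subgroup (V ≃ₗ[F] V)}

lemma posA (H : Hyp S M) : 0 < finrank F A := by rw [H.three]; norm_num

lemma posB (H : Hyp S M) : 0 < finrank F B := by rw [H.four]; norm_num

/-- A tensor map of the group is the product of two isometries, the first of determinant one. -/
lemma normal_form (H : Hyp S M) {g : V ≃ₗ[F] V} (hg : g ∈ M) (hT : S.IsT g) :
    ∃ (s : A →ₗ[F] A) (t : B →ₗ[F] B), IsSO S.al s ∧ IsIso S.be t ∧ ∀ X, g X = S.tmap s t X := by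
  classical
  obtain ⟨x, y, hxy⟩ := hT
  obtain ⟨b, -, hb⟩ := S.sym_be.exists_value_in (B := ⊤) (fun u _ h => S.be_nd u fun z => h z trivial)
    (by rw [finrank_top, H.four]; norm_num) 1
  obtain ⟨a, -, ha⟩ := S.sym_al.exists_value_in (B := ⊤) (fun u _ h => S.al_nd u fun z => h z trivial)
    (by rw [finrank_top, H.three]; norm_num) 1
  have h1 : ∀ a a' b b', S.al (x a) (x a') * S.be (y b) (y b') = S.al a a' * S.be b b' := fun a a' b b' => by
    rw [← S.form_tp, ← hxy, ← hxy, H.iso g hg, S.form_tp]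
  set ν := S.al (x a) (x a)
  have hν : ν ≠ 0 := fun h0 => one_ne_zero (α := F) (by
    have := h1 a a b b
    rw [ha, hb, show S.al (x a) (x a) = 0 from h0, zero_mul, one_mul] at this
    exact this.symm)
  have hyn : ∀ b b', S.be (y b) (y b') = ν⁻¹ * S.be b b' := fun b b' => by
    have := h1 a a b b'
    rw [ha, one_mul] at this
    rw [← this]
    show _ = ν⁻¹ * (ν * S.be (y b) (y b'))
    rw [inv_mul_cancel_left₀ hν]
  have hxn : ∀ a a', S.al (x a) (x a') = ν * S.al a a' := fun a a' => by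
    have := h1 a a' b b
    rw [hyn, hb, mul_one, mul_one] at this
    rw [← this]
    field_simp
  set bs := Module.finBasisOfFinrankEq F A H.three
  set G := LinearMap.BilinForm.toMatrix bs S.al
  set O := LinearMap.toMatrix bs bs (x : A →ₗ[F] A)
  have hG : G.det ≠ 0 := (LinearMap.BilinForm.nondegenerate_iff_det_ne_zero bs).1 S.sym_al.nondegenerate
  have hO : O.transpose * G * O = ν • G := by
    rw [← LinearMap.BilinForm.toMatrix_comp bs bs S.al (x : A →ₗ[F] A) (x : A →ₗ[F] A)]
    ext i j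
    simp [G, LinearMap.BilinForm.toMatrix_apply, hxn]
  have e2 := congrArg Matrix.det hO
  rw [Matrix.det_mul, Matrix.det_mul, Matrix.det_transpose, Matrix.det_smul, Fintype.card_fin] at e2
  set d := LinearMap.det (x : A →ₗ[F] A) with hd
  have hOd : O.det = d := LinearMap.det_toMatrix bs _
  rw [hOd] at e2
  have e3 : d * d = ν ^ 3 := mul_right_cancel₀ hG (by linear_combination e2)
  have hd0 : d ≠ 0 := fun h0 => hν (by
    rw [h0, mul_zero, eq_comm] at e3
    exact eq_zero_of_pow_eq_zero e3)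
  set c := d / ν with hc
  have hc0 : c ≠ 0 := div_ne_zero hd0 hν
  have hcc : c * c = ν := by rw [hc]; field_simp; linear_combination e3
  refine ⟨c⁻¹ • (x : A →ₗ[F] A), c • (y : B →ₗ[F] B), ⟨fun u u' => ?_, ?_⟩, fun u u' => ?_, fun X => ?_⟩
  · simp [hxn, ← hcc]
    field_simp
  · rw [LinearMap.det_smul, H.three, ← hd, inv_pow]
    field_simp
    rw [hc]
    field_simp
    linear_combination -e3
  · simp [hyn, ← hcc]
    field_simp
  · exact LinearMap.congr_fun (f := (g : V →ₗ[F] V)) (g := S.tmap (c⁻¹ • (x : A →ₗ[F] A)) (c • (y : B →ₗ[F] B)))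
      (S.hom_ext fun u v => by simp [hxy, smul_smul, hc0]) X

section charp

variable {p : ℕ} [hp : Fact p.Prime] [CharP F p]

/-- Tensor factors of an element of order `p` have order `p`. -/
lemma pow_normal (H : Hyp S M) {s : A →ₗ[F] A} {t : B →ₗ[F] B} (hs : IsSO S.al s) (ht : IsIso S.be t)
    (h : (S.tmap s t : Module.End F V) ^ p = 1) :
    (s : Module.End F A) ^ p = 1 ∧ (t : Module.End F B) ^ p = 1 := by
  rw [S.tmap_pow] at h
  obtain ⟨c, hcs, hct⟩ := S.tmap_eq_one H.posA H.posB h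
  have hc3 : c ^ 3 = 1 := by
    have h1 : ((s : Module.End F A) ^ p : A →ₗ[F] A) = c • LinearMap.id := LinearMap.ext fun a => by simp [hcs]
    have h2 := congrArg LinearMap.det h1
    rw [map_pow, hs.2, one_pow, LinearMap.det_smul, H.three, LinearMap.det_id, mul_one] at h2
    exact h2.symm
  have hsn : ∀ n : ℕ, IsIso S.al ((s : Module.End F A) ^ n) := fun n => by
    induction n with
    | zero => exact fun _ _ => rfl
    | succ n ih => intro a b; rw [pow_succ, Module.End.mul_apply, Module.End.mul_apply, ih, hs.1]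
  obtain ⟨a, -, ha⟩ := S.sym_al.exists_value_in (B := ⊤) (fun u _ h => S.al_nd u fun z => h z trivial)
    (by rw [finrank_top, H.three]; norm_num) 1
  have hc2 := hsn p a a
  rw [hcs, map_smul, map_smul, LinearMap.smul_apply, ha, smul_eq_mul, smul_eq_mul, mul_one] at hc2
  have hc1 : c = 1 := by
    have : c ^ 3 = c * (c * c) := by ring
    rw [this, hc2, mul_one] at hc3
    exact hc3
  exact ⟨LinearMap.ext fun a => by simp [hcs, hc1], LinearMap.ext fun b => by
    have := hct b
    rwa [hc1, one_smul] at this⟩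

/-- An isometry of order `p` of the first factor fixing a non-singular vector is trivial. -/
lemma fix_aniso (H : Hyp S M) {s : A →ₗ[F] A} (hs : IsIso S.al s) (hp' : (s : Module.End F A) ^ p = 1) {v : A}
    (hv : S.al v v ≠ 0) (hsv : s v = v) : s = LinearMap.id := by
  have hn := S.sym_al.nd_perp (S.sym_al.nd_single hv)
  have hv0 : v ≠ 0 := fun h => hv (by simp [h])
  have hdim : finrank F (perp S.al (F ∙ v)) = 2 := by
    have := S.sym_al.finrank_perp (F ∙ v)
    rw [finrank_span_singleton hv0, H.three] at this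
    omega
  have h1 := plane_fix (p := p) S.sym_al hn hdim hs (fun z hz => mem_perp_single.2 (by
    rw [← hsv, hs, mem_perp_single.1 hz])) (fun z _ => by rw [hp']; rfl)
  refine LinearMap.ext fun x => ?_
  have h2 : x - (S.al v x / S.al v v) • v ∈ perp S.al (F ∙ v) := mem_perp_single.2 (by simp [hv])
  have h3 := h1 _ h2
  rw [map_sub, map_smul, hsv, sub_left_inj] at h3
  exact h3

lemma rot_commute_fix (H : Hyp S M) {s : A →ₗ[F] A} {v : A} (hv : S.al v v ≠ 0)
    (hs : IsIso S.al s) (hp' : (s : Module.End F A) ^ p = 1) (hcom : ∀ a, s (rot S.al v a) = rot S.al v (s a)) :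
    s = LinearMap.id := by
  obtain ⟨c, hc⟩ := rot_fixed S.sym_al hv (x := s v) (by rw [← hcom, rot_self S.sym_al hv])
  have hn : ∀ n : ℕ, ((s : Module.End F A) ^ n) v = c ^ n • v := fun n => by
    induction n with
    | zero => simp
    | succ n ih => rw [pow_succ, Module.End.mul_apply, hc, map_smul, ih, smul_smul, pow_succ, mul_comm]
  have h1 := hn p
  rw [hp'] at h1
  have hv0 : v ≠ 0 := fun h => hv (by simp [h])
  have : c ^ p = 1 := by
    have h2 : (c ^ p - 1) • v = 0 := by rw [sub_smul, ← h1, one_smul]; exact sub_self v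
    exact sub_eq_zero.1 ((smul_eq_zero.1 h2).resolve_right hv0)
  exact H.fix_aniso hs hp' hv (by rw [hc, eq_one_of_pow_char this, one_smul])

end charp

/-- An element preserving the member of a non-singular vector is a tensor map. -/
theorem isT_of_aniso (H : Hyp S M) (hno : NoRoot S M) {v : A} (hv : S.al v v ≠ 0) {g : V ≃ₗ[F] V}
    (hg : g ∈ M) (hE : ∀ y, ∃ z, g (S.tp v y) = S.tp v z) : S.IsT g := by
  classical
  obtain ⟨p, hpc⟩ := CharP.exists F
  have := Fintype.ofFinite F
  have : Fact p.Prime := ⟨CharP.char_is_prime F p⟩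
  have : Finite V := Module.finite_of_finite F
  have : Finite (V ≃ₗ[F] V) := Finite.of_injective (fun f : V ≃ₗ[F] V => (f : V → V)) DFunLike.coe_injective
  obtain ⟨w, hw0, hwne⟩ : ∃ w, S.be w w = 0 ∧ w ≠ 0 := by
    obtain ⟨w, -, h1, h2⟩ := S.sym_be.exists_iso_in (B := ⊤)
      (fun x _ hx => S.be_nd x fun y => hx y trivial) (by rw [finrank_top]; exact H.dB)
    exact ⟨w, h2, h1⟩
  obtain ⟨w', hw⟩ := exists_frame S.sym_be H.wB hw0 hwne
  have hno' := H.toSide.noRoot_swap hno
  have hmy : ∀ {y : B}, y ∈ mid S.be w w' → S.be w y = 0 := fun h => (mem_mid.1 h).1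
  let U : Subgroup (V ≃ₗ[F] V) :=
    { carrier := {k | k ∈ M ∧ ∃ y ∈ mid S.be w w', ∀ X, k X = S.tmap LinearMap.id (eich S.be w y) X}
      one_mem' := ⟨M.one_mem, 0, Submodule.zero_mem _, fun X => by rw [eich_zero, S.tmap_id]; rfl⟩
      mul_mem' := by
        rintro k k' ⟨hk, y, hy, e⟩ ⟨hk', y', hy', e'⟩
        refine ⟨M.mul_mem hk hk', y + y', Submodule.add_mem _ hy hy', fun X => ?_⟩
        rw [LinearEquiv.mul_apply, e, e', ← LinearMap.comp_apply, S.tmap_comp, LinearMap.id_comp,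
          eich_comp S.sym_be hw0 (hmy hy) (hmy hy')]
      inv_mem' := by
        rintro k ⟨hk, y, hy, e⟩
        refine ⟨M.inv_mem hk, -y, Submodule.neg_mem _ hy, fun X => k.injective ?_⟩
        rw [show k (k⁻¹ X) = X from k.apply_symm_apply X, e, ← LinearMap.comp_apply, S.tmap_comp,
          LinearMap.id_comp, eich_comp S.sym_be hw0 (hmy hy) (hmy (Submodule.neg_mem _ hy)), add_neg_cancel, eich_zero,
          S.tmap_id]
        rfl }
  let K : Subgroup (V ≃ₗ[F] V) :=
    { carrier := {k | k ∈ M ∧ ∀ y, k (S.tp v y) = S.tp v y}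
      one_mem' := ⟨M.one_mem, fun _ => rfl⟩
      mul_mem' := fun {k k'} ⟨hk, e⟩ ⟨hk', e'⟩ => ⟨M.mul_mem hk hk', fun y => by rw [LinearEquiv.mul_apply, e', e]⟩
      inv_mem' := fun {k} ⟨hk, e⟩ => ⟨M.inv_mem hk, fun y => k.injective (by
        rw [show k (k⁻¹ (S.tp v y)) = S.tp v y from k.apply_symm_apply _, e])⟩ }
  let K₀ : Subgroup (V ≃ₗ[F] V) :=
    { carrier := {k | k ∈ K ∧ ∃ s, IsIso S.al s ∧ s v = v ∧ ∀ X, k X = S.tmap s LinearMap.id X}
      one_mem' := ⟨K.one_mem, LinearMap.id, isIso_id, rfl, fun X => by rw [S.tmap_id]; rfl⟩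
      mul_mem' := by
        rintro k k' ⟨hk, s, hs, hsv, e⟩ ⟨hk', s', hs', hsv', e'⟩
        exact ⟨K.mul_mem hk hk', s ∘ₗ s', hs.comp hs', by rw [LinearMap.comp_apply, hsv', hsv], fun X => by
          rw [LinearEquiv.mul_apply, e, e', ← LinearMap.comp_apply, S.tmap_comp, LinearMap.id_comp]⟩
      inv_mem' := by
        rintro k ⟨hk, s, hs, hsv, e⟩
        set sE := isoEquiv S.sym_al hs
        refine ⟨K.inv_mem hk, (sE.symm : A →ₗ[F] A), fun a a' => ?_, sE.injective ?_, fun X => k.injective ?_⟩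
        · show S.al (sE.symm a) (sE.symm a') = _
          rw [← hs]
          show S.al (sE (sE.symm a)) (sE (sE.symm a')) = _
          rw [sE.apply_symm_apply, sE.apply_symm_apply]
        · show sE (sE.symm v) = sE v
          rw [sE.apply_symm_apply]
          exact hsv.symm
        · rw [show k (k⁻¹ X) = X from k.apply_symm_apply X, e, ← LinearMap.comp_apply, S.tmap_comp,
            LinearMap.id_comp]
          rw [show s ∘ₗ (sE.symm : A →ₗ[F] A) = LinearMap.id from LinearMap.ext fun a => sE.apply_symm_apply a,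
            S.tmap_id]
          rfl }
  -- an element of `K` centralising a non-trivial element of `U`
  have hcen : ∀ u ∈ U, u ≠ 1 → ∀ k ∈ K, k * u = u * k → k ∈ K₀ := by
    rintro u ⟨hu, y, hy, hue⟩ hu1 k ⟨hk, hkv⟩ hcom
    have hy0 : y ≠ 0 := fun h0 => hu1 (LinearEquiv.ext fun X => by rw [hue, h0, eich_zero, S.tmap_id]; rfl)
    have hyy : S.be y y ≠ 0 := fun h0 => hy0 (hw.aniso' hy h0)
    have hku : ∀ X, k (u X) = u (k X) := fun X => by
      have := LinearEquiv.congr_fun hcom X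
      exact this
    have hEk : ∀ a, ∃ a', k (S.swap.tp w a) = S.swap.tp w a' := fun a => by
      refine ⟨(-S.be y y)⁻¹ • (-S.be y y) • S.con w (k (S.tp a w')), ?_⟩
      have h1 := congrArg k (S.u_sq hw0 (hmy hy) (S.tp a w'))
      rw [map_add, map_sub, map_smul, map_smul, ← hue, ← hue, hku, hku, hue, hue, S.u_sq hw0 (hmy hy), S.con_tp,
        hw.pair' S.sym_be, one_smul] at h1
      rw [inv_smul_smul₀ (neg_ne_zero.2 hyy), S.swap_tp, S.swap_tp]
      exact (smul_right_injective V (neg_ne_zero.2 hyy) h1).symm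
    have hT : S.IsT k := S.isT_of_swap (H.toSide.swap.isT_of_frames hno' hw hw hk hEk)
    obtain ⟨s, t, hs, ht, he⟩ := H.normal_form hk hT
    have h1 : ∀ b, S.tp (s v) (t b) = S.tp v b := fun b => by rw [← S.tmap_tp, ← he, hkv]
    have hv0 : v ≠ 0 := fun h => hv (by simp [h])
    obtain ⟨d, hd⟩ : ∃ d, ∀ b, t b = d • b := ⟨S.al v v / S.al (s v) v, fun b => by
      have h2 := congrArg (S.pi v) (h1 b)
      rw [S.pi_tp, S.pi_tp] at h2
      have h3 : S.al (s v) v ≠ 0 := fun h0 => by
        rw [h0, zero_smul] at h2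
        obtain ⟨z, -, hz⟩ := S.sym_be.exists_value_in (B := ⊤) (fun x _ hx => S.be_nd x fun y => hx y trivial)
          (by rw [finrank_top, H.four]; norm_num) 1
        have h4 := congrArg (S.pi v) (h1 z)
        rw [S.pi_tp, S.pi_tp, h0, zero_smul] at h4
        rw [(smul_eq_zero.1 h4.symm).resolve_left hv] at hz
        simp at hz
      rw [div_eq_inv_mul, mul_smul, ← h2, inv_smul_smul₀ h3]⟩
    obtain ⟨z, -, hz⟩ := S.sym_be.exists_value_in (B := ⊤) (fun x _ hx => S.be_nd x fun y => hx y trivial)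
      (by rw [finrank_top, H.four]; norm_num) 1
    have hd2 : d * d = 1 := by
      have := ht z z
      rwa [hd, map_smul, map_smul, LinearMap.smul_apply, hz, smul_eq_mul, smul_eq_mul, mul_one] at this
    refine ⟨⟨hk, hkv⟩, d • s, fun a a' => ?_, ?_, fun X => ?_⟩
    · simp only [LinearMap.smul_apply, map_smul, smul_eq_mul, hs.1 _ _]
      linear_combination S.al a a' * hd2
    · refine S.tp_injective' (w := z) (fun h => by simp [h] at hz) ?_
      rw [LinearMap.smul_apply, map_smul, LinearMap.smul_apply, ← map_smul, ← hd, h1]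
    · rw [he]
      exact LinearMap.congr_fun (S.hom_ext fun a b => by simp [hd]) X
  obtain ⟨y₀, hy₀, hy₀0⟩ := hw.exists_mid_ne S.sym_be H.dB
  obtain ⟨u₀, hu₀, hu₀e⟩ := H.toSide.eichB_mem hw0 (hmy hy₀)
  have hne : ∀ {y : B}, y ∈ mid S.be w w' → y ≠ 0 → ∀ {u : V ≃ₗ[F] V},
      (∀ X, u X = S.tmap LinearMap.id (eich S.be w y) X) → u ≠ 1 := by
    intro y hy hy0 u hue h1
    obtain ⟨a, -, ha⟩ := S.sym_al.exists_value_in (B := ⊤) (fun x _ hx => S.al_nd x fun y => hx y trivial)
      (by rw [finrank_top, H.three]; norm_num) 1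
    have h2 := hue (S.tp a w')
    rw [h1, S.tmap_tp] at h2
    have h3 := congrArg (S.be y) (S.tp_injective (fun h => by simp [h] at ha) (h2 : S.tp a w' = S.tp a _))
    rw [eich_right S.sym_be hw hy] at h3
    simp [S.be_symm y w, hmy hy, S.be_symm y w', (mem_mid.1 hy).2] at h3
    exact hy0 (hw.aniso' hy h3)
  have hnorm : U ≤ Subgroup.normalizer (K : Set (V ≃ₗ[F] V)) := by
    rintro u ⟨hu, y, hy, hue⟩
    have h1 : ∀ k ∈ K, u * k * u⁻¹ ∈ K := fun k ⟨hk, hkv⟩ => ⟨M.mul_mem (M.mul_mem hu hk) (M.inv_mem hu), fun z => by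
      obtain ⟨z', hz'⟩ : ∃ z', u (S.tp v z') = S.tp v z := by
        obtain ⟨z', rfl⟩ := (LinearMap.injective_iff_surjective.1
          (S.sym_be.iso_injective (eich_isIso S.sym_be hw0 (hmy hy)))) z
        exact ⟨z', by rw [hue, S.tmap_tp]; rfl⟩
      rw [LinearEquiv.mul_apply, LinearEquiv.mul_apply, ← hz', show u⁻¹ (u (S.tp v z')) = S.tp v z' from
        u.symm_apply_apply _, hkv]⟩
    rw [Subgroup.mem_normalizer_iff]
    refine fun k => ⟨h1 k, fun h => ?_⟩
    obtain ⟨hkM, hkv⟩ := h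
    have hk : k ∈ M := by
      have := M.mul_mem (M.mul_mem (M.inv_mem hu) hkM) hu
      rwa [show u⁻¹ * (u * k * u⁻¹) * u = k by group] at this
    refine ⟨hk, fun z => ?_⟩
    have h3 := hkv (eich S.be w y z)
    have h4 : u (S.tp v z) = S.tp v (eich S.be w y z) := by rw [hue, S.tmap_tp]; rfl
    rw [← h4, LinearEquiv.mul_apply, LinearEquiv.mul_apply, show u⁻¹ (u (S.tp v z)) = S.tp v z from
      u.symm_apply_apply _] at h3
    exact u.injective h3
  have hUp : IsPGroup p U := fun ⟨u, hu, y, hy, hue⟩ => ⟨1, Subtype.ext (LinearEquiv.ext fun X => by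
    have h1 : ∀ n : ℕ, ∀ X, (u ^ n) X = ((S.tmap LinearMap.id (eich S.be w y) : Module.End F V) ^ n) X := by
      intro n
      induction n with
      | zero => intro X; rfl
      | succ n ih => intro X; rw [pow_succ, pow_succ, LinearEquiv.mul_apply, Module.End.mul_apply, ih, hue]
    show (u ^ p ^ 1) X = X
    rw [pow_one, h1, S.tmap_pow, eich_pow_char S.sym_be p hw0 (hmy hy), id_pow]
    exact LinearMap.congr_fun S.tmap_id X)⟩
  have hK₀p : ¬ p ∣ Nat.card K₀ := by
    intro hdvd
    obtain ⟨⟨k, hkK, s, hs, hsv, he⟩, hk⟩ := exists_prime_orderOf_dvd_card' p hdvd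
    have hkp : k ^ p = 1 := congrArg Subtype.val (hk ▸ pow_orderOf_eq_one (⟨k, hkK, s, hs, hsv, he⟩ : K₀))
    have h1 : ∀ n : ℕ, ∀ X, (k ^ n) X = ((S.tmap s LinearMap.id : Module.End F V) ^ n) X := by
      intro n
      induction n with
      | zero => intro X; rfl
      | succ n ih => intro X; rw [pow_succ, pow_succ, LinearEquiv.mul_apply, Module.End.mul_apply, ih, he]
    have h2 : (S.tmap s LinearMap.id : Module.End F V) ^ p = 1 := LinearMap.ext fun X => by rw [← h1, hkp]; rfl
    rw [S.tmap_pow, show (LinearMap.id : Module.End F B) ^ p = 1 from one_pow p] at h2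
    obtain ⟨c, hcs, hct⟩ := S.tmap_eq_one H.posA H.posB h2
    obtain ⟨z, -, hz⟩ := S.sym_be.exists_value_in (B := ⊤) (fun x _ hx => S.be_nd x fun y => hx y trivial)
      (by rw [finrank_top, H.four]; norm_num) 1
    have hc : c = 1 := by
      have := congrArg (S.be z) (hct z)
      simpa [hz] using this
    have hs1 := H.fix_aniso (p := p) hs (LinearMap.ext fun a => by simp [hcs, hc]) hv hsv
    have hk1 : (⟨k, hkK, s, hs, hsv, he⟩ : K₀) = 1 := Subtype.ext (LinearEquiv.ext fun X => by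
      rw [he, hs1, S.tmap_id]; rfl)
    rw [hk1, orderOf_one] at hk
    exact (Fact.out : p.Prime).one_lt.ne hk
  have hKp : ¬ p ∣ Nat.card K := by
    intro hdvd
    let act : MulAction U K :=
      { smul := fun u k => ⟨u * k * (u : V ≃ₗ[F] V)⁻¹, (Subgroup.mem_normalizer_iff.1 (hnorm u.2) k).1 k.2⟩
        one_smul := fun k => Subtype.ext (show (1 : V ≃ₗ[F] V) * k * 1⁻¹ = k by group)
        mul_smul := fun u u' k => Subtype.ext
          (show (u * u' : V ≃ₗ[F] V) * k * (u * u' : V ≃ₗ[F] V)⁻¹ =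
            (u : V ≃ₗ[F] V) * (u' * k * (u' : V ≃ₗ[F] V)⁻¹) * (u : V ≃ₗ[F] V)⁻¹ by group) }
    have h1 := hUp.card_modEq_card_fixedPoints K
    have h2 : Nat.card (MulAction.fixedPoints U K) = Nat.card K₀ := by
      refine Nat.card_congr
        { toFun := fun k => ⟨k.1.1, hcen u₀ ⟨hu₀, y₀, hy₀, hu₀e⟩ (hne hy₀ hy₀0 hu₀e) _ k.1.2 ?_⟩
          invFun := fun k => ⟨⟨k.1, k.2.1⟩, fun u => Subtype.ext ?_⟩
          left_inv := fun k => Subtype.ext (Subtype.ext rfl)
          right_inv := fun k => Subtype.ext rfl }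
      · exact (mul_inv_eq_iff_eq_mul.1 (congrArg Subtype.val (k.2 ⟨u₀, hu₀, y₀, hy₀, hu₀e⟩))).symm
      · obtain ⟨k, hk, s, hs, hsv, he⟩ := k
        obtain ⟨u, huM, y, hy, hue⟩ := u
        show u * k * u⁻¹ = k
        rw [mul_inv_eq_iff_eq_mul]
        refine LinearEquiv.ext fun X => ?_
        simp only [LinearEquiv.mul_apply, he, hue, ← LinearMap.comp_apply (f := S.tmap _ _), S.tmap_comp,
          LinearMap.id_comp, LinearMap.comp_id]
    rw [h2] at h1
    exact hK₀p (Nat.modEq_zero_iff_dvd.1 (h1.symm.trans (Nat.modEq_zero_iff_dvd.2 hdvd)))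
  have hUK : K ≤ K₀ := by
    have hUcomm : IsMulCommutative U := ⟨⟨fun ⟨u, hu, y, hy, hue⟩ ⟨u', hu', y', hy', hue'⟩ => Subtype.ext
      (LinearEquiv.ext fun X => by
        show u (u' X) = u' (u X)
        rw [hue, hue', hue, hue', ← LinearMap.comp_apply, ← LinearMap.comp_apply, S.tmap_comp, S.tmap_comp,
          eich_comp S.sym_be hw0 (hmy hy) (hmy hy'), eich_comp S.sym_be hw0 (hmy hy') (hmy hy), add_comm])⟩⟩
    have hnc : ¬ IsCyclic U := by
      intro hc
      obtain ⟨⟨g₀, hg₀⟩, hgen⟩ := hc.exists_generator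
      have hcard : Nat.card U ≤ p := by
        have h1 : orderOf (⟨g₀, hg₀⟩ : U) ∣ p := by
          obtain ⟨hM, y, hy, hue⟩ := hg₀
          refine orderOf_dvd_of_pow_eq_one (Subtype.ext (LinearEquiv.ext fun X => ?_))
          have h1 : ∀ n : ℕ, ∀ X, (g₀ ^ n) X = ((S.tmap LinearMap.id (eich S.be w y) : Module.End F V) ^ n) X := by
            intro n
            induction n with
            | zero => intro X; rfl
            | succ n ih => intro X; rw [pow_succ, pow_succ, LinearEquiv.mul_apply, Module.End.mul_apply, ih, hue]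
          show (g₀ ^ p) X = X
          rw [h1, S.tmap_pow, eich_pow_char S.sym_be p hw0 (hmy hy), id_pow]
          exact LinearMap.congr_fun S.tmap_id X
        rw [← orderOf_eq_card_of_forall_mem_zpowers hgen]
        exact Nat.le_of_dvd (Fact.out : p.Prime).pos h1
      let φ : mid S.be w w' → U := fun y =>
        ⟨Classical.choose (H.toSide.eichB_mem hw0 (hmy y.2)), (Classical.choose_spec (H.toSide.eichB_mem hw0 (hmy y.2))).1,
          y, y.2, (Classical.choose_spec (H.toSide.eichB_mem hw0 (hmy y.2))).2⟩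
      have hφ : Function.Injective φ := fun y y' h => by
        have h1 : Classical.choose (H.toSide.eichB_mem hw0 (hmy y.2)) =
            Classical.choose (H.toSide.eichB_mem hw0 (hmy y'.2)) := congrArg Subtype.val h
        have e1 := (Classical.choose_spec (H.toSide.eichB_mem hw0 (hmy y.2))).2
        have e2 := (Classical.choose_spec (H.toSide.eichB_mem hw0 (hmy y'.2))).2
        obtain ⟨a, -, ha⟩ := S.sym_al.exists_value_in (B := ⊤) (fun x _ hx => S.al_nd x fun y => hx y trivial)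
          (by rw [finrank_top, H.three]; norm_num) 1
        have h2 := (e1 (S.tp a w')).symm.trans (h1 ▸ e2 (S.tp a w'))
        rw [S.tmap_tp, S.tmap_tp] at h2
        have h3 := S.tp_injective (a := a) (fun h0 => by simp [h0] at ha) (h2 : S.tp a _ = S.tp a _)
        rw [eich_right S.sym_be hw y.2, eich_right S.sym_be hw y'.2] at h3
        refine Subtype.ext (sub_eq_zero.1 (hw.nd_mid S.sym_be _ (Submodule.sub_mem _ y.2 y'.2) fun z hz => ?_))
        have h4 := congrArg (S.be z) h3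
        simp [S.be_symm z w, (mem_mid.1 hz).1, S.be_symm z w', (mem_mid.1 hz).2] at h4
        simp [S.be_symm _ z, h4]
      have : Finite B := Module.finite_of_finite F
      have hmid : finrank F (mid S.be w w') = 2 := by
        have := hw.finrank_mid S.sym_be; rw [H.four] at this; omega
      have h5 := Nat.card_le_card_of_injective φ hφ
      rw [Module.natCard_eq_pow_finrank (K := F), hmid] at h5
      have h6 : p ∣ Nat.card F := by
        rw [Nat.card_eq_fintype_card]
        exact (CharP.cast_eq_zero_iff F p _).1 (FiniteField.cast_card_eq_zero F)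
      have h7 := Nat.le_of_dvd (Nat.card_pos) h6
      have hq := H.hq
      nlinarith
    refine CfsgLib.Coprime.le_of_centralizers hUcomm hnc hnorm ?_ fun u hu hu1 k ⟨hk, hku⟩ => hcen u hu hu1 k hk
      (Subgroup.mem_centralizer_iff.1 hku u rfl).symm
    obtain ⟨n, hn⟩ := IsPGroup.iff_card.1 hUp
    rw [hn]
    exact Nat.Coprime.pow_left n (((Fact.out : p.Prime).coprime_iff_not_dvd).2 hKp)
  -- conclusion
  choose π₀ hπ₀ using hE
  have hv0 : v ≠ 0 := fun h => hv (by simp [h])
  let π : B →ₗ[F] B := (S.al v v)⁻¹ • (S.pi v ∘ₗ g.toLinearMap ∘ₗ S.tp v)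
  have hπ : ∀ y, g (S.tp v y) = S.tp v (π y) := fun y => by
    simp [π, hπ₀, smul_smul, inv_mul_cancel₀ hv]
  have hπi : IsIso S.be π := fun y z => by
    have := H.iso g hg (S.tp v y) (S.tp v z)
    rw [hπ, hπ, S.form_tp, S.form_tp] at this
    exact mul_left_cancel₀ hv this
  have hw₁ : Frame S.be (π w) (π w') :=
    frame_of_pair H.wB (by rw [hπi, hw.left]) (by rw [hπi, hw.right]) (by rw [hπi, hw.pair]) S.sym_be
  obtain ⟨u', hu', hu'e⟩ := H.toSide.eichB_mem hw₁.left (y := π y₀) (by rw [hπi, hmy hy₀])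
  have hπu : ∀ z, eich S.be (π w) (π y₀) (π z) = π (eich S.be w y₀ z) := fun z => by
    simp [eich_apply, hπi _ _]
  have hkK : g * u₀ * g⁻¹ * u'⁻¹ ∈ K := by
    refine ⟨M.mul_mem (M.mul_mem (M.mul_mem hg hu₀) (M.inv_mem hg)) (M.inv_mem hu'), fun z => ?_⟩
    obtain ⟨z, rfl⟩ := LinearMap.injective_iff_surjective.1 (S.sym_be.iso_injective hπi) z
    obtain ⟨z, rfl⟩ := LinearMap.injective_iff_surjective.1
      (S.sym_be.iso_injective (eich_isIso S.sym_be hw0 (hmy hy₀))) z
    have e1 : u' (S.tp v (π z)) = S.tp v (π (eich S.be w y₀ z)) := by rw [hu'e, S.tmap_tp, hπu]; rfl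
    simp only [LinearEquiv.mul_apply]
    rw [← e1, show u'⁻¹ (u' (S.tp v (π z))) = S.tp v (π z) from u'.symm_apply_apply _, ← hπ,
      show g⁻¹ (g (S.tp v z)) = S.tp v z from g.symm_apply_apply _, hu₀e, S.tmap_tp, LinearMap.id_apply, hπ, hπ, e1]
  obtain ⟨-, s, hs, hsv, hse⟩ := hUK hkK
  have hgu : ∀ X, g (u₀ X) = S.tmap s (eich S.be (π w) (π y₀)) (g X) := fun X => by
    have h1 : (g * u₀ * g⁻¹ * u'⁻¹) (u' (g X)) = g (u₀ X) := by
      simp only [LinearEquiv.mul_apply]
      rw [show u'⁻¹ (u' (g X)) = g X from u'.symm_apply_apply _, show g⁻¹ (g X) = X from g.symm_apply_apply X]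
    rw [← h1, hse, hu'e, ← LinearMap.comp_apply, S.tmap_comp, LinearMap.id_comp, LinearMap.comp_id]
  have hsp : (s : Module.End F A) ^ p = 1 := by
    have h1 : ∀ n : ℕ, ∀ X, g ((u₀ ^ n) X) =
        ((S.tmap s (eich S.be (π w) (π y₀)) : Module.End F V) ^ n) (g X) := by
      intro n
      induction n with
      | zero => intro X; rfl
      | succ n ih =>
        intro X
        rw [pow_succ, LinearEquiv.mul_apply, ih, hgu, pow_succ, Module.End.mul_apply]
    have hu0p : ∀ n : ℕ, ∀ X, (u₀ ^ n) X = ((S.tmap LinearMap.id (eich S.be w y₀) : Module.End F V) ^ n) X := by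
      intro n
      induction n with
      | zero => intro X; rfl
      | succ n ih => intro X; rw [pow_succ, pow_succ, LinearEquiv.mul_apply, Module.End.mul_apply, ih, hu₀e]
    have h2 : (S.tmap s (eich S.be (π w) (π y₀)) : Module.End F V) ^ p = 1 := LinearMap.ext fun X => by
      obtain ⟨X, rfl⟩ := g.surjective X
      rw [← h1, hu0p, S.tmap_pow, eich_pow_char S.sym_be p hw0 (hmy hy₀), id_pow]
      exact congrArg g (LinearMap.congr_fun S.tmap_id X)
    rw [S.tmap_pow, eich_pow_char S.sym_be p hw₁.left (by rw [hπi, hmy hy₀])] at h2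
    obtain ⟨c, hcs, hct⟩ := S.tmap_eq_one H.posA H.posB h2
    obtain ⟨z, -, hz⟩ := S.sym_be.exists_value_in (B := ⊤) (fun x _ hx => S.be_nd x fun y => hx y trivial)
      (by rw [finrank_top, H.four]; norm_num) 1
    have hc : c = 1 := by
      have := congrArg (S.be z) (hct z)
      simpa [hz] using this
    exact LinearMap.ext fun a => by simp [hcs, hc]
  have hs1 := H.fix_aniso hs hsp hv hsv
  have hyy : S.be y₀ y₀ ≠ 0 := fun h0 => hy₀0 (hw.aniso' hy₀ h0)
  refine S.isT_of_swap (H.toSide.swap.isT_of_frames hno' hw hw₁ hg fun a => ⟨S.con (π w) (g (S.tp a w')), ?_⟩)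
  have h1 := congrArg g (S.u_sq hw0 (hmy hy₀) (S.tp a w'))
  simp only [← hu₀e] at h1
  rw [map_add, map_sub, map_smul, map_smul, hgu, hgu, hs1, S.u_sq hw₁.left (by rw [hπi, hmy hy₀]), hπi, S.con_tp,
    hw.pair' S.sym_be, one_smul] at h1
  exact (smul_right_injective V (neg_ne_zero.2 hyy) h1).symm

/-- A vector fixed by `rot v ⊗ 1` lies in the member of `v`. -/
lemma map_rot (H : Hyp S M) {v v₁ : A} (hv : S.al v v ≠ 0) (hv₁ : S.al v₁ v₁ ≠ 0) {g : V ≃ₗ[F] V}
    (h : ∀ X, g (S.tmap (rot S.al v₁) LinearMap.id X) = S.tmap (rot S.al v) LinearMap.id (g X)) (y : B) :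
    ∃ z, g (S.tp v₁ y) = S.tp v z :=
  S.map_fixed (rot_isSO S.sym_al (by rw [H.three]; decide) hv).1 (fun h0 => hv (by simp [h0]))
    (fun x hx => rot_fixed S.sym_al hv hx) (rot_self S.sym_al hv₁) h y

/-- An element conjugating one `rot ⊗ 1` to another is a tensor map. -/
theorem isT_of_conj (H : Hyp S M) (hno : NoRoot S M) {v v₁ : A} (hv : S.al v v ≠ 0) (hv₁ : S.al v₁ v₁ ≠ 0)
    {g : V ≃ₗ[F] V} (hg : g ∈ M)
    (h : ∀ X, g (S.tmap (rot S.al v₁) LinearMap.id X) = S.tmap (rot S.al v) LinearMap.id (g X)) : S.IsT g := by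
  classical
  obtain ⟨p, hpc⟩ := CharP.exists F
  have := Fintype.ofFinite F
  have : Fact p.Prime := ⟨CharP.char_is_prime F p⟩
  obtain ⟨w, hw0, hwne⟩ : ∃ w, S.be w w = 0 ∧ w ≠ 0 := by
    obtain ⟨w, -, h1, h2⟩ := S.sym_be.exists_iso_in (B := ⊤)
      (fun x _ hx => S.be_nd x fun y => hx y trivial) (by rw [finrank_top]; exact H.dB)
    exact ⟨w, h2, h1⟩
  obtain ⟨w', hw⟩ := exists_frame S.sym_be H.wB hw0 hwne
  obtain ⟨y, hy, hy0⟩ := hw.exists_mid_ne S.sym_be H.dB
  have hwy := (mem_mid.1 hy).1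
  obtain ⟨u, hu, hue⟩ := H.toSide.eichB_mem hw0 hwy
  have hk : ∀ X, (g * u * g⁻¹) (g X) = g (u X) := fun X => by
    simp only [LinearEquiv.mul_apply]
    rw [show g⁻¹ (g X) = X from g.symm_apply_apply X]
  have hkM : g * u * g⁻¹ ∈ M := M.mul_mem (M.mul_mem hg hu) (M.inv_mem hg)
  have hkc : ∀ X, (g * u * g⁻¹) (S.tmap (rot S.al v) LinearMap.id X) =
      S.tmap (rot S.al v) LinearMap.id ((g * u * g⁻¹) X) := fun X => by
    obtain ⟨X, rfl⟩ := g.surjective X
    rw [← h, hk, hk, ← h]
    refine congrArg g ?_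
    simp only [hue, ← LinearMap.comp_apply (f := S.tmap _ _), S.tmap_comp, LinearMap.id_comp, LinearMap.comp_id]
  have hT := H.isT_of_aniso hno hv hkM (H.map_rot hv hv hkc)
  obtain ⟨s, t, hs, ht, he⟩ := H.normal_form hkM hT
  have hgu : ∀ X, g (u X) = S.tmap s t (g X) := fun X => by rw [← hk, he]
  have h2 : (S.tmap s t : Module.End F V) ^ p = 1 := by
    have h1 : ∀ n : ℕ, ∀ X, g ((u ^ n) X) = ((S.tmap s t : Module.End F V) ^ n) (g X) := by
      intro n
      induction n with
      | zero => intro X; rfl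
      | succ n ih =>
        intro X
        rw [pow_succ, LinearEquiv.mul_apply, ih, hgu, pow_succ, Module.End.mul_apply]
    have hup : ∀ n : ℕ, ∀ X, (u ^ n) X = ((S.tmap LinearMap.id (eich S.be w y) : Module.End F V) ^ n) X := by
      intro n
      induction n with
      | zero => intro X; rfl
      | succ n ih => intro X; rw [pow_succ, pow_succ, LinearEquiv.mul_apply, Module.End.mul_apply, ih, hue]
    refine LinearMap.ext fun X => ?_
    obtain ⟨X, rfl⟩ := g.surjective X
    rw [← h1, hup, S.tmap_pow, eich_pow_char S.sym_be p hw0 hwy, id_pow]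
    exact congrArg g (LinearMap.congr_fun S.tmap_id X)
  obtain ⟨hsp, htp⟩ := H.pow_normal (p := p) hs ht h2
  obtain ⟨b₀, -, hb₀⟩ := S.sym_be.exists_value_in (B := ⊤) (fun x _ hx => S.be_nd x fun y => hx y trivial)
    (by rw [finrank_top, H.four]; norm_num) 1
  have hs1 : s = LinearMap.id := H.rot_commute_fix hv hs.1 hsp fun a => by
    have h3 := hkc (S.tp a b₀)
    rw [he, he, S.tmap_tp, S.tmap_tp, S.tmap_tp, S.tmap_tp] at h3
    exact S.tp_injective' (w := t b₀) (fun h0 => by
      have := ht b₀ b₀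
      rw [h0, hb₀] at this
      simp at this) h3
  have hyy : S.be y y ≠ 0 := fun h0 => hy0 (hw.aniso' hy h0)
  set N : B →ₗ[F] B := t ∘ₗ t - (2 : F) • t + LinearMap.id with hN
  have hsq : ∀ X, g (-S.be y y • S.tp (S.con w X) w) = S.tmap LinearMap.id N (g X) := fun X => by
    have h1 := congrArg g (S.u_sq hw0 hwy X)
    simp only [← hue] at h1
    rw [map_add, map_sub, map_smul, hgu, hgu, hs1] at h1
    rw [← h1]
    have h4 : S.tmap LinearMap.id t ∘ₗ S.tmap LinearMap.id t - (2 : F) • S.tmap LinearMap.id t + LinearMap.id =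
        S.tmap LinearMap.id N := S.hom_ext fun a b => by simp [hN]
    exact LinearMap.congr_fun h4 (g X)
  let P : V →ₗ[F] V := S.tp.flip w ∘ₗ S.con w
  have hrange : ∀ a z, ∃ a', g (S.tp a' w) = S.tp a (N z) := fun a z => by
    obtain ⟨X, hX⟩ := g.surjective (S.tp a z)
    refine ⟨-S.be y y • S.con w X, ?_⟩
    rw [map_smul, LinearMap.smul_apply, hsq, hX, S.tmap_tp]
    rfl
  obtain ⟨a₀, -, ha₀⟩ := S.sym_al.exists_value_in (B := ⊤) (fun x _ hx => S.al_nd x fun y => hx y trivial)
    (by rw [finrank_top, H.three]; norm_num) 1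
  have ha₀0 : a₀ ≠ 0 := fun h0 => by simp [h0] at ha₀
  obtain ⟨z₀, hz₀⟩ : ∃ z, N z ≠ 0 := by
    by_contra! h0
    have h1 := hsq (S.tp a₀ w')
    rw [show S.tmap LinearMap.id N = 0 from S.hom_ext fun a b => by simp [h0], S.con_tp,
      hw.pair' S.sym_be, one_smul, LinearMap.zero_apply, ← map_zero g] at h1
    exact ha₀0 (S.tp_injective' hwne (a' := 0) (by
      rw [map_zero, LinearMap.zero_apply]
      exact (smul_eq_zero.1 (g.injective h1)).resolve_left (neg_ne_zero.2 hyy)))
  set l := N z₀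
  let Φ : A →ₗ[F] V := g.symm.toLinearMap ∘ₗ S.tp.flip l
  have hΦ : LinearMap.range Φ = LinearMap.range (S.tp.flip w) := by
    refine Submodule.eq_of_le_of_finrank_le ?_ ?_
    · rintro _ ⟨a, rfl⟩
      obtain ⟨a', ha'⟩ := hrange a z₀
      exact ⟨a', g.injective (by simp [Φ, ha', l])⟩
    · show finrank F (LinearMap.range (S.swap.tp w)) ≤ _
      rw [LinearMap.finrank_range_of_inj (S.swap.tp_injective hwne),
        LinearMap.finrank_range_of_inj (f := Φ) (fun x y h => S.swap.tp_injective hz₀ (g.symm.injective h))]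
  have hl : S.be l l = 0 := by
    obtain ⟨a', ha'⟩ := hrange a₀ z₀
    have h1 := H.iso g hg (S.tp a' w) (S.tp a' w)
    rw [ha', S.form_tp, S.form_tp, hw0, mul_zero, ha₀, one_mul] at h1
    exact h1
  obtain ⟨l', hl'⟩ := exists_frame S.sym_be H.wB hl hz₀
  refine S.isT_of_swap (H.toSide.swap.isT_of_frames (H.toSide.noRoot_swap hno) hw hl' hg fun a => ?_)
  obtain ⟨a', ha'⟩ : ∃ a', Φ a' = S.tp a w := by
    have : S.tp a w ∈ LinearMap.range Φ := by rw [hΦ]; exact ⟨a, rfl⟩
    exact this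
  refine ⟨a', ?_⟩
  show g (S.tp a w) = S.tp a' l
  rw [← ha']
  exact g.apply_symm_apply _

end Hyp

end CfsgLib.OTensor90
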