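import Cfsg.Agent.SpO90.Quad

/-!
Hyperbolic frames with anisotropic middle, Eichler maps, and elementary facts on isometries of small
orthogonal spaces in odd characteristic.
-/

set_option autoImplicit false
set_option linter.unusedSectionVars false
set_option linter.unusedSimpArgs false
set_option linter.unusedVariables false

namespace CfsgLib.OTensor90

open Module CfsgLib.SpO90

variable {F : Type*} [Field F] [Finite F] {W : Type*} [AddCommGroup W] [Module F W] [FiniteDimensional F W]
variable {β : LinearMap.BilinForm F W}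

/-- An isometry of determinant one. -/
def IsSO (β : LinearMap.BilinForm F W) (o : W →ₗ[F] W) : Prop := IsIso β o ∧ LinearMap.det o = 1

lemma IsSO.comp {o o' : W →ₗ[F] W} (h : IsSO β o) (h' : IsSO β o') : IsSO β (o ∘ₗ o') :=
  ⟨h.1.comp h'.1, by rw [LinearMap.det_comp, h.2, h'.2, one_mul]⟩

/-- An isometry as an equivalence. -/
noncomputable def isoEquiv (h : Sym β) {o : W →ₗ[F] W} (ho : IsIso β o) : W ≃ₗ[F] W :=
  LinearEquiv.ofInjectiveEndo o (h.iso_injective ho)

@[simp] lemma isoEquiv_apply (h : Sym β) {o : W →ₗ[F] W} (ho : IsIso β o) (x : W) :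
    isoEquiv h ho x = o x := rfl

lemma det_refl (h : Sym β) {v : W} (hv : β v v ≠ 0) : LinearMap.det (refl β v) = -1 := by
  have e : refl β v = LinearMap.transvection (-(2 / β v v) • β v) v := LinearMap.ext fun x => by
    rw [refl_apply, LinearMap.transvection.apply]
    simp [sub_eq_add_neg]
  rw [e, LinearMap.transvection.det, LinearMap.smul_apply, smul_eq_mul, neg_mul, div_mul_cancel₀ _ hv]
  ring

lemma isSO_refl_refl (h : Sym β) {a b : W} (ha : β a a ≠ 0) (hb : β b b ≠ 0) :
    IsSO β (refl β a ∘ₗ refl β b) :=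
  ⟨(h.refl_isIso a).comp (h.refl_isIso b), by
    rw [LinearMap.det_comp, det_refl h ha, det_refl h hb]; ring⟩

section charp

variable {p : ℕ} [hp : Fact p.Prime] [CharP F p]

lemma sub_one_pow_char {o : Module.End F W} (ho : o ^ p = 1) : (o - 1) ^ p = 0 := by
  rcases subsingleton_or_nontrivial (Module.End F W) with hs | hn
  · exact Subsingleton.elim _ _
  have : CharP (Module.End F W) p := charP_of_injective_algebraMap (algebraMap F (Module.End F W)).injective p
  rw [sub_pow_char_of_commute _ (Commute.one_right o), ho, one_pow, sub_self]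

lemma eq_one_of_pow_char {c : F} (hc : c ^ p = 1) : c = 1 := by
  have h : (c - 1) ^ p = 0 := by rw [sub_pow_char, hc, one_pow, sub_self]
  exact sub_eq_zero.1 (eq_zero_of_pow_eq_zero h)

lemma det_eq_one_of_pow {o : Module.End F W} (ho : o ^ p = 1) : LinearMap.det o = 1 :=
  eq_one_of_pow_char (p := p) (by rw [← map_pow, ho, map_one])

/-- An isometry of order `p` of a non-degenerate plane is trivial on it. -/
lemma plane_fix (h : Sym β) {P : Submodule F W} (hP : ND β P) (hdim : finrank F P = 2) {o : Module.End F W}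
    (ho : IsIso β o) (hmap : ∀ z ∈ P, o z ∈ P) (hpow : ∀ z ∈ P, (o ^ p) z = z) : ∀ z ∈ P, o z = z := by
  by_contra! hall
  obtain ⟨z, hz, hne⟩ := hall
  set N : Module.End F P := (o.restrict hmap) - 1 with hN
  have hpw : (o.restrict hmap : Module.End F P) ^ p = 1 := by
    rw [Module.End.pow_restrict p]
    exact LinearMap.ext fun x => Subtype.ext (hpow x x.2)
  have hnil : N ^ p = 0 := sub_one_pow_char hpw
  have hN0 : N ≠ 0 := fun h0 => hne (congrArg Subtype.val (LinearMap.congr_fun (sub_eq_zero.1 h0) ⟨z, hz⟩))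
  classical
  have hex : ∃ n, N ^ n = 0 := ⟨p, hnil⟩
  have hk := Nat.find_spec hex
  have h1 : 2 ≤ Nat.find hex := by
    by_contra hlt
    have : Nat.find hex = 0 ∨ Nat.find hex = 1 := by omega
    rcases this with e | e <;> rw [e] at hk
    · rw [pow_zero] at hk
      exact hN0 (by rw [← mul_one N, hk, mul_zero])
    · exact hN0 (by rwa [pow_one] at hk)
  obtain ⟨m, hm⟩ : ∃ m, Nat.find hex = m + 2 := ⟨_, (Nat.sub_add_cancel h1).symm⟩
  obtain ⟨x, hx⟩ : ∃ x, (N ^ (m + 1)) x ≠ 0 := by
    by_contra! h0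
    exact Nat.find_min hex (m := m + 1) (by omega) (LinearMap.ext h0)
  set y := (N ^ m) x
  set l := N y with hl
  have hl0 : l ≠ 0 := by
    rw [hl, ← Module.End.mul_apply, ← pow_succ']; exact hx
  have hNl : N l = 0 := by
    rw [hl, ← Module.End.mul_apply, ← Module.End.mul_apply, mul_assoc, ← pow_succ', ← pow_succ', ← hm, hk,
      LinearMap.zero_apply]
  have hol : o l = (l : W) := congrArg Subtype.val (sub_eq_zero.1 (show o.restrict hmap l - l = 0 from hNl))
  have hoy : o y = (y : W) + (l : W) := by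
    have : (l : W) = o y - (y : W) := rfl
    rw [this]; abel
  have e1 := ho (y : W) (l : W)
  rw [hoy, hol, map_add, LinearMap.add_apply, add_eq_left] at e1
  have e2 := ho (y : W) (y : W)
  rw [hoy] at e2
  simp only [map_add, LinearMap.add_apply, e1, h.symm (l : W) (y : W)] at e2
  have e3 : β (y : W) (l : W) = 0 := (mul_eq_zero.1 (show (2 : F) * β (y : W) (l : W) = 0 by
    linear_combination e2)).resolve_left h.two_ne
  have hli : LinearIndependent F ![(y : W), (l : W)] := by
    refine LinearIndependent.pair_iff.2 fun s t hst => ?_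
    have h2 : s • y + t • l = 0 := Subtype.ext hst
    have h3 := congrArg N h2
    rw [map_add, map_smul, map_smul, hNl, smul_zero, add_zero, map_zero, ← hl] at h3
    have hs := (smul_eq_zero.1 h3).resolve_right hl0
    rw [hs, zero_smul, zero_add] at h2
    exact ⟨hs, (smul_eq_zero.1 h2).resolve_right hl0⟩
  have hspan : Submodule.span F (Set.range ![(y : W), (l : W)]) = P := by
    refine Submodule.eq_of_le_of_finrank_le (Submodule.span_le.2 ?_) ?_
    · rintro _ ⟨i, rfl⟩
      fin_cases i
      · exact y.2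
      · exact l.2
    · rw [hdim, finrank_span_eq_card hli, Fintype.card_fin]
  refine hl0 (Subtype.ext (hP _ l.2 fun u hu => ?_))
  rw [← hspan] at hu
  induction hu using Submodule.span_induction with
  | mem u hu =>
    obtain ⟨i, rfl⟩ := hu
    fin_cases i
    · show β (l : W) (y : W) = 0
      rw [h.symm, e3]
    · exact e1
  | zero => simp
  | add a b _ _ ha hb => simp [ha, hb]
  | smul c a _ ha => simp [ha]

end charp

/-- At most one singular line in every totally singular subspace. -/
def WittOne (β : LinearMap.BilinForm F W) : Prop :=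
  ∀ x y, β x x = 0 → β y y = 0 → β x y = 0 → x ≠ 0 → ∃ c : F, y = c • x

/-- A hyperbolic pair with anisotropic orthogonal. -/
structure Frame (β : LinearMap.BilinForm F W) (e e' : W) : Prop where
  left : β e e = 0
  right : β e' e' = 0
  pair : β e e' = 1
  aniso : ∀ z, β e z = 0 → β e' z = 0 → β z z = 0 → z = 0

/-- The orthogonal of a pair. -/
def mid (β : LinearMap.BilinForm F W) (e e' : W) : Submodule F W := LinearMap.ker ((β e).prod (β e'))

lemma mem_mid {e e' z : W} : z ∈ mid β e e' ↔ β e z = 0 ∧ β e' z = 0 := by simp [mid]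

lemma frame_of_pair (hW : WittOne β) {e e' : W} (h1 : β e e = 0) (h2 : β e' e' = 0) (h3 : β e e' = 1)
    (hs : Sym β) : Frame β e e' := by
  refine ⟨h1, h2, h3, fun z he he' hz => ?_⟩
  obtain ⟨c, rfl⟩ := hW e z h1 hz he (fun h0 => by simp [h0] at h3)
  rw [map_smul, hs.symm e' e, h3, smul_eq_mul, mul_one] at he'
  rw [he', zero_smul]

lemma exists_frame (hs : Sym β) (hW : WittOne β) {e : W} (h1 : β e e = 0) (h0 : e ≠ 0) :
    ∃ e', Frame β e e' := by
  obtain ⟨y, hy⟩ : ∃ y, β e y ≠ 0 := by
    by_contra! h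
    exact h0 (hs.nondeg e h)
  set y' := (β e y)⁻¹ • y with hy'
  have h3 : β e y' = 1 := by simp [hy', inv_mul_cancel₀ hy]
  refine ⟨y' - (β y' y' / 2) • e, frame_of_pair hW h1 ?_ ?_ hs⟩
  · have := hs.two_ne
    simp only [map_sub, map_smul, LinearMap.sub_apply, LinearMap.smul_apply, smul_eq_mul, h1, h3,
      hs.symm y' e]
    field_simp
    ring
  · simp [h1, h3]

namespace Frame

variable {e e' : W} (hf : Frame β e e') (hs : Sym β)
include hf hs

lemma pair' : β e' e = 1 := by rw [hs.symm]; exact hf.pair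

lemma swap : Frame β e' e :=
  ⟨hf.right, hf.left, hf.pair' hs, fun z h1 h2 h3 => hf.aniso z h2 h1 h3⟩

omit hs in
lemma left_ne : e ≠ 0 := fun h0 => by simpa [h0] using hf.pair

lemma decomp (z : W) : z - β e' z • e - β e z • e' ∈ mid β e e' := by
  simp [mem_mid, hf.left, hf.right, hf.pair, hf.pair' hs]

/-- Values on the frame determine a linear map. -/
lemma hom_ext {U : Type*} [AddCommGroup U] [Module F U] {f g : W →ₗ[F] U} (h1 : f e = g e) (h2 : f e' = g e')
    (h3 : ∀ z ∈ mid β e e', f z = g z) : f = g := by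
  refine LinearMap.ext fun z => ?_
  have hz : z = β e' z • e + β e z • e' + (z - β e' z • e - β e z • e') := by abel
  rw [hz]
  simp only [map_add, map_smul, h1, h2, h3 _ (hf.decomp hs z)]

lemma nd_mid : ND β (mid β e e') := fun z hz h => by
  obtain ⟨h1, h2⟩ := mem_mid.1 hz
  exact hf.aniso z h1 h2 (h z hz)

lemma finrank_mid : finrank F (mid β e e') + 2 = finrank F W := by
  have h1 := LinearMap.finrank_range_add_finrank_ker ((β e).prod (β e'))
  rw [LinearMap.range_eq_top.2 (fun p => ⟨p.2 • e + p.1 • e', by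
    simp [hf.left, hf.right, hf.pair, hf.pair' hs]⟩), finrank_top, finrank_prod, finrank_self] at h1
  show finrank F (LinearMap.ker ((β e).prod (β e'))) + 2 = _
  omega

omit hs in
lemma aniso' {z : W} (hz : z ∈ mid β e e') (h0 : β z z = 0) : z = 0 :=
  hf.aniso z (mem_mid.1 hz).1 (mem_mid.1 hz).2 h0

lemma exists_mid_ne (hd : 3 ≤ finrank F W) : ∃ z ∈ mid β e e', z ≠ 0 := by
  refine Submodule.exists_mem_ne_zero_of_ne_bot fun h0 => ?_
  have := hf.finrank_mid hs
  rw [h0, finrank_bot] at this
  omega

end Frame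

/-- The Eichler map. -/
noncomputable def eich (β : LinearMap.BilinForm F W) (e y : W) : W →ₗ[F] W :=
  LinearMap.id + (β y).smulRight e - (β e).smulRight y - (β y y / 2) • (β e).smulRight e

lemma eich_apply (e y x : W) :
    eich β e y x = x + β y x • e - β e x • y - (β y y / 2 * β e x) • e := by
  simp [eich, smul_smul]

section eich

variable {e e' : W} (hs : Sym β)
include hs

lemma eich_isIso {y : W} (he : β e e = 0) (hy : β e y = 0) : IsIso β (eich β e y) := by
  intro x x'
  have := hs.two_ne
  simp only [eich_apply, map_add, map_sub, map_smul, LinearMap.add_apply, LinearMap.sub_apply,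
    LinearMap.smul_apply, smul_eq_mul, he, hy, hs.symm y e, hs.symm x e, hs.symm x y]
  field_simp
  ring

lemma eich_comp {y y' : W} (he : β e e = 0) (hy : β e y = 0) (hy' : β e y' = 0) :
    eich β e y ∘ₗ eich β e y' = eich β e (y + y') := by
  refine LinearMap.ext fun x => ?_
  have := hs.two_ne
  simp only [LinearMap.comp_apply, eich_apply, map_add, map_sub, map_smul, LinearMap.add_apply,
    LinearMap.sub_apply, LinearMap.smul_apply, smul_eq_mul, he, hy, hy', hs.symm y e, hs.symm y' y]
  match_scalars <;> field_simp <;> ring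

omit hs in
lemma eich_zero : eich β e (0 : W) = LinearMap.id := LinearMap.ext fun x => by simp [eich_apply]

lemma eich_pow {y : W} (he : β e e = 0) (hy : β e y = 0) (n : ℕ) :
    (eich β e y : Module.End F W) ^ n = eich β e ((n : F) • y) := by
  induction n with
  | zero => rw [pow_zero, Nat.cast_zero, zero_smul, eich_zero]; rfl
  | succ n ih =>
    rw [pow_succ, ih, Module.End.mul_eq_comp, eich_comp hs he (by simp [hy]) hy, Nat.cast_succ, add_smul, one_smul]

lemma eich_pow_char (p : ℕ) [CharP F p] {y : W} (he : β e e = 0) (hy : β e y = 0) :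
    (eich β e y : Module.End F W) ^ p = 1 := by
  rw [eich_pow hs he hy, CharP.cast_eq_zero, zero_smul, eich_zero]; rfl

lemma eich_isSO {y : W} (he : β e e = 0) (hy : β e y = 0) : IsSO β (eich β e y) := by
  have := Fintype.ofFinite F
  obtain ⟨p, hp⟩ := CharP.exists F
  have : Fact p.Prime := ⟨CharP.char_is_prime F p⟩
  exact ⟨eich_isIso hs he hy, det_eq_one_of_pow (p := p) (eich_pow_char hs p he hy)⟩

variable (hf : Frame β e e')
include hf

lemma eich_left {y : W} (hy : y ∈ mid β e e') : eich β e y e = e := by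
  simp [eich_apply, hf.left, hs.symm y e, (mem_mid.1 hy).1]

lemma eich_mid {y z : W} (hz : z ∈ mid β e e') : eich β e y z = z + β y z • e := by
  simp [eich_apply, (mem_mid.1 hz).1]

lemma eich_right {y : W} (hy : y ∈ mid β e e') : eich β e y e' = e' - y - (β y y / 2) • e := by
  simp [eich_apply, hs.symm y e', (mem_mid.1 hy).2, hf.pair]

lemma eich_mem_mid_right {y : W} (hy : y ∈ mid β e e') : β e (eich β e y e') = 1 := by
  simp [eich_right hs hf hy, hf.left, hf.pair, (mem_mid.1 hy).1]

/-- An isometry of determinant one exchanging the pair. -/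
lemma exists_swap (hd : 3 ≤ finrank F W) :
    ∃ r, IsSO β r ∧ r e = e' ∧ r e' = e ∧ ∀ z ∈ mid β e e', r z ∈ mid β e e' := by
  obtain ⟨y, hy, hy0⟩ := hf.exists_mid_ne hs hd
  obtain ⟨hye, hye'⟩ := mem_mid.1 hy
  have hyy : β y y ≠ 0 := fun h0 => hy0 (hf.aniso' hy h0)
  set l := e - e' with hl
  have hll : β l l = -2 := by
    simp [hl, hf.left, hf.right, hf.pair, hf.pair' hs]; ring
  have hll0 : β l l ≠ 0 := by rw [hll]; exact neg_ne_zero.2 hs.two_ne
  have h2 := hs.two_ne
  refine ⟨refl β l ∘ₗ refl β y, isSO_refl_refl hs hll0 hyy, ?_, ?_, fun z hz => ?_⟩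
  · rw [LinearMap.comp_apply, Sym.refl_perp (v := y) (by rw [hs.symm]; exact hye), refl_apply, hll]
    simp [hl, hf.left, hf.pair' hs]
    field_simp
    simp
  · rw [LinearMap.comp_apply, Sym.refl_perp (v := y) (by rw [hs.symm]; exact hye'), refl_apply, hll]
    simp [hl, hf.right, hf.pair]
    field_simp
    simp
  · have h3 : refl β y z ∈ mid β e e' := by
      rw [refl_apply]
      exact Submodule.sub_mem _ hz (Submodule.smul_mem _ _ hy)
    rw [LinearMap.comp_apply, Sym.refl_perp (by simp [hl, (mem_mid.1 h3).1, (mem_mid.1 h3).2])]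
    exact h3

/-- The rotations of the hyperbolic plane. -/
lemma exists_scale {k : F} (hk : k ≠ 0) :
    ∃ b, IsSO β b ∧ b e = k • e ∧ b e' = k⁻¹ • e' ∧ ∀ z ∈ mid β e e', b z = z := by
  have hrl : ∀ t : F, t ≠ 0 → β (e + t • e') (e + t • e') = 2 * t ∧
      refl β (e + t • e') e = -t • e' ∧ refl β (e + t • e') e' = -t⁻¹ • e := by
    intro t ht
    have h2 := hs.two_ne
    have h1 : β (e + t • e') (e + t • e') = 2 * t := by
      simp [hf.left, hf.right, hf.pair, hf.pair' hs]; ring
    refine ⟨h1, ?_, ?_⟩ <;>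
    · rw [refl_apply, h1]
      simp [hf.left, hf.right, hf.pair, hf.pair' hs]
      match_scalars <;> field_simp <;> ring
  obtain ⟨a1, a2, a3⟩ := hrl 1 one_ne_zero
  obtain ⟨b1, b2, b3⟩ := hrl k hk
  have h2 := hs.two_ne
  refine ⟨refl β (e + (1 : F) • e') ∘ₗ refl β (e + k • e'),
    isSO_refl_refl hs (by rw [a1]; simpa using h2) (by rw [b1]; exact mul_ne_zero h2 hk), ?_, ?_, fun z hz => ?_⟩
  · rw [LinearMap.comp_apply, b2, map_smul, a3]
    simp
  · rw [LinearMap.comp_apply, b3, map_smul, a2]
    simp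
  · obtain ⟨z1, z2⟩ := mem_mid.1 hz
    rw [LinearMap.comp_apply, Sym.refl_perp (v := e + k • e') (by simp [z1, z2]),
      Sym.refl_perp (by simp [z1, z2])]

end eich

end CfsgLib.OTensor90
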