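import Cfsg.Agent.OTensor90.Setting
import Cfsg.Agent.Classical.Orth.Diag
import Cfsg.Agent.Eq.Def_Classical
import Cfsg.Agent.Eq.Def_ClassicalGeometry

/-!
Reflection lists of tensor maps, for the spinor norm.
-/

set_option autoImplicit false
set_option linter.unusedSectionVars false
set_option linter.unusedSimpArgs false
set_option linter.unusedVariables false

namespace CfsgLib.OTensor90

open Module Matrix CfsgLib.SpO90 CfsgLib.OrthGeo

variable {F A B : Type*} [Field F] [Finite F] [AddCommGroup A] [Module F A] [AddCommGroup B]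
  [Module F B] [FiniteDimensional F A] [FiniteDimensional F B]

/-- The composition of the reflections in the vectors of a list. -/
noncomputable def reflProd (β : LinearMap.BilinForm F A) : List A → (A →ₗ[F] A)
  | [] => LinearMap.id
  | v :: vs => refl β v ∘ₗ reflProd β vs

lemma det_reflProd {β : LinearMap.BilinForm F A} (hs : Sym β) :
    ∀ vs : List A, (∀ v ∈ vs, β v v ≠ 0) → LinearMap.det (reflProd β vs) = (-1) ^ vs.length
  | [], _ => by simp [reflProd]
  | v :: vs, h => by
    rw [reflProd, LinearMap.det_comp, det_refl hs (h v (List.mem_cons_self ..)),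
      det_reflProd hs vs (fun w hw => h w (List.mem_cons_of_mem _ hw)), List.length_cons, pow_succ']

lemma orth_diag_ne_zero {β : LinearMap.BilinForm F A} (hs : Sym β) {k : ℕ} (bs : Basis (Fin k) F A)
    (ho : ∀ i j, i ≠ j → β (bs i) (bs j) = 0) (i : Fin k) : β (bs i) (bs i) ≠ 0 := fun h0 => by
  refine bs.ne_zero i (hs.nondeg _ fun z => ?_)
  rw [← bs.sum_repr z, map_sum]
  refine Finset.sum_eq_zero fun j _ => ?_
  rcases eq_or_ne i j with rfl | hij
  · rw [map_smul, h0, smul_zero]
  · rw [map_smul, ho i j hij, smul_zero]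

/-- The expansion along an orthogonal basis. -/
lemma orth_expand {β : LinearMap.BilinForm F A} (hs : Sym β) {k : ℕ} (bs : Basis (Fin k) F A)
    (ho : ∀ i j, i ≠ j → β (bs i) (bs j) = 0) (z : A) : ∑ j, (β (bs j) z / β (bs j) (bs j)) • bs j = z := by
  conv_rhs => rw [← bs.sum_repr z]
  refine Finset.sum_congr rfl fun j _ => ?_
  congr 1
  rw [div_eq_iff (orth_diag_ne_zero hs bs ho j)]
  conv_lhs => rw [← bs.sum_repr z]
  rw [map_sum, Finset.sum_eq_single j (fun i _ hij => by rw [map_smul, ho j i (Ne.symm hij), smul_zero])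
    (fun h => absurd (Finset.mem_univ j) h), map_smul, smul_eq_mul]

/-- Minus the identity is the product of the reflections in an orthogonal basis of three vectors. -/
lemma reflProd_basis_three {β : LinearMap.BilinForm F A} (hs : Sym β) (bs : Basis (Fin 3) F A)
    (ho : ∀ i j, i ≠ j → β (bs i) (bs j) = 0) : reflProd β [bs 0, bs 1, bs 2] = -LinearMap.id := by
  refine LinearMap.ext fun z => ?_
  have h0 := orth_diag_ne_zero hs bs ho 0
  have h1 := orth_diag_ne_zero hs bs ho 1
  have h2 := orth_diag_ne_zero hs bs ho 2
  have e := orth_expand hs bs ho z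
  rw [Fin.sum_univ_three] at e
  simp only [reflProd, LinearMap.comp_apply, LinearMap.id_apply, LinearMap.neg_apply, refl_apply, map_sub, map_smul,
    smul_eq_mul, ho 0 1 (by decide), ho 0 2 (by decide), ho 1 2 (by decide)]
  linear_combination (norm := module) (-2 : F) • e

variable {ι : Type} [Fintype ι] [DecidableEq ι] {Q : (ι → F) → F}

/-- The list of vectors `v ⊗ bⱼ`. -/
noncomputable def tenList (S : Setting F A B (ι → F)) {k : ℕ} (bs : Basis (Fin k) F B) (vs : List A) :
    List (ι → F) :=
  vs.flatMap fun v => List.ofFn fun j => S.tp v (bs j)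

variable (hQ : Cfsg.Geo.IsNondegenerateQuadraticForm Q) (S : Setting F A B (ι → F))
include hQ

lemma q_tp (hS : ∀ X Y, S.form X Y = bform hQ X Y) (a : A) (b : B) : Q (S.tp a b) = S.al a a * S.be b b / 2 := by
  have h := b_self hQ (S.tp a b)
  rw [← hS, S.form_tp] at h
  rw [h, mul_div_assoc, mul_div_cancel₀ _ S.two]

/-- The properties of the list of vectors `v ⊗ bⱼ`. -/
lemma tenList_spec (hS : ∀ X Y, S.form X Y = bform hQ X Y) {k : ℕ} (bs : Basis (Fin k) F B)
    (ho : ∀ i j, i ≠ j → S.be (bs i) (bs j) = 0) :
    ∀ vs : List A, (∀ v ∈ vs, S.al v v ≠ 0) →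
      (∀ w ∈ tenList S bs vs, Q w ≠ 0) ∧ (tenList S bs vs).length = k * vs.length ∧
      ((tenList S bs vs).map Q).prod =
        (vs.map fun v => (S.al v v / 2) ^ k).prod * (∏ j, S.be (bs j) (bs j)) ^ vs.length ∧
      ∀ X, ((tenList S bs vs).map fun w => Cfsg.reflectionMatrix Q w).prod *ᵥ X =
        S.tmap (reflProd S.al vs) LinearMap.id X
  | [], _ => by
    refine ⟨by simp [tenList], by simp [tenList], by simp [tenList], fun X => ?_⟩
    simp only [tenList, List.flatMap_nil, List.map_nil, List.prod_nil, Matrix.one_mulVec, reflProd, S.tmap_id]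
    rfl
  | v :: vs, h => by
    obtain ⟨i1, i2, i3, i4⟩ := tenList_spec hS bs ho vs fun w hw => h w (List.mem_cons_of_mem _ hw)
    have hv := h v (List.mem_cons_self ..)
    have hne : ∀ w ∈ List.ofFn (fun j => S.tp v (bs j)), Q w ≠ 0 := fun w hw => by
      obtain ⟨j, rfl⟩ := List.mem_ofFn.1 hw
      rw [q_tp hQ S hS]
      exact div_ne_zero (mul_ne_zero hv (orth_diag_ne_zero S.sym_be bs ho j)) S.two
    have hcons : tenList S bs (v :: vs) = List.ofFn (fun j => S.tp v (bs j)) ++ tenList S bs vs := by
      simp [tenList]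
    refine ⟨fun w hw => ?_, ?_, ?_, fun X => ?_⟩
    · rw [hcons, List.mem_append] at hw
      exact hw.elim (hne w) (i1 w)
    · rw [hcons, List.length_append, List.length_ofFn, i2, List.length_cons]
      ring
    · rw [hcons, List.map_append, List.prod_append, i3, List.map_ofFn, List.prod_ofFn, List.map_cons,
        List.prod_cons, List.length_cons, pow_succ]
      have e : ∀ j, (Q ∘ fun j => S.tp v (bs j)) j = S.al v v / 2 * S.be (bs j) (bs j) := fun j => by
        rw [Function.comp_apply, q_tp hQ S hS]; ring
      simp only [e, Finset.prod_mul_distrib, Finset.prod_const, Finset.card_univ, Fintype.card_fin]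
      ring
    · have hp : (List.ofFn fun j => S.tp v (bs j)).Pairwise (fun x y => bform hQ x y = 0) :=
        List.pairwise_ofFn.2 fun i j hij => by rw [← hS, S.form_tp, ho i j hij.ne, mul_zero]
      have hstep : ∀ Y, ((List.ofFn fun j => S.tp v (bs j)).map fun w => Cfsg.reflectionMatrix Q w).prod *ᵥ Y =
          S.tmap (refl S.al v) LinearMap.id Y := by
        intro Y
        have h1 : Matrix.toLin' ((List.ofFn fun j => S.tp v (bs j)).map fun w => Cfsg.reflectionMatrix Q w).prod =
            S.tmap (refl S.al v) LinearMap.id := S.hom_ext fun a b => by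
          rw [Matrix.toLin'_apply, CfsgLib.Classical.Orth.prod_reflection_orthogonal hQ _ hne hp, S.tmap_tp,
            List.map_ofFn, List.sum_ofFn, LinearMap.id_apply, refl_apply, map_sub, LinearMap.sub_apply, map_smul,
            LinearMap.smul_apply]
          congr 1
          conv_rhs => rw [← orth_expand S.sym_be bs ho b, map_sum, Finset.smul_sum]
          refine Finset.sum_congr rfl fun j _ => ?_
          rw [Function.comp_apply, q_tp hQ S hS, ← hS, S.form_tp, map_smul, smul_smul]
          congr 1
          have := S.two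
          field_simp
        rw [← h1, Matrix.toLin'_apply]
      rw [hcons, List.map_append, List.prod_append, ← Matrix.mulVec_mulVec, i4, hstep, ← LinearMap.comp_apply,
        S.tmap_comp, LinearMap.id_comp]
      rfl

omit hQ in
lemma isSquare_list_prod {l : List F} (h : ∀ x ∈ l, IsSquare x) : IsSquare l.prod := by
  induction l with
  | nil => simp
  | cons a l ih =>
    rw [List.prod_cons]
    exact (h a (List.mem_cons_self ..)).mul (ih fun x hx => h x (List.mem_cons_of_mem _ hx))

end CfsgLib.OTensor90
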