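import Cfsg.Agent.OTensor90.Top
import Cfsg.Agent.OTensor90.Spinor
import Cfsg.Agent.FormTensor89.Instance
import Cfsg.Agent.FieldExtMax.MatrixForm
import Cfsg.Agent.OrthGeo.TensorThree
import Cfsg.Agent.OrthGeo.RootLines
import Cfsg.Agent.Aschbacher.OrthEvenMembers
import Cfsg.Agent.Eq.Def_Classical
import Cfsg.Agent.Eq.Def_ClassicalGeometry

/-!
Maximality of the stabiliser of a decomposition into an orthogonal three-space and an orthogonal four-space of
minus type.
-/

set_option autoImplicit false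
set_option linter.unusedSectionVars false
set_option linter.unusedSimpArgs false
set_option linter.unusedVariables false

namespace CfsgLib.OTensor90

open Module Matrix CfsgLib.SpO90 Cfsg.Geo
open CfsgLib.OrthGeo (bform bform_apply bilinOf bilinOf_apply)
open CfsgLib.FormTensor89 (tenLin tenLin_apply tenLin_span mem_tensor_of_pure)
open CfsgLib.FieldExtMax (glEquiv glEquiv_apply)

variable {F : Type*} [Field F] [Fintype F]

/-- An isometry of determinant one is a product of an even number of reflections. -/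
lemma exists_even_list {n : ℕ} {α : LinearMap.BilinForm F (Fin n → F)} (hs : Sym α)
    {s : (Fin n → F) →ₗ[F] (Fin n → F)} (h : IsSO α s) :
    ∃ vs : List (Fin n → F), (∀ v ∈ vs, α v v ≠ 0) ∧ Even vs.length ∧ reflProd α vs = s := by
  classical
  set q : (Fin n → F) → F := fun x => α x x / 2 with hq
  have h2 := hs.two_ne
  have hpol : ∀ x y, QuadraticMap.polar q x y = α x y := fun x y => by
    simp only [QuadraticMap.polar, hq, map_add, LinearMap.add_apply, hs.symm y x]
    field_simp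
    ring
  have hqn : IsNondegenerateQuadraticForm q := by
    refine ⟨fun c v => ?_, ⟨fun x y v => ?_, fun c x v => ?_, fun v x y => ?_, fun c v x => ?_⟩, fun v hv => ?_⟩
    · simp only [hq, map_smul, LinearMap.smul_apply, smul_eq_mul]; ring
    · simp [hpol]
    · simp [hpol]
    · simp [hpol]
    · simp [hpol]
    · obtain ⟨y, hy⟩ : ∃ y, α v y ≠ 0 := by
        by_contra! h0
        exact hv (hs.nondeg v h0)
      exact ⟨⟨y, by rwa [hpol, hs.symm]⟩, y, by rwa [hpol]⟩
  obtain ⟨g, hg⟩ := (glEquiv (ι := Fin n) (F := F)).surjective (isoEquiv hs h.1)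
  have hgs : ∀ x, (g : Matrix (Fin n) (Fin n) F) *ᵥ x = s x := fun x => by
    rw [← glEquiv_apply, hg, isoEquiv_apply]
  have hgI : g ∈ Cfsg.isometryGroup F q := CfsgLib.OrthGeo.mem_isometryGroup.2 fun x => by
    simp only [hq, hgs, h.1 x x]
  obtain ⟨vs, hvs, hprod⟩ :=
    CfsgLib.Classical.Orth.exists_reflection_list hqn (CfsgLib.Classical.Orth.not_exc_of_two_ne_zero h2) hgI
  have hne : ∀ v ∈ vs, α v v ≠ 0 := fun v hv h0 => hvs v hv (by simp [hq, h0])
  have hact : ∀ (l : List (Fin n → F)), (∀ v ∈ l, q v ≠ 0) → ∀ x,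
      (l.map fun v => Cfsg.reflectionMatrix q v).prod *ᵥ x = reflProd α l x := by
    intro l
    induction l with
    | nil => intro _ x; simp [reflProd]
    | cons v l ih =>
      intro hl x
      have hr := CfsgLib.OrthGeo.reflection_mulVec hqn (hl v (List.mem_cons_self ..))
      change ∀ x, Cfsg.reflectionMatrix q v *ᵥ x = _ at hr
      rw [List.map_cons, List.prod_cons, ← Matrix.mulVec_mulVec, ih fun w hw => hl w (List.mem_cons_of_mem _ hw), hr,
        reflProd, LinearMap.comp_apply, refl_apply, bform_apply, hpol]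
      congr 2
      simp only [hq]
      rw [inv_div]
  have hs' : reflProd α vs = s := LinearMap.ext fun x => by rw [← hact vs hvs, ← hprod, hgs]
  refine ⟨vs, hne, ?_, hs'⟩
  have hd := det_reflProd hs vs hne
  rw [hs', h.2] at hd
  by_contra ho
  rw [(Nat.not_even_iff_odd.1 ho).neg_one_pow] at hd
  exact h2 (by linear_combination hd)

/-- A form in three dimensions has no two orthogonal independent singular vectors. -/
lemma wittOne_three {W : Type*} [AddCommGroup W] [Module F W] [FiniteDimensional F W] {α : LinearMap.BilinForm F W}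
    (hs : Sym α) (h3 : finrank F W = 3) : WittOne α := by
  intro x y hx hy hxy hx0
  by_contra! hne
  have h1 := finrank_sup_lines hx0 hne
  have hle : (F ∙ x) ⊔ (F ∙ y) ≤ perp α ((F ∙ x) ⊔ (F ∙ y)) := by
    intro z hz a ha
    obtain ⟨z₁, hz₁, z₂, hz₂, rfl⟩ := Submodule.mem_sup.1 hz
    obtain ⟨a₁, ha₁, a₂, ha₂, rfl⟩ := Submodule.mem_sup.1 ha
    obtain ⟨c, rfl⟩ := Submodule.mem_span_singleton.1 hz₁
    obtain ⟨d, rfl⟩ := Submodule.mem_span_singleton.1 hz₂
    obtain ⟨c', rfl⟩ := Submodule.mem_span_singleton.1 ha₁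
    obtain ⟨d', rfl⟩ := Submodule.mem_span_singleton.1 ha₂
    simp [hx, hy, hxy, hs.symm y x]
  have h2 := hs.finrank_perp ((F ∙ x) ⊔ (F ∙ y))
  have h4 := Submodule.finrank_mono hle
  omega

/-- An orthogonal basis adapted to a frame, of non-square discriminant. -/
lemma exists_orth_basis_nonsquare {W : Type*} [AddCommGroup W] [Module F W] [FiniteDimensional F W]
    {β : LinearMap.BilinForm F W} (hs : Sym β) (hW : WittOne β) (h4 : finrank F W = 4) :
    ∃ b : Basis (Fin 4) F W, (∀ i j, i ≠ j → β (b i) (b j) = 0) ∧ ¬ IsSquare (∏ j, β (b j) (b j)) := by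
  obtain ⟨w, -, hwne, hw0⟩ := hs.exists_iso_in (B := ⊤) (fun x _ hx => hs.nondeg x fun y => hx y trivial)
    (by rw [finrank_top]; omega)
  obtain ⟨w', hw⟩ := exists_frame hs hW hw0 hwne
  obtain ⟨p, hp, hp0⟩ := hw.exists_mid_ne hs (by omega)
  have hN2 : finrank F (mid β w w') = 2 := by have := hw.finrank_mid hs; omega
  have hna : ∀ n ∈ mid β w w', n ≠ 0 → β n n ≠ 0 := fun n hn hn0 h0 => hn0 (hw.aniso' hn h0)
  have h1 := hs.finrank_inf_perp (mid β w w') p
  obtain ⟨p', hp', hp'0⟩ := Submodule.exists_mem_ne_zero_of_ne_bot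
    (p := mid β w w' ⊓ perp β (F ∙ p)) (fun h0 => by rw [h0, finrank_bot, hN2] at h1; omega)
  have hpp : β p p' = 0 := mem_perp_single.1 hp'.2
  obtain ⟨hwp, hw'p⟩ := mem_mid.1 hp
  obtain ⟨hwp', hw'p'⟩ := mem_mid.1 hp'.1
  have sw : β p w = 0 := by rw [hs.symm]; exact hwp
  have sw' : β p w' = 0 := by rw [hs.symm]; exact hw'p
  have sv : β p' w = 0 := by rw [hs.symm]; exact hwp'
  have sv' : β p' w' = 0 := by rw [hs.symm]; exact hw'p'
  have spp : β p' p = 0 := by rw [hs.symm]; exact hpp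
  set f : Fin 4 → W := ![w + w', w - w', p, p'] with hf
  have ho : ∀ i j, i ≠ j → β (f i) (f j) = 0 := by
    intro i j hij
    fin_cases i <;> fin_cases j <;> first
      | exact absurd rfl hij
      | simp [hf, hw.left, hw.right, hw.pair, hw.pair' hs, hwp, hw'p, hwp', hw'p', sw, sw', sv, sv', hpp, spp]
  have hd : ∀ i, β (f i) (f i) ≠ 0 := by
    have h2 := hs.two_ne
    intro i
    fin_cases i
    · simpa [hf, hw.left, hw.right, hw.pair, hw.pair' hs, one_add_one_eq_two] using h2
    · simpa [hf, hw.left, hw.right, hw.pair, hw.pair' hs, one_add_one_eq_two, sub_eq_add_neg, ← neg_add] using h2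
    · simpa [hf] using hna p hp hp0
    · simpa [hf] using hna p' hp'.1 hp'0
  have hli : LinearIndependent F f :=
    LinearMap.linearIndependent_of_isOrthoᵢ (B := β) (fun i j hij => ho i j hij) fun i h => hd i h
  refine ⟨basisOfLinearIndependentOfCardEqFinrank hli (by rw [h4, Fintype.card_fin]), fun i j hij => ?_, ?_⟩
  · rw [coe_basisOfLinearIndependentOfCardEqFinrank]
    exact ho i j hij
  · rw [coe_basisOfLinearIndependentOfCardEqFinrank, Fin.prod_univ_four]
    have e : β (f 0) (f 0) * β (f 1) (f 1) * β (f 2) (f 2) * β (f 3) (f 3) = 4 * (-(β p p) * β p' p') := by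
      simp [hf, hw.left, hw.right, hw.pair, hw.pair' hs]
      ring
    rw [e]
    rintro ⟨r, hr⟩
    refine not_isSquare_of_plane hs (fun z hz => hw.aniso' hz) hp hp'.1 (hna p hp hp0) (hna p' hp'.1 hp'0) hpp
      ⟨r / 2, ?_⟩
    have h2 := hs.two_ne
    field_simp
    linear_combination hr

variable {ι : Type} [Fintype ι] [DecidableEq ι] {Q : (ι → F) → F}

set_option maxHeartbeats 1000000 in
/-- The stabiliser of a tensor decomposition `O₃ ⊗ O₄⁻` is maximal, `q ≥ 5` odd. -/
theorem orth_three_four_tensor_isMaximal (hQ : IsNondegenerateQuadraticForm Q) (hodd : Odd (Fintype.card F))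
    (hq : 5 ≤ Fintype.card F) (e : ι ≃ Fin 3 × Fin 4) (P : GL ι F) {f₁ : (Fin 3 → F) → (Fin 3 → F) → F}
    {f₂ : (Fin 4 → F) → (Fin 4 → F) → F} (h1 : IsSymmetricForm f₁) (h2s : IsSymmetricForm f₂)
    (h2m : ¬ IsPlusTypeOn (fun v : Fin 4 → F => f₂ v v) ⊤)
    (hT : IsTensorFormStructure id (QuadraticMap.polar Q) f₁ f₂ e P) :
    IsMaximalIn (omegaGL Q) (tensorProductSubgroup 3 4 e P ⊓ omegaGL Q) := by
  classical
  obtain ⟨c, hc, hcT⟩ := hT
  have hn : Fintype.card ι = 12 := by rw [Fintype.card_congr e]; simp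
  refine ⟨lt_of_le_of_ne inf_le_right fun h => ?_, fun M hHM hMG => ?_⟩
  · exact CfsgLib.Aschbacher.OrthEven.not_le_tensorProductSubgroup hQ (by omega) (by norm_num) (by norm_num) e P
      (h.ge.trans inf_le_left)
  have h2 : (2 : F) ≠ 0 := by
    refine Ring.two_ne_zero fun h => ?_
    have := (FiniteField.even_card_iff_char_two (F := F)).1 h
    rw [Nat.odd_iff] at hodd
    omega
  have hexc := CfsgLib.Classical.Orth.not_exc_of_two_ne_zero (F := F) (ι := ι) h2
  have hnd₁ : ∀ a, (∀ y, f₁ a y = 0) → a = 0 := fun a ha => by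
    by_contra h0
    obtain ⟨y, hy⟩ := (h1.nondegenerate a h0).2
    exact hy (ha y)
  have hnd₂ : ∀ a, (∀ y, f₂ a y = 0) → a = 0 := fun a ha => by
    by_contra h0
    obtain ⟨y, hy⟩ := (h2s.nondegenerate a h0).2
    exact hy (ha y)
  let S : Setting F (Fin 3 → F) (Fin 4 → F) (ι → F) :=
    { al := c • bilinOf h1.bilinear
      be := bilinOf h2s.bilinear
      form := bform hQ
      tp := tenLin e P
      two := h2
      al_symm := fun a b => by simp [bilinOf_apply, h1.symm a b]
      al_nd := fun a ha => hnd₁ a fun y => (mul_eq_zero.1 (ha y)).resolve_left hc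
      be_symm := h2s.symm
      be_nd := hnd₂
      form_symm := CfsgLib.OrthGeo.b_symm hQ
      form_tp := fun a w a' w' => by
        change QuadraticMap.polar Q (tenLin e P a w) (tenLin e P a' w') = c * f₁ a a' * f₂ w w'
        rw [tenLin_apply, tenLin_apply, hcT, CfsgLib.OrthGeo.formOfGram_pureTen h1.bilinear h2s.bilinear, mul_assoc]
      form_ext := fun X hX => (CfsgLib.OrthGeo.b_nondeg hQ).1 X fun y =>
        LinearMap.congr_fun (LinearMap.ext_on (tenLin_span e P) (f := bform hQ X) (g := 0)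
          (by rintro _ ⟨u, z, rfl⟩; exact hX u z)) y }
  have hS : ∀ X Y, S.form X Y = bform hQ X Y := fun _ _ => rfl
  have hfin₁ : finrank F (Fin 3 → F) = 3 := finrank_fin_fun F
  have hfin₂ : finrank F (Fin 4 → F) = 4 := finrank_fin_fun F
  have hwA : WittOne S.al := wittOne_three S.sym_al hfin₁
  have hwB : WittOne S.be := by
    intro x y hx hy hxy hx0
    by_contra! hne
    refine h2m ⟨(F ∙ x) ⊔ (F ∙ y), le_top, fun z hz => ?_, by rw [finrank_sup_lines hx0 hne, finrank_top, hfin₂]⟩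
    obtain ⟨z₁, hz₁, z₂, hz₂, rfl⟩ := Submodule.mem_sup.1 hz
    obtain ⟨a, rfl⟩ := Submodule.mem_span_singleton.1 hz₁
    obtain ⟨b, rfl⟩ := Submodule.mem_span_singleton.1 hz₂
    show bilinOf h2s.bilinear _ _ = 0
    have hyx : bilinOf h2s.bilinear y x = 0 := by rw [bilinOf_apply, h2s.symm]; exact hxy
    have hx' : bilinOf h2s.bilinear x x = 0 := hx
    have hy' : bilinOf h2s.bilinear y y = 0 := hy
    have hxy' : bilinOf h2s.bilinear x y = 0 := hxy
    simp only [map_add, map_smul, LinearMap.add_apply, LinearMap.smul_apply, smul_eq_mul, hx', hy', hxy', hyx]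
    ring
  obtain ⟨bB, hBo, hDB⟩ := exists_orth_basis_nonsquare S.sym_be hwB hfin₂
  have hsymA : LinearMap.IsSymm S.al :=
    LinearMap.BilinForm.isSymm_iff.1 (LinearMap.BilinForm.isSymm_def.2 S.al_symm)
  letI := invertibleOfNonzero h2
  obtain ⟨bA₀, hA₀⟩ := LinearMap.BilinForm.exists_orthogonal_basis hsymA
  let bA : Basis (Fin 3) F (Fin 3 → F) := bA₀.reindex (finCongr hfin₁)
  have hAo : ∀ i j, i ≠ j → S.al (bA i) (bA j) = 0 := fun i j hij => by
    rw [Module.Basis.reindex_apply, Module.Basis.reindex_apply]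
    exact hA₀ ((finCongr hfin₁).symm.injective.ne hij)
  -- the list of minus the identity
  obtain ⟨L₀, hL₀, hL₀e, hL₀s, hL₀a⟩ : ∃ L₀ : List (ι → F), (∀ w ∈ L₀, Q w ≠ 0) ∧ Even L₀.length ∧
      ¬ IsSquare (L₀.map Q).prod ∧ ∀ X, (L₀.map fun w => Cfsg.reflectionMatrix Q w).prod *ᵥ X = -X := by
    obtain ⟨i1, i2, i3, i4⟩ := tenList_spec hQ S hS bB hBo [bA 0, bA 1, bA 2] (by
      simp [orth_diag_ne_zero S.sym_al bA hAo])
    refine ⟨_, i1, by rw [i2]; exact ⟨6, rfl⟩, fun hsq => hDB ?_, fun X => ?_⟩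
    · obtain ⟨r, hr⟩ := hsq
      rw [i3] at hr
      have hd := orth_diag_ne_zero S.sym_al bA hAo
      set D := ∏ j, S.be (bB j) (bB j)
      have hD : D ≠ 0 := Finset.prod_ne_zero_iff.2 fun j _ => orth_diag_ne_zero S.sym_be bB hBo j
      simp only [List.map_cons, List.map_nil, List.prod_cons, List.prod_nil, mul_one, List.length_cons,
        List.length_nil] at hr
      refine ⟨r / ((S.al (bA 0) (bA 0) / 2) ^ 2 * (S.al (bA 1) (bA 1) / 2) ^ 2 *
        (S.al (bA 2) (bA 2) / 2) ^ 2 * D), ?_⟩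
      have := hd 0
      have := hd 1
      have := hd 2
      field_simp
      field_simp at hr
      linear_combination hr
    · rw [i4, reflProd_basis_three S.sym_al bA hAo,
        show S.tmap (-LinearMap.id) LinearMap.id = -LinearMap.id from S.hom_ext fun a b => by simp]
      rfl
  set M' := M.map (glEquiv : GL ι F ≃* _).toMonoidHom with hM'
  have hmem : ∀ g, glEquiv g ∈ M' ↔ g ∈ M :=
    fun g => Subgroup.mem_map_equiv.trans (by rw [MulEquiv.symm_apply_apply])
  have hiso : ∀ g ∈ M', ∀ X Y, S.form (g X) (g Y) = S.form X Y := by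
    rintro _ ⟨g, hg, rfl⟩ X Y
    exact CfsgLib.OrthGeo.isometry_b hQ (CfsgLib.OrthGeo.omegaGL_le (hMG hg)) X Y
  -- tensor elements of Omega
  have hmk : ∀ (L : List (ι → F)), (∀ w ∈ L, Q w ≠ 0) → Even L.length → IsSquare (L.map Q).prod →
      ∀ (f : (ι → F) →ₗ[F] (ι → F)) (x : (Fin 3 → F) ≃ₗ[F] (Fin 3 → F)) (y : (Fin 4 → F) →ₗ[F] (Fin 4 → F)),
      (∀ X, (L.map fun w => Cfsg.reflectionMatrix Q w).prod *ᵥ X = f X) →
      (∀ a b, f (S.tp a b) = S.tp (x a) (y b)) → InM M' f := by
    intro L hL hLe hLs f x y hf hxy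
    obtain ⟨g, hg, hgM⟩ :=
      (CfsgLib.Classical.Orth.exists_mem_omega_iff_of_prod hQ hexc _ L hL rfl).2 ⟨hLe, hLs⟩
    refine ⟨glEquiv (g : GL ι F), (hmem _).2 (hHM ⟨mem_tensor_of_pure (by norm_num) e P _ x y fun u z => ?_,
      ⟨g, hg, rfl⟩⟩), fun X => by rw [glEquiv_apply, hgM, hf]⟩
    rw [hgM, hf]
    exact hxy u z
  have hA : ∀ s, IsSO S.al s → InM M' (S.tmap s LinearMap.id) := by
    intro s hs
    obtain ⟨vs, hvs, ⟨m, hm⟩, hvs'⟩ := exists_even_list S.sym_al hs
    obtain ⟨i1, i2, i3, i4⟩ := tenList_spec hQ S hS bB hBo vs hvs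
    refine hmk _ i1 ⟨4 * m, by rw [i2, hm]; ring⟩ ?_ _ (isoEquiv S.sym_al hs.1) LinearMap.id
      (fun X => by rw [i4, hvs']) (fun a b => by simp)
    rw [i3, hm, pow_add]
    refine (isSquare_list_prod fun x hx => ?_).mul ⟨_, rfl⟩
    obtain ⟨v, -, rfl⟩ := List.mem_map.1 hx
    exact ⟨(S.al v v / 2) ^ 2, by ring⟩
  have hB : ∀ t, IsSO S.be t → InM M' (S.tmap LinearMap.id t) ∨ InM M' (-S.tmap LinearMap.id t) := by
    intro t ht
    obtain ⟨vs, hvs, ⟨m, hm⟩, hvs'⟩ := exists_even_list S.sym_be ht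
    obtain ⟨i1, i2, i3, i4⟩ := tenList_spec hQ S.swap hS bA hAo vs hvs
    rw [show reflProd S.swap.al vs = t from hvs', S.tmap_swap] at i4
    have he : Even (tenList S.swap bA vs).length := ⟨3 * m, by rw [i2, hm]; ring⟩
    by_cases hsq : IsSquare ((tenList S.swap bA vs).map Q).prod
    · exact Or.inl (hmk _ i1 he hsq _ (LinearEquiv.refl F _) t i4 fun a b => by simp)
    · refine Or.inr (hmk (L₀ ++ tenList S.swap bA vs) (fun w hw => (List.mem_append.1 hw).elim (hL₀ w) (i1 w))
        (by rw [List.length_append]; exact hL₀e.add he) ?_ _ (LinearEquiv.refl F _) (-t) (fun X => ?_)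
        (fun a b => by simp))
      · rw [List.map_append, List.prod_append]
        exact isSquare_mul_of_not_isSquare hL₀s hsq
      · rw [List.map_append, List.prod_append, ← Matrix.mulVec_mulVec, hL₀a, i4]
        rfl
  have H : Hyp S M' :=
    { iso := hiso
      memA := fun s hs => Or.inl (hA s hs)
      memB := hB
      wA := hwA
      wB := hwB
      dA := by rw [hfin₁]
      dB := by rw [hfin₂]; norm_num
      hq := by rwa [Nat.card_eq_fintype_card]
      three := hfin₁
      four := hfin₂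
      rot_mem := fun v hv => hA _ (rot_isSO S.sym_al (by rw [hfin₁]; decide) hv)
      neg_notMem := by
        rintro ⟨g, hg, hge⟩
        obtain ⟨g, hgM, rfl⟩ := hg
        obtain ⟨g₀, hg₀, rfl⟩ := hMG hgM
        refine hL₀s ((CfsgLib.Classical.Orth.exists_mem_omega_iff_of_prod hQ hexc _ L₀ hL₀ rfl).1
          ⟨g₀, hg₀, Matrix.toLin'.injective (LinearMap.ext fun X => ?_)⟩).2
        rw [Matrix.toLin'_apply, Matrix.toLin'_apply, hL₀a]
        exact hge X
      even_neg := by
        rintro _ ⟨g, hgM, rfl⟩ hgg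
        obtain ⟨g₀, hg₀, rfl⟩ := hMG hgM
        have he := ((CfsgLib.Classical.Orth.mem_omega_iff hQ hexc g₀).1 hg₀).1
        set G := ((g₀ : GL ι F) : Matrix ι ι F)
        have hgg' : ∀ X, G *ᵥ (G *ᵥ X) = X := hgg
        have e1 : CfsgLib.Classical.Orth.residual (g₀ : GL ι F) =
            LinearMap.ker ((glEquiv (g₀ : GL ι F)).toLinearMap + LinearMap.id) := by
          ext u
          rw [CfsgLib.Classical.Orth.mem_residual, LinearMap.mem_ker, LinearMap.add_apply, LinearMap.id_apply]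
          constructor
          · rintro ⟨x, rfl⟩
            show G *ᵥ (x - G *ᵥ x) + (x - G *ᵥ x) = 0
            rw [Matrix.mulVec_sub, hgg']
            abel
          · intro hu
            have hu' : G *ᵥ u = -u := eq_neg_of_add_eq_zero_left hu
            refine ⟨(2 : F)⁻¹ • u, ?_⟩
            show (2 : F)⁻¹ • u - G *ᵥ ((2 : F)⁻¹ • u) = u
            rw [Matrix.mulVec_smul, hu', smul_neg, sub_neg_eq_add, ← two_smul F, smul_inv_smul₀ h2]
        rw [e1] at he
        exact he }
  by_cases hno : NoRoot S M'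
  · refine Or.inl (le_antisymm (fun g hg => ⟨?_, hMG hg⟩) hHM)
    obtain ⟨x, y, hxy⟩ := H.isT_of_noRoot hno ((hmem g).2 hg)
    exact mem_tensor_of_pure (by norm_num) e P g x y fun u z => hxy u z
  · refine Or.inr (le_antisymm hMG ?_)
    obtain ⟨R, hR, hpair⟩ := H.toSide.exists_root_vectors hno
    refine CfsgLib.OrthGeo.omega_le_of_root_vectors hQ (by omega) (hMG.trans CfsgLib.OrthGeo.omegaGL_le) R
      (fun z hz => ⟨?_, fun w hw => ?_⟩) fun u _ hu0 => hpair u hu0
    · have h0 : bform hQ z z = 0 := (hR z hz).1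
      rw [CfsgLib.OrthGeo.b_self hQ] at h0
      exact (mul_eq_zero.1 h0).resolve_left h2
    · obtain ⟨_, ⟨g, hgM, rfl⟩, hge⟩ := (hR z hz).2 w hw
      refine ⟨g, hgM, Matrix.toLin'.injective (LinearMap.ext fun X => ?_)⟩
      rw [Matrix.toLin'_apply, Matrix.toLin'_apply, CfsgLib.OrthGeo.eichlerMat_mulVec hQ]
      refine (hge X).trans ?_
      have hww : S.form w w / 2 = Q w := by
        rw [hS, CfsgLib.OrthGeo.b_self hQ, mul_div_assoc, mul_div_cancel₀ _ h2]
      rw [eich_apply, hww]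

end CfsgLib.OTensor90
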