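import Cfsg.Agent.OTensor90.Fixer

/-!
Fixed spaces of tensor products of involutions.
-/

set_option autoImplicit false
set_option linter.unusedSectionVars false
set_option linter.unusedSimpArgs false
set_option linter.unusedVariables false

namespace CfsgLib.OTensor90

open Module CfsgLib.SpO90

variable {F A B V : Type*} [Field F] [Finite F] [AddCommGroup A] [Module F A] [AddCommGroup B]
  [Module F B] [AddCommGroup V] [Module F V] [FiniteDimensional F A] [FiniteDimensional F B]
  [FiniteDimensional F V]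

/-- The dimension of the space of vectors fixed by a map. -/
noncomputable def nfix (f : V →ₗ[F] V) : ℕ := finrank F (LinearMap.ker (f - LinearMap.id))

lemma mem_ker_sub_id {f : V →ₗ[F] V} {X : V} : X ∈ LinearMap.ker (f - LinearMap.id) ↔ f X = X := by
  simp [sub_eq_zero]

lemma nfix_eq_of_conj {f f' : V →ₗ[F] V} {g : V ≃ₗ[F] V} (h : ∀ X, g (f X) = f' (g X)) : nfix f = nfix f' := by
  unfold nfix
  rw [← LinearEquiv.finrank_map_eq g (LinearMap.ker (f - LinearMap.id))]
  refine congrArg (fun s : Submodule F V => finrank F s) (Submodule.ext fun Y => ?_)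
  obtain ⟨X, rfl⟩ := g.surjective Y
  constructor
  · rintro ⟨Z, hZ, e⟩
    obtain rfl := g.injective e
    have hZ' : f Z = Z := mem_ker_sub_id.1 hZ
    exact mem_ker_sub_id.2 (by rw [← h, hZ'])
  · intro hX
    exact ⟨X, mem_ker_sub_id.2 (g.injective (by rw [h]; exact mem_ker_sub_id.1 hX)), rfl⟩

/-- The eigenspaces of an involution fill the space. -/
lemma finrank_ker_add_ker {W : Type*} [AddCommGroup W] [Module F W] [FiniteDimensional F W] (h2 : (2 : F) ≠ 0)
    {t : W →ₗ[F] W} (ht : ∀ x, t (t x) = x) :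
    finrank F (LinearMap.ker (t - LinearMap.id)) + finrank F (LinearMap.ker (t + LinearMap.id)) = finrank F W := by
  have hc : IsCompl (LinearMap.ker (t - LinearMap.id)) (LinearMap.ker (t + LinearMap.id)) := by
    refine ⟨Submodule.disjoint_def.2 fun x hx hx' => ?_, codisjoint_iff.2 ?_⟩
    · simp only [LinearMap.mem_ker, LinearMap.sub_apply, LinearMap.add_apply, LinearMap.id_apply, sub_eq_zero] at hx hx'
      rw [hx, ← two_smul F] at hx'
      exact (smul_eq_zero.1 hx').resolve_left h2
    · refine eq_top_iff.2 fun x _ => ?_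
      have e : x = (2 : F)⁻¹ • (x + t x) + (2 : F)⁻¹ • (x - t x) := by
        rw [← smul_add, add_add_sub_cancel, ← two_smul F x, inv_smul_smul₀ h2]
      rw [e]
      refine Submodule.add_mem_sup (Submodule.smul_mem _ _ ?_) (Submodule.smul_mem _ _ ?_)
      · simp only [LinearMap.mem_ker, LinearMap.sub_apply, LinearMap.id_apply, map_add, ht]
        abel
      · simp only [LinearMap.mem_ker, LinearMap.add_apply, LinearMap.id_apply, map_sub, ht]
        abel
  exact Submodule.finrank_add_eq_of_isCompl hc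

namespace Setting

variable (S : Setting F A B V)

lemma tmap_neg_id (t : B →ₗ[F] B) (c : F) : S.tmap LinearMap.id (c • t) = c • S.tmap LinearMap.id t :=
  S.hom_ext fun a b => by simp

lemma pi_tmap {s : A →ₗ[F] A} (hs : IsIso S.al s) (t : B →ₗ[F] B) (a : A) (X : V) :
    S.pi (s a) (S.tmap s t X) = t (S.pi a X) := by
  have h : S.pi (s a) ∘ₗ S.tmap s t = t ∘ₗ S.pi a := S.hom_ext fun c w => by simp [hs _ _]
  exact LinearMap.congr_fun h X

/-- The fixed space of a tensor map with a diagonal first factor. -/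
lemma nfix_tmap {ι : Type*} [Fintype ι] [DecidableEq ι] (bA : Basis ι F A) (e : ι → F) {s : A →ₗ[F] A}
    (hs : IsIso S.al s) (he : ∀ i, s (bA i) = e i • bA i) (he2 : ∀ i, e i * e i = 1) (t : B →ₗ[F] B) :
    nfix (S.tmap s t) = ∑ i, finrank F (LinearMap.ker (t - e i • LinearMap.id)) := by
  have hfix : ∀ {X : V}, S.tmap s t X = X → ∀ i, S.pi (bA i) X ∈ LinearMap.ker (t - e i • LinearMap.id) := by
    intro X hX i
    have h1 := S.pi_tmap hs t (bA i) X
    rw [hX, he, map_smul, LinearMap.smul_apply] at h1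
    simp [← h1]
  let Φ : LinearMap.ker (S.tmap s t - LinearMap.id) →ₗ[F] ((i : ι) → LinearMap.ker (t - e i • LinearMap.id)) :=
    LinearMap.pi fun i => LinearMap.codRestrict _ ((S.pi (bA i)).comp (Submodule.subtype _))
      fun X => hfix (mem_ker_sub_id.1 X.2) i
  have hinj : Function.Injective Φ := fun X Y h => Subtype.ext (S.ext_pi fun a => by
    have hb : S.pi.flip X.1 = S.pi.flip Y.1 := bA.ext fun i => congrArg Subtype.val (congrFun h i)
    exact LinearMap.congr_fun hb a)
  have hsurj : Function.Surjective Φ := fun f => by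
    set X := ∑ i, S.tp (S.al.dualBasis S.al_nondeg bA i) (f i : B) with hX
    have hp : ∀ j, S.pi (bA j) X = (f j : B) := fun j => by
      rw [hX, map_sum]
      simp [LinearMap.BilinForm.apply_dualBasis_left, S.al_symm (bA j)]
    have hfx : S.tmap s t X = X := by
      refine S.ext_pi fun a => ?_
      have hb : S.pi.flip (S.tmap s t X) = S.pi.flip X := bA.ext fun j => by
        have h1 := S.pi_tmap hs t (bA j) X
        have h2 : (t - e j • LinearMap.id : B →ₗ[F] B) (f j : B) = 0 := (f j).2
        rw [LinearMap.sub_apply, LinearMap.smul_apply, LinearMap.id_apply, sub_eq_zero] at h2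
        rw [hp, he, map_smul, LinearMap.smul_apply, h2] at h1
        show S.pi (bA j) _ = S.pi (bA j) X
        rw [hp, ← one_smul F (S.pi (bA j) (S.tmap s t X)), ← he2 j, mul_smul, h1, ← mul_smul, he2, one_smul]
      exact LinearMap.congr_fun hb a
    exact ⟨⟨X, mem_ker_sub_id.2 hfx⟩, funext fun j => Subtype.ext (hp j)⟩
  rw [nfix, (LinearEquiv.ofBijective Φ ⟨hinj, hsurj⟩).finrank_eq, Module.finrank_pi_fintype]

end Setting

namespace Hyp

variable {S : Setting F A B V} {M : Subgroup (V ≃ₗ[F] V)}

lemma nfix_id (H : Hyp S M) (t : B →ₗ[F] B) :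
    nfix (S.tmap LinearMap.id t) = 3 * finrank F (LinearMap.ker (t - LinearMap.id)) := by
  rw [S.nfix_tmap (Module.finBasisOfFinrankEq F A H.three) (fun _ => 1) (fun _ _ => rfl)
    (fun i => (one_smul F _).symm) (fun _ => mul_one _)]
  have e1 : LinearMap.ker (t - (1 : F) • LinearMap.id) = LinearMap.ker (t - LinearMap.id) := by rw [one_smul]
  rw [e1]
  simp

lemma nfix_rot (H : Hyp S M) {v : A} (hv : S.al v v ≠ 0) (t : B →ₗ[F] B) :
    nfix (S.tmap (rot S.al v) t) =
      finrank F (LinearMap.ker (t - LinearMap.id)) + 2 * finrank F (LinearMap.ker (t + LinearMap.id)) := by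
  have hv0 : v ≠ 0 := fun h => hv (by simp [h])
  have hn := S.sym_al.nd_single hv
  have hc : IsCompl (F ∙ v) (perp S.al (F ∙ v)) :=
    ⟨disjoint_iff.2 (S.sym_al.inf_perp hn), codisjoint_iff.2 (S.sym_al.sup_perp hn)⟩
  have hdim : finrank F (perp S.al (F ∙ v)) = 2 := by
    have := S.sym_al.finrank_perp (F ∙ v)
    rw [finrank_span_singleton hv0, H.three] at this
    omega
  let bA : Basis (Fin 1 ⊕ Fin 2) F A :=
    ((Module.finBasisOfFinrankEq F (F ∙ v) (finrank_span_singleton hv0)).prod
      (Module.finBasisOfFinrankEq F (perp S.al (F ∙ v)) hdim)).map (Submodule.prodEquivOfIsCompl _ _ hc)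
  have he : ∀ i, rot S.al v (bA i) = Sum.elim (fun _ : Fin 1 => (1 : F)) (fun _ : Fin 2 => -1) i • bA i := by
    rintro (i | i)
    · set x := Module.finBasisOfFinrankEq F (F ∙ v) (finrank_span_singleton hv0) i
      have hb : bA (Sum.inl i) = (x : A) := by simp [bA, x]
      obtain ⟨c, hc⟩ := Submodule.mem_span_singleton.1 x.2
      simp only [hb, Sum.elim_inl, one_smul]
      rw [← hc, map_smul, rot_self S.sym_al hv]
    · set x := Module.finBasisOfFinrankEq F (perp S.al (F ∙ v)) hdim i
      have hb : bA (Sum.inr i) = (x : A) := by simp [bA, x]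
      simp only [hb, Sum.elim_inr, neg_one_smul]
      exact rot_perp (mem_perp_single.1 x.2)
  rw [S.nfix_tmap bA _ (rot_isSO S.sym_al (by rw [H.three]; decide) hv).1 he
    (by rintro (i | i) <;> simp)]
  have e1 : LinearMap.ker (t - (1 : F) • LinearMap.id) = LinearMap.ker (t - LinearMap.id) := by rw [one_smul]
  have e2 : LinearMap.ker (t - (-1 : F) • LinearMap.id) = LinearMap.ker (t + LinearMap.id) := by
    rw [neg_one_smul, sub_neg_eq_add]
  rw [Fintype.sum_sum_type]
  show (∑ _i : Fin 1, finrank F (LinearMap.ker (t - (1 : F) • LinearMap.id))) +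
    (∑ _i : Fin 2, finrank F (LinearMap.ker (t - (-1 : F) • LinearMap.id))) = _
  rw [e1, e2]
  simp

lemma nfix_rot_one (H : Hyp S M) {v : A} (hv : S.al v v ≠ 0) : nfix (S.tmap (rot S.al v) LinearMap.id) = 4 := by
  have h0 : LinearMap.ker (LinearMap.id + LinearMap.id : B →ₗ[F] B) = ⊥ := by
    refine LinearMap.ker_eq_bot'.2 fun x hx => ?_
    rw [LinearMap.add_apply, LinearMap.id_apply, ← two_smul F] at hx
    exact (smul_eq_zero.1 hx).resolve_left S.two
  rw [H.nfix_rot hv, h0, sub_self, LinearMap.ker_zero, finrank_top, H.four, finrank_bot]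

/-- A tensor involution of the group in normal form. -/
lemma invol_normal (H : Hyp S M) {c : V ≃ₗ[F] V} (hc : c ∈ M) (hT : S.IsT c) (hcc : ∀ X, c (c X) = X) :
    ∃ (s : A →ₗ[F] A) (t : B →ₗ[F] B), IsSO S.al s ∧ IsIso S.be t ∧ (∀ X, c X = S.tmap s t X) ∧
      (∀ a, s (s a) = a) ∧ (∀ b, t (t b) = b) ∧
      (s = LinearMap.id ∨ ∃ v, S.al v v ≠ 0 ∧ s = rot S.al v) := by
  obtain ⟨s, t, hs, ht, he⟩ := H.normal_form hc hT
  have h2 : S.tmap (s ∘ₗ s) (t ∘ₗ t) = LinearMap.id := LinearMap.ext fun X => by
    rw [← S.tmap_comp, LinearMap.comp_apply, ← he, ← he, hcc]; rfl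
  obtain ⟨k, hk1, hk2⟩ := S.tmap_eq_one H.posA H.posB h2
  have hk : k = 1 := by
    have h3 : (s ∘ₗ s : A →ₗ[F] A) = k • LinearMap.id := LinearMap.ext fun a => by simpa using hk1 a
    have hd := congrArg LinearMap.det h3
    rw [LinearMap.det_comp, hs.2, mul_one, LinearMap.det_smul, H.three, LinearMap.det_id, mul_one] at hd
    obtain ⟨a, -, ha⟩ := S.sym_al.exists_value_in (B := ⊤) (fun u _ h => S.al_nd u fun z => h z trivial)
      (by rw [finrank_top, H.three]; norm_num) 1
    have hi := (hs.1.comp hs.1) a a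
    rw [hk1, map_smul, map_smul, LinearMap.smul_apply, ha, smul_eq_mul, smul_eq_mul, mul_one] at hi
    calc k = k * (k * k) := by rw [hi, mul_one]
      _ = 1 := by rw [hd]; ring
  subst hk
  have hss : ∀ a, s (s a) = a := fun a => by simpa using hk1 a
  refine ⟨s, t, hs, ht, he, hss, fun b => by simpa using hk2 b, ?_⟩
  by_cases hne : s = LinearMap.id
  · exact Or.inl hne
  obtain ⟨v, hv0, hv, hfix⟩ := exists_fix_line S.sym_al H.three hs hne
  have hline : ∀ x, ∃ d : F, x + s x = d • v := fun x => hfix _ (by rw [map_add, hss, add_comm])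
  have hvx : ∀ x, S.al v (s x) = S.al v x := fun x => by
    conv_lhs => rw [← hv]
    exact hs.1 v x
  have hvv : S.al v v ≠ 0 := by
    intro h0
    refine hv0 (S.al_nd v fun x => ?_)
    obtain ⟨d, hd⟩ := hline x
    have := congrArg (S.al v) hd
    rw [map_add, hvx, map_smul, h0, smul_zero, ← two_mul] at this
    exact (mul_eq_zero.1 this).resolve_left S.two
  refine Or.inr ⟨v, hvv, LinearMap.ext fun x => ?_⟩
  obtain ⟨d, hd⟩ := hline x
  have h1 := congrArg (S.al v) hd
  rw [map_add, hvx, map_smul, smul_eq_mul] at h1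
  have hd' : d = 2 / S.al v v * S.al v x := by field_simp; linear_combination -h1
  rw [rot_apply, ← hd', ← hd]
  abel

/-- An involution of the group among tensor maps with four-dimensional fixed space is a `rot v ⊗ 1`. -/
theorem exists_rot_of_fix_four (H : Hyp S M) {c : V ≃ₗ[F] V} (hc : c ∈ M) (hT : S.IsT c)
    (hcc : ∀ X, c (c X) = X) (h4 : nfix c.toLinearMap = 4) :
    ∃ v, S.al v v ≠ 0 ∧ ∀ X, c X = S.tmap (rot S.al v) LinearMap.id X := by
  obtain ⟨s, t, hs, ht, he, -, htt, hor⟩ := H.invol_normal hc hT hcc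
  have e : c.toLinearMap = S.tmap s t := LinearMap.ext he
  have hd := finrank_ker_add_ker S.two htt
  rw [H.four] at hd
  rcases hor with rfl | ⟨v, hv, rfl⟩
  · rw [e, H.nfix_id] at h4
    omega
  · refine ⟨v, hv, fun X => ?_⟩
    rw [e, H.nfix_rot hv] at h4
    have h1 : LinearMap.ker (t + LinearMap.id) = ⊥ := Submodule.finrank_eq_zero.1 (by omega)
    have ht1 : t = LinearMap.id := LinearMap.ext fun b => by
      have : t b - b ∈ LinearMap.ker (t + LinearMap.id) := by
        simp only [LinearMap.mem_ker, LinearMap.add_apply, LinearMap.id_apply, map_sub, htt]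
        abel
      rw [h1, Submodule.mem_bot, sub_eq_zero] at this
      exact this
    rw [he, ht1]

/-- An involution of the group equal to `± 1 ⊗ b` fixes a space of dimension six. -/
lemma nfix_smul_id (H : Hyp S M) {b : B →ₗ[F] B} (hbb : ∀ x, b (b x) = x)
    (h2d : finrank F (LinearMap.ker (b - LinearMap.id)) = 2) {c : F} (hc : c = 1 ∨ c = -1) :
    nfix (c • S.tmap LinearMap.id b) = 6 := by
  have hd := finrank_ker_add_ker S.two hbb
  rw [H.four] at hd
  rw [← S.tmap_neg_id, H.nfix_id]
  rcases hc with rfl | rfl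
  · rw [one_smul, h2d]
  · have : LinearMap.ker ((-1 : F) • b - LinearMap.id) = LinearMap.ker (b + LinearMap.id) := by
      rw [neg_one_smul, show -b - LinearMap.id = -(b + LinearMap.id) by abel]
      exact LinearMap.ker_neg _
    rw [this]
    omega

/-- The second factor of an involution of the group of the shape `1 ⊗ t` splits the space in two planes. -/
lemma two_dim_of_mem (H : Hyp S M) {c : V ≃ₗ[F] V} (hc : c ∈ M) {t : B →ₗ[F] B} (htt : ∀ x, t (t x) = x)
    (he : ∀ X, c X = S.tmap LinearMap.id t X) (hne : c ≠ 1) :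
    finrank F (LinearMap.ker (t - LinearMap.id)) = 2 := by
  have hd := finrank_ker_add_ker S.two htt
  rw [H.four] at hd
  have hcc : ∀ X, c (c X) = X := fun X => by
    rw [he, he, ← LinearMap.comp_apply, S.tmap_comp, show t ∘ₗ t = LinearMap.id from LinearMap.ext htt,
      LinearMap.id_comp, S.tmap_id]
    rfl
  have hV : finrank F V = 3 * 4 := by
    have h1 := H.nfix_id LinearMap.id
    unfold nfix at h1
    rw [S.tmap_id, sub_self, sub_self, LinearMap.ker_zero, LinearMap.ker_zero, finrank_top, finrank_top, H.four] at h1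
    exact h1
  have hd' := finrank_ker_add_ker S.two (t := c.toLinearMap) hcc
  have hk : finrank F (LinearMap.ker (c.toLinearMap - LinearMap.id)) = 3 * finrank F (LinearMap.ker (t - LinearMap.id)) := by
    rw [← H.nfix_id t, ← show c.toLinearMap = S.tmap LinearMap.id t from LinearMap.ext he]
    rfl
  obtain ⟨m, hm⟩ := H.even_neg c hc hcc
  rw [hk, hV] at hd'
  by_contra hne2
  have : finrank F (LinearMap.ker (t - LinearMap.id)) = 4 ∨ finrank F (LinearMap.ker (t - LinearMap.id)) = 0 := by
    omega
  rcases this with h | h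
  · have ht1 : LinearMap.ker (t - LinearMap.id) = ⊤ := Submodule.eq_top_of_finrank_eq (by rw [h, H.four])
    refine hne (LinearEquiv.ext fun X => ?_)
    rw [he, show t = LinearMap.id from sub_eq_zero.1 (LinearMap.ker_eq_top.1 ht1), S.tmap_id]
    rfl
  · have ht1 : LinearMap.ker (t + LinearMap.id) = ⊤ := Submodule.eq_top_of_finrank_eq (by rw [H.four]; omega)
    refine H.neg_notMem ⟨c, hc, fun X => ?_⟩
    rw [he, show t = -LinearMap.id from eq_neg_of_add_eq_zero_left (LinearMap.ker_eq_top.1 ht1),
      show S.tmap LinearMap.id (-LinearMap.id) = -LinearMap.id from S.hom_ext fun a b => by simp]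

/-- A non-trivial `rot` is no scalar. -/
lemma rot_ne_smul (H : Hyp S M) {v : A} (hv : S.al v v ≠ 0) (c : F) : rot S.al v ≠ c • LinearMap.id := by
  intro h
  have hv0 : v ≠ 0 := fun h0 => hv (by simp [h0])
  have h1 := LinearMap.congr_fun h v
  rw [rot_self S.sym_al hv, LinearMap.smul_apply, LinearMap.id_apply] at h1
  have hc : c = 1 := by
    have h2 := congrArg (S.al v) h1
    rw [map_smul, smul_eq_mul] at h2
    exact (mul_right_cancel₀ hv (by rw [one_mul]; exact h2)).symm
  obtain ⟨z, hz, hzz⟩ := S.sym_al.exists_aniso (S.sym_al.nd_perp (S.sym_al.nd_single hv)) (fun h0 => by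
    have := S.sym_al.finrank_perp (F ∙ v)
    rw [h0, finrank_bot, finrank_span_singleton hv0, H.three] at this
    omega)
  have h3 := LinearMap.congr_fun h z
  rw [rot_perp (mem_perp_single.1 hz), hc, one_smul, LinearMap.id_apply] at h3
  have h4 : (2 : F) • z = 0 := by rw [two_smul]; nth_rw 1 [← h3]; exact neg_add_cancel z
  rw [(smul_eq_zero.1 h4).resolve_left S.two] at hzz
  simp at hzz

end Hyp

end CfsgLib.OTensor90
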