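import Cfsg.Agent.OTensor90.Radical

/-!
Without root maps an element carrying one singular member to another is a tensor map.
-/

set_option autoImplicit false
set_option linter.unusedSectionVars false
set_option linter.unusedSimpArgs false
set_option linter.unusedVariables false

namespace CfsgLib.OTensor90

open Module CfsgLib.SpO90

variable {F A B V : Type*} [Field F] [Finite F] [AddCommGroup A] [Module F A] [AddCommGroup B]
  [Module F B] [AddCommGroup V] [Module F V] [FiniteDimensional F A] [FiniteDimensional F B]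
  [FiniteDimensional F V]

namespace Side

variable {S : Setting F A B V} {M : Subgroup (V ≃ₗ[F] V)}

/-- An element carrying the member of `e₁` into the member of `e` is a tensor map. -/
theorem isT_of_frames (H : Side S M) (hno : NoRoot S M) {e₁ e₁' e e' : A} (hf₁ : Frame S.al e₁ e₁')
    (hf : Frame S.al e e') {g : V ≃ₗ[F] V} (hg : g ∈ M) (hE : ∀ y, ∃ z, g (S.tp e₁ y) = S.tp e z) : S.IsT g := by
  classical
  let L : B →ₗ[F] B := S.pi e' ∘ₗ g.toLinearMap ∘ₗ S.tp e₁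
  let L' : B →ₗ[F] B := S.pi e ∘ₗ g.toLinearMap ∘ₗ S.tp e₁'
  have hL : ∀ y, g (S.tp e₁ y) = S.tp e (L y) := fun y => by
    obtain ⟨z, hz⟩ := hE y
    simp [L, hz, hf.pair]
  have hdual : ∀ y r, S.be (L y) (L' r) = S.be y r := fun y r => by
    have h1 := H.iso g hg (S.tp e₁' r) (S.tp e₁ y)
    rw [hL, S.form_tp, hf₁.pair' S.sym_al, one_mul, ← S.be_pi] at h1
    rw [S.be_symm, S.be_symm y, ← h1]
    rfl
  have hLinj : Function.Injective L := fun y z hyz =>
    S.be_eq_of_forall fun r => by rw [← hdual, hyz, hdual]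
  have hL'inj : Function.Injective L' := fun r s hrs =>
    S.be_eq_of_forall fun y => by rw [S.be_symm, ← hdual y, hrs, hdual, S.be_symm]
  have hLsurj := LinearMap.injective_iff_surjective.1 hLinj
  have hL'surj := LinearMap.injective_iff_surjective.1 hL'inj
  have hperp : ∀ a ∈ mid S.al e₁ e₁', ∀ y, S.pi e (g (S.tp a y)) = 0 := fun a ha y =>
    S.be_nd _ fun z => by
      obtain ⟨z, rfl⟩ := hLsurj z
      rw [S.be_pi, ← hL, H.iso g hg, S.form_tp, S.al_symm, (mem_mid.1 ha).1, zero_mul]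
  have hkx : ∀ a ∈ mid S.al e₁ e₁', ∃ a' ∈ mid S.al e e', (∀ y, S.p0 e e' (g (S.tp a y)) = S.tp a' (L' y)) ∧
      ∀ X, g (S.tmap (eich S.al e₁ a) LinearMap.id X) = S.tmap (eich S.al e a') LinearMap.id (g X) := by
    intro a ha
    obtain ⟨x, hx, hxe⟩ := H.eichA_mem hf₁.left (mem_mid.1 ha).1
    have hk : ∀ X, (g * x * g⁻¹) (g X) = g (S.tmap (eich S.al e₁ a) LinearMap.id X) := fun X => by
      rw [LinearEquiv.mul_apply, LinearEquiv.mul_apply, show g⁻¹ (g X) = X from g.symm_apply_apply X, hxe]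
    have hkM : g * x * g⁻¹ ∈ M := M.mul_mem (M.mul_mem hg hx) (M.inv_mem hg)
    have hkQ : S.InQ e e' (g * x * g⁻¹) := by
      refine ⟨H.iso _ hkM, fun y => ?_, fun b hb y => ?_⟩
      · obtain ⟨y, rfl⟩ := hLsurj y
        rw [← hL, hk, S.tmap_tp, eich_left S.sym_al hf₁ ha]
        rfl
      · obtain ⟨Z, hZ⟩ : ∃ Z, g Z = S.tp b y := ⟨_, g.apply_symm_apply _⟩
        have hZ0 : S.pi e₁ Z = 0 := S.be_nd _ fun z => by
          rw [S.be_pi, ← H.iso g hg, hZ, hL, S.form_tp, S.al_symm, (mem_mid.1 hb).1, zero_mul]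
        refine ⟨L (S.pi a Z), ?_⟩
        rw [← hZ, hk, S.tmap_eich hf₁ ha, hZ0]
        simp [hL]
    obtain ⟨a', ha', hk'⟩ := H.radical hno hf hkM hkQ
    refine ⟨a', ha', fun y => ?_, fun X => by rw [← hk, hk']⟩
    have h1 := congrArg (S.p0 e e') ((hk (S.tp e₁' y)).symm.trans (hk' _))
    rw [S.tmap_tp, eich_right S.sym_al hf₁ ha, S.tmap_eich hf ha'] at h1
    simp [map_sub, map_add, hL, S.p0_tp_left hf, S.p0_tp_mid hf ha'] at h1
    exact h1
  obtain ⟨a₀, ha₀, ha₀0⟩ := hf₁.exists_mid_ne S.sym_al H.dA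
  have ha00 : S.al a₀ a₀ ≠ 0 := fun h0 => ha₀0 (hf₁.aniso' ha₀ h0)
  obtain ⟨r₀, z₀, hrz⟩ : ∃ r z, S.be (L' r) z = 1 := by
    obtain ⟨y, -, hy⟩ := S.sym_be.exists_value_in (B := ⊤) (fun x _ hx => S.be_nd x fun y => hx y trivial)
      (by rw [finrank_top]; have := H.dB; omega) 1
    obtain ⟨r, rfl⟩ := hL'surj y
    exact ⟨r, _, hy⟩
  let J : A →ₗ[F] A := S.con z₀ ∘ₗ S.p0 e e' ∘ₗ g.toLinearMap ∘ₗ S.tp.flip r₀
  have hJ : ∀ a ∈ mid S.al e₁ e₁', J a ∈ mid S.al e e' ∧ (∀ y, S.p0 e e' (g (S.tp a y)) = S.tp (J a) (L' y)) ∧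
      ∀ X, g (S.tmap (eich S.al e₁ a) LinearMap.id X) = S.tmap (eich S.al e (J a)) LinearMap.id (g X) := by
    intro a ha
    obtain ⟨a', ha', h1, h2⟩ := hkx a ha
    have : J a = a' := by simp [J, h1, hrz]
    rw [this]
    exact ⟨ha', h1, h2⟩
  have hfm : ∀ a ∈ mid S.al e₁ e₁', ∀ b ∈ mid S.al e₁ e₁', ∀ y z,
      S.al a b * S.be y z = S.al (J a) (J b) * S.be (L' y) (L' z) := by
    intro a ha b hb y z
    rw [← S.form_tp, ← H.iso g hg, S.form_eq hf, hperp a ha, hperp b hb, (hJ a ha).2.1, (hJ b hb).2.1, S.form_tp]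
    simp
  obtain ⟨ν, hν0, hν⟩ : ∃ ν : F, ν ≠ 0 ∧ ∀ y z, S.be (L' y) (L' z) = ν * S.be y z := by
    obtain ⟨y, -, hy⟩ := S.sym_be.exists_value_in (B := ⊤) (fun x _ hx => S.be_nd x fun y => hx y trivial)
      (by rw [finrank_top]; have := H.dB; omega) 1
    have h1 := hfm a₀ ha₀ a₀ ha₀ y y
    rw [hy, mul_one] at h1
    have hJ0 : S.al (J a₀) (J a₀) ≠ 0 := fun h0 => ha00 (by rw [h1, h0, zero_mul])
    refine ⟨S.al a₀ a₀ / S.al (J a₀) (J a₀), div_ne_zero ha00 hJ0, fun y z => ?_⟩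
    rw [div_mul_eq_mul_div, hfm a₀ ha₀ a₀ ha₀ y z, mul_div_cancel_left₀ _ hJ0]
  have hJν : ∀ a ∈ mid S.al e₁ e₁', ∀ b ∈ mid S.al e₁ e₁', S.al (J a) (J b) = ν⁻¹ * S.al a b := by
    intro a ha b hb
    have h1 := hfm a ha b hb r₀ r₀
    obtain ⟨y, -, hy⟩ := S.sym_be.exists_value_in (B := ⊤) (fun x _ hx => S.be_nd x fun y => hx y trivial)
      (by rw [finrank_top]; have := H.dB; omega) 1
    have h2 := hfm a ha b hb y y
    rw [hν, hy, mul_one, mul_one] at h2
    rw [h2]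
    field_simp
  have hLν : ∀ y, L y = ν⁻¹ • L' y := fun y => S.be_eq_of_forall fun x => by
    obtain ⟨r, rfl⟩ := hL'surj x
    rw [hdual, map_smul, LinearMap.smul_apply, smul_eq_mul, hν]
    field_simp
  let P1 : A →ₗ[F] A := LinearMap.id - (S.al e₁').smulRight e₁ - (S.al e₁).smulRight e₁'
  let sA : A →ₗ[F] A := (S.al e₁').smulRight (ν⁻¹ • e) + (S.al e₁).smulRight e' + J ∘ₗ P1
  have hs1 : sA e₁ = ν⁻¹ • e := by simp [sA, P1, hf₁.left, hf₁.pair' S.sym_al]
  have hs2 : sA e₁' = e' := by simp [sA, P1, hf₁.right, hf₁.pair]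
  have hs3 : ∀ a ∈ mid S.al e₁ e₁', sA a = J a := fun a ha => by
    simp [sA, P1, (mem_mid.1 ha).1, (mem_mid.1 ha).2]
  have hsform : ∀ a b, S.al (sA a) (sA b) = ν⁻¹ * S.al a b := by
    intro a b
    have h := hf₁.hom_ext S.sym_al (f := S.al.compl₁₂ sA sA) (g := ν⁻¹ • S.al)
    refine LinearMap.congr_fun₂ (h ?_ ?_ fun z hz => ?_) a b <;>
      refine hf₁.hom_ext S.sym_al ?_ ?_ fun c hc => ?_
    · simp [hs1, hf.left, hf₁.left]
    · simp [hs1, hs2, hf.pair, hf₁.pair]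
    · simp [hs1, hs3 c hc, (mem_mid.1 hc).1, (mem_mid.1 (hJ c hc).1).1]
    · simp [hs1, hs2, hf.pair' S.sym_al, hf₁.pair' S.sym_al]
    · simp [hs2, hf.right, hf₁.right]
    · simp [hs2, hs3 c hc, (mem_mid.1 hc).2, (mem_mid.1 (hJ c hc).1).2]
    · simp [hs1, hs3 z hz, S.al_symm z e₁, S.al_symm (J z) e, (mem_mid.1 hz).1, (mem_mid.1 (hJ z hz).1).1]
    · simp [hs2, hs3 z hz, S.al_symm z e₁', S.al_symm (J z) e', (mem_mid.1 hz).2, (mem_mid.1 (hJ z hz).1).2]
    · simp [hs3 z hz, hs3 c hc, hJν z hz c hc]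
  have hsinj : Function.Injective sA := fun a b hab => S.al_eq_of_forall fun x =>
    mul_left_cancel₀ (inv_ne_zero hν0) (by rw [← hsform, hab, hsform])
  let sE : A ≃ₗ[F] A := LinearEquiv.ofInjectiveEndo sA hsinj
  let tE : B ≃ₗ[F] B := LinearEquiv.ofInjectiveEndo L' hL'inj
  set h₀ := S.tequiv sE tE with hh₀
  have hh : ∀ a y, h₀ (S.tp a y) = S.tp (sA a) (L' y) := fun a y => S.tequiv_tp sE tE a y
  have hhiso : ∀ X Y, S.form (h₀ X) (h₀ Y) = S.form X Y := S.preserves_of_tp fun a w a' w' => by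
    rw [hh, hh, S.form_tp, hsform, hν]
    field_simp
  obtain ⟨g', hgh⟩ : ∃ g', g = h₀ * g' := ⟨h₀⁻¹ * g, by rw [mul_inv_cancel_left]⟩
  have hgg : ∀ X, g X = h₀ (g' X) := fun X => by rw [hgh]; rfl
  have hg'Q : S.InQ e₁ e₁' g' := by
    refine ⟨fun X Y => by rw [← hhiso, ← hgg, ← hgg, H.iso g hg], fun y => h₀.injective ?_, fun a ha y => ?_⟩
    · rw [← hgg, hL, hh, hs1, hLν, map_smul, map_smul, LinearMap.smul_apply]
    · obtain ⟨z, hz⟩ := hL'surj (S.pi e' (g (S.tp a y)))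
      refine ⟨ν • z, h₀.injective ?_⟩
      rw [← hgg, map_add, hh, hh, hs3 a ha, hs1]
      conv_lhs => rw [S.split hf (g (S.tp a y)), hperp a ha, (hJ a ha).2.1, ← hz]
      simp [hν0]
  have hcom : ∀ a ∈ mid S.al e₁ e₁', ∀ X, g' (S.tmap (eich S.al e₁ a) LinearMap.id X) =
      S.tmap (eich S.al e₁ a) LinearMap.id (g' X) := by
    intro a ha X
    refine h₀.injective ?_
    rw [← hgg, (hJ a ha).2.2, hgg]
    have hsc : eich S.al e (J a) ∘ₗ sA = sA ∘ₗ eich S.al e₁ a := by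
      have hJa := (hJ a ha).1
      refine hf₁.hom_ext S.sym_al ?_ ?_ fun z hz => ?_
      · simp [hs1, eich_left S.sym_al hf₁ ha, eich_left S.sym_al hf hJa]
      · simp [hs1, hs2, hs3 a ha, eich_right S.sym_al hf₁ ha, eich_right S.sym_al hf hJa, hJν a ha a ha, smul_smul]
        congr 1
        ring
      · simp [hs1, hs3 z hz, eich_mid S.sym_al hf₁ hz, eich_mid S.sym_al hf (hJ z hz).1, hJν a ha z hz, smul_smul,
          mul_comm]
    have : S.tmap (eich S.al e (J a)) LinearMap.id ∘ₗ h₀.toLinearMap =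
        h₀.toLinearMap ∘ₗ S.tmap (eich S.al e₁ a) LinearMap.id := S.hom_ext fun b w => by
      simp only [LinearMap.comp_apply, LinearEquiv.coe_coe, hh, S.tmap_tp, LinearMap.id_apply]
      rw [← LinearMap.comp_apply (f := eich S.al e (J a)), hsc]
      rfl
    exact LinearMap.congr_fun this (g' X)
  set D := S.lev e₁ e₁' g'
  have hzero : ∀ r, S.pi e₁ (D r) = 0 ∧ S.pi e₁' (D r) = 0 := fun r =>
    ⟨S.pi_left_p0 hf₁ _, S.pi_right_p0 hf₁ _⟩
  have hsa : ∀ a ∈ mid S.al e₁ e₁', ∀ u v, S.be (S.pi a (D u)) v = S.be u (S.pi a (D v)) := by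
    intro a ha u v
    obtain ⟨x, hxM, hxe⟩ := H.eichA_mem hf₁.left (mem_mid.1 ha).1
    obtain ⟨hxQ, hxl⟩ := S.inQ_eich hf₁ ha hxe
    have := hg'Q.bracket hf₁ hxQ (LinearEquiv.ext fun X => by
      rw [LinearEquiv.mul_apply, LinearEquiv.mul_apply, hxe, hxe, hcom a ha]) v u
    rw [hxl, hxl, map_neg, map_neg, LinearMap.neg_apply, neg_inj] at this
    rw [S.be_pi, S.be_symm u, S.be_pi, this, S.form_symm]
  -- conjugating the Eichler maps of the second factor
  have hcomB : ∀ {w : B}, S.be w w = 0 → ∀ y, S.be w y = 0 → ∃ a₁ ∈ mid S.al e₁ e₁', ∀ X,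
      g' (S.tmap LinearMap.id (eich S.be w y) X) =
        S.tmap (eich S.al e₁ a₁) LinearMap.id (S.tmap LinearMap.id (eich S.be w y) (g' X)) := by
    intro w hw0 y hy
    obtain ⟨m, hm, hme⟩ := H.eichB_mem hw0 hy
    set u := eich S.be w y
    set u' := eich S.be (L' w) (ν⁻¹ • L' y)
    have hu' : u' ∘ₗ L' = L' ∘ₗ u := LinearMap.ext fun z => by
      simp only [u, u', LinearMap.comp_apply, eich_apply, map_add, map_sub, map_smul, LinearMap.smul_apply,
        smul_eq_mul, hν]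
      match_scalars <;> field_simp
    obtain ⟨m', hm', hm'e⟩ := H.eichB_mem (w := L' w) (y := ν⁻¹ • L' y) (by rw [hν, hw0, mul_zero])
      (by rw [map_smul, hν, hy, mul_zero, smul_zero])
    have hmh : ∀ X, m' (h₀ X) = h₀ (m X) := fun X => by
      rw [hm'e, hme]
      have : S.tmap LinearMap.id u' ∘ₗ h₀.toLinearMap = h₀.toLinearMap ∘ₗ S.tmap LinearMap.id u :=
        S.hom_ext fun b v => by
          simp only [LinearMap.comp_apply, LinearEquiv.coe_coe, hh, S.tmap_tp, LinearMap.id_apply]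
          rw [← LinearMap.comp_apply (f := u'), hu']
          rfl
      exact LinearMap.congr_fun this X
    set q := g * m * g⁻¹ * m'⁻¹
    have hqM : q ∈ M := M.mul_mem (M.mul_mem (M.mul_mem hg hm) (M.inv_mem hg)) (M.inv_mem hm')
    have hqa : ∀ X, q (h₀ (m X)) = g (m (g'⁻¹ X)) := fun X => by
      rw [← hmh]
      show g (m (g⁻¹ (m'⁻¹ (m' (h₀ X))))) = _
      rw [show m'⁻¹ (m' (h₀ X)) = h₀ X from m'.symm_apply_apply _, hgh, mul_inv_rev]
      show h₀ (g' (m (g'⁻¹ (h₀⁻¹ (h₀ X))))) = _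
      rw [show h₀⁻¹ (h₀ X) = X from h₀.symm_apply_apply X]
      rfl
    obtain ⟨hQ', hl'⟩ := hg'Q.conjB hf₁ (H.iso m hm) one_ne_zero (eich_isIso S.sym_be hw0 hy)
      (fun X => by rw [hme, one_smul])
    -- in the first frame `q` is the commutator of `g'` and `m`
    have hqc : ∀ X, q (h₀ X) = h₀ ((g' * (m * g'⁻¹ * m⁻¹)) X) := fun X => by
      conv_lhs => rw [← show m (m⁻¹ X) = X from m.apply_symm_apply X, hqa, hgg]
      rfl
    have hQc := hg'Q.comp hf₁ ((hg'Q.inv hf₁).conjB hf₁ (H.iso m hm) one_ne_zero (eich_isIso S.sym_be hw0 hy)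
      (fun X => by rw [hme, one_smul])).1
    have hqQ : S.InQ e e' q := by
      refine ⟨H.iso q hqM, fun z => ?_, fun b hb z => ?_⟩
      · obtain ⟨z, rfl⟩ := hL'surj z
        have e1 : S.tp e (L' z) = h₀ (ν • S.tp e₁ z) := by rw [map_smul, hh, hs1, map_smul, LinearMap.smul_apply, smul_inv_smul₀ hν0]
        rw [e1, hqc, map_smul (g' * (m * g'⁻¹ * m⁻¹)), hQc.fix]
      · obtain ⟨z, rfl⟩ := hL'surj z
        obtain ⟨b, rfl⟩ := LinearMap.injective_iff_surjective.1 hsinj b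
        have hbm : b ∈ mid S.al e₁ e₁' := by
          obtain ⟨h1, h2⟩ := mem_mid.1 hb
          refine mem_mid.2 ⟨?_, ?_⟩
          · have h3 := hsform e₁ b
            rw [hs1, map_smul, LinearMap.smul_apply, h1, smul_zero] at h3
            exact (mul_eq_zero.1 h3.symm).resolve_left (inv_ne_zero hν0)
          · have h3 := hsform e₁' b
            rw [hs2, h2] at h3
            exact (mul_eq_zero.1 h3.symm).resolve_left (inv_ne_zero hν0)
        obtain ⟨v, hv⟩ := hQc.mid b hbm z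
        exact ⟨ν⁻¹ • L' v, by rw [← hh, hqc, hv, map_add, hh, hh, hs1, map_smul, map_smul, LinearMap.smul_apply]⟩
    obtain ⟨a, ha, hqe⟩ := H.radical hno hf hqM hqQ
    obtain ⟨a₁, rfl⟩ := LinearMap.injective_iff_surjective.1 hsinj a
    have ha1 : a₁ ∈ mid S.al e₁ e₁' := by
      obtain ⟨h1, h2⟩ := mem_mid.1 ha
      refine mem_mid.2 ⟨?_, ?_⟩
      · have h3 := hsform e₁ a₁
        rw [hs1, map_smul, LinearMap.smul_apply, h1, smul_zero] at h3
        exact (mul_eq_zero.1 h3.symm).resolve_left (inv_ne_zero hν0)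
      · have h3 := hsform e₁' a₁
        rw [hs2, h2] at h3
        exact (mul_eq_zero.1 h3.symm).resolve_left (inv_ne_zero hν0)
    refine ⟨a₁, ha1, fun X => h₀.injective ?_⟩
    have hsc : eich S.al e (sA a₁) ∘ₗ sA = sA ∘ₗ eich S.al e₁ a₁ := by
      have hJa := (hJ a₁ ha1).1
      rw [hs3 a₁ ha1]
      refine hf₁.hom_ext S.sym_al ?_ ?_ fun z hz => ?_
      · simp [hs1, eich_left S.sym_al hf₁ ha1, eich_left S.sym_al hf hJa]
      · simp [hs1, hs2, hs3 a₁ ha1, eich_right S.sym_al hf₁ ha1, eich_right S.sym_al hf hJa, hJν a₁ ha1 a₁ ha1, smul_smul]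
        congr 1
        ring
      · simp [hs1, hs3 z hz, eich_mid S.sym_al hf₁ hz, eich_mid S.sym_al hf (hJ z hz).1, hJν a₁ ha1 z hz, smul_smul,
          mul_comm]
    have e2 : S.tmap (eich S.al e (sA a₁)) LinearMap.id ∘ₗ h₀.toLinearMap =
        h₀.toLinearMap ∘ₗ S.tmap (eich S.al e₁ a₁) LinearMap.id := S.hom_ext fun b w => by
      simp only [LinearMap.comp_apply, LinearEquiv.coe_coe, hh, S.tmap_tp, LinearMap.id_apply]
      rw [← LinearMap.comp_apply (f := eich S.al e (sA a₁)), hsc]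
      rfl
    have e3 := hqa (g' X)
    rw [show g'⁻¹ (g' X) = X from g'.symm_apply_apply X, hqe, hgg] at e3
    rw [← hme, ← e3]
    show S.tmap (eich S.al e (sA a₁)) LinearMap.id (h₀ (m (g' X))) = _
    rw [hme]
    exact LinearMap.congr_fun e2 _
  obtain ⟨w, hw0, hwne⟩ : ∃ w, S.be w w = 0 ∧ w ≠ 0 := by
    obtain ⟨w, -, h1, h2⟩ := S.sym_be.exists_iso_in (B := ⊤)
      (fun x _ hx => S.be_nd x fun y => hx y trivial) (by rw [finrank_top]; exact H.dB)
    exact ⟨w, h2, h1⟩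
  obtain ⟨w', hw⟩ := exists_frame S.sym_be H.wB hw0 hwne
  have hfixed : ∀ {u u' : B}, Frame S.be u u' → ∀ a ∈ mid S.al e₁ e₁',
      ∃ c d : F, ∀ x, S.pi a (D x) = c • x + (d * S.be u x) • u := by
    intro u u' hu a ha
    refine fixed_selfadj S.sym_be hu H.dB H.exists_sq_ne_one (φ := S.pi a ∘ₗ D) (hsa a ha) fun y hy => ?_
    obtain ⟨a₁, ha₁, he⟩ := hcomB hu.left y (mem_mid.1 hy).1
    refine ⟨S.al a₁ a, fun x => ?_⟩
    set ux := eich S.be u y x
    have h1 := congrArg (S.p0 e₁ e₁') (he (S.tp e₁' x))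
    have hpe : S.pi e₁ (S.tmap LinearMap.id (eich S.be u y) (g' (S.tp e₁' x))) = ux := by
      have h3 : S.pi e₁ ∘ₗ S.tmap LinearMap.id (eich S.be u y) = eich S.be u y ∘ₗ S.pi e₁ :=
        S.hom_ext fun c v => by simp
      rw [← LinearMap.comp_apply, h3, LinearMap.comp_apply, hg'Q.pi_eq hf₁]
      simp [hf₁.pair' S.sym_al, ux]
    rw [S.tmap_tp, S.tmap_eich hf₁ ha₁, hpe] at h1
    simp only [map_sub, map_add, S.p0_tp_left hf₁, S.p0_tp_mid hf₁ ha₁, add_zero, sub_zero, LinearMap.id_apply,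
      S.p0_tmap hf₁ (eich_isIso S.sym_be hu.left (mem_mid.1 hy).1), ← Setting.lev_apply] at h1
    have h2 := congrArg (S.pi a) h1
    have h4 : S.pi a ∘ₗ S.tmap LinearMap.id (eich S.be u y) = eich S.be u y ∘ₗ S.pi a :=
      S.hom_ext fun c v => by simp
    have h5 := LinearMap.congr_fun h4 (S.lev e₁ e₁' g' x)
    simp only [LinearMap.comp_apply] at h5
    rw [map_sub, h5, S.pi_tp] at h2
    show eich S.be u y (S.pi a (D x)) - S.pi a (D ux) = S.al a₁ a • ux
    rw [h2]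
    simp [D]
  have hscal : ∀ a ∈ mid S.al e₁ e₁', ∃ c d : F, ∀ x, S.pi a (D x) = c • x + (d * S.be w x) • w ∧ d = 0 := by
    intro a ha
    obtain ⟨c, d, h1⟩ := hfixed hw a ha
    obtain ⟨c', d', h2⟩ := hfixed (hw.swap S.sym_be) a ha
    obtain ⟨z, hz, hz0⟩ := hw.exists_mid_ne S.sym_be H.dB
    have hcc : c = c' := by
      have := (h1 z).symm.trans (h2 z)
      simp [(mem_mid.1 hz).1, (mem_mid.1 hz).2] at this
      exact smul_left_injective F hz0 this
    have hd : d = 0 := by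
      have h3 := congrArg (S.be w') ((h1 w').symm.trans (h2 w'))
      simp [hw.right, hw.pair, hw.pair' S.sym_be] at h3
      exact h3
    exact ⟨c, d, fun x => ⟨h1 x, hd⟩⟩
  obtain ⟨b₀, hb₀, c₀, hc₀, hD⟩ := Setting.exists_lev_form hf₁ hw hzero fun a ha => by
    obtain ⟨c, d, h⟩ := hscal a ha
    exact ⟨c, d, fun x => (h x).1⟩
  have hc0 : c₀ = 0 := hf₁.nd_mid S.sym_al _ hc₀ fun a ha => by
    obtain ⟨c, d, h⟩ := hscal a ha
    have h1 := congrArg (S.be w') ((h w').1.symm.trans (congrArg (S.pi a) (hD w')))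
    simp [(h w').2, hw.pair, hw.pair' S.sym_be, hw.right] at h1
    exact h1.symm
  obtain ⟨x, hxM, hxe⟩ := H.eichA_mem hf₁.left (mem_mid.1 hb₀).1
  obtain ⟨hxQ, hxl⟩ := S.inQ_eich hf₁ hb₀ hxe
  have hxT : S.IsT x := ⟨isoEquiv S.sym_al (eich_isIso S.sym_al hf₁.left (mem_mid.1 hb₀).1),
    LinearEquiv.refl F B, fun a v => by rw [hxe, S.tmap_tp]; rfl⟩
  obtain ⟨τ, hτsk, hτ⟩ := (hxQ.comp hf₁ hg'Q).eq_root hf₁ (LinearMap.ext fun r => by
    rw [hxQ.lev_comp hf₁ hg'Q, hxl, show S.lev e₁ e₁' g' r = D r from rfl, hD, hc0]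
    simp)
  -- the root map commutes with the Eichler maps of the second factor
  have hτu : ∀ {u u' : B}, Frame S.be u u' → ∀ y ∈ mid S.be u u', ∀ z, eich S.be u y (τ z) = τ (eich S.be u y z) := by
    intro u u' hu y hy z
    by_cases hz : z = 0
    · simp [hz]
    obtain ⟨a₁, ha₁, he⟩ := hcomB hu.left y (mem_mid.1 hy).1
    set uy := eich S.be u y with huy
    have e1 : (x * g') (S.tmap LinearMap.id uy (S.tp e₁' z)) =
        S.tmap (eich S.al e₁ a₁) LinearMap.id (S.tmap LinearMap.id uy ((x * g') (S.tp e₁' z))) := by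
      rw [LinearEquiv.mul_apply, LinearEquiv.mul_apply, he, hxe, hxe, ← LinearMap.comp_apply, ← LinearMap.comp_apply,
        ← LinearMap.comp_apply, ← LinearMap.comp_apply]
      congr 1
      simp only [← LinearMap.comp_assoc, S.tmap_comp, LinearMap.id_comp, LinearMap.comp_id]
      rw [eich_comp S.sym_al hf₁.left (mem_mid.1 hb₀).1 (mem_mid.1 ha₁).1,
        eich_comp S.sym_al hf₁.left (mem_mid.1 ha₁).1 (mem_mid.1 hb₀).1, add_comm]
    rw [hτ, hτ, S.tmap_tp, LinearMap.id_apply, map_add, S.tmap_tp] at e1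
    simp only [Setting.root_apply, S.pi_tp, hf₁.pair' S.sym_al, one_smul, LinearMap.id_apply, S.tmap_tp, map_add] at e1
    have e2 := congrArg (S.p0 e₁ e₁') e1
    rw [eich_right S.sym_al hf₁ ha₁, eich_left S.sym_al hf₁ ha₁] at e1 e2
    simp [S.p0_tp_left hf₁, S.p0_tp_right hf₁, S.p0_tp_mid hf₁ ha₁] at e2
    have ha10 : a₁ = 0 := S.tp_injective' (w := uy z) (a' := 0) (fun h0 =>
      hz (S.sym_be.iso_injective (eich_isIso S.sym_be hu.left (mem_mid.1 hy).1) (h0.trans (map_zero uy).symm)))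
      (by rw [map_zero, LinearMap.zero_apply]; exact e2)
    subst ha10
    have e3 := congrArg (S.pi e₁') e1
    simp [hf₁.right, hf₁.pair] at e3
    exact e3.symm
  obtain ⟨k, hk⟩ := commutant S.sym_be hw H.dB (hτu hw) (fun y hy => hτu (hw.swap S.sym_be) y
    (mem_mid.2 ⟨(mem_mid.1 hy).2, (mem_mid.1 hy).1⟩))
  have hk0 : k = 0 := by
    have h1 := hτsk w w'
    rw [hk, hk] at h1
    simp [hw.pair] at h1
    have : (2 : F) * k = 0 := by linear_combination h1
    exact (mul_eq_zero.1 this).resolve_left S.two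
  have hone : x * g' = 1 := LinearEquiv.ext fun X => by
    rw [hτ]
    simp [hk, hk0]
  rw [hgh, eq_inv_of_mul_eq_one_right hone]
  exact S.isT_mul (S.isT_tequiv sE tE) (S.isT_inv hxT)

end Side

end CfsgLib.OTensor90
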