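import Cfsg.Agent.OTensor90.Setting

/-!
The unipotent radical of the stabiliser of a member `e ⊗ B` at a singular vector `e`: levels, rigidity,
and the bracket of two commuting elements.
-/

set_option autoImplicit false
set_option linter.unusedSectionVars false
set_option linter.unusedSimpArgs false
set_option linter.unusedVariables false

namespace CfsgLib.OTensor90

open Module CfsgLib.SpO90

variable {F A B V : Type*} [Field F] [Finite F] [AddCommGroup A] [Module F A] [AddCommGroup B]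
  [Module F B] [AddCommGroup V] [Module F V] [FiniteDimensional F A] [FiniteDimensional F B]

namespace Setting

variable (S : Setting F A B V) {e e' : A}

/-- The projection to `mid ⊗ B`. -/
noncomputable def p0 (e e' : A) : V →ₗ[F] V :=
  LinearMap.id - S.tp e ∘ₗ S.pi e' - S.tp e' ∘ₗ S.pi e

lemma p0_apply (e e' : A) (X : V) : S.p0 e e' X = X - S.tp e (S.pi e' X) - S.tp e' (S.pi e X) := rfl

/-- The root map with coefficient `τ`. -/
noncomputable def root (e : A) (τ : B →ₗ[F] B) : V →ₗ[F] V := S.tp e ∘ₗ τ ∘ₗ S.pi e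

@[simp] lemma root_apply (e : A) (τ : B →ₗ[F] B) (X : V) : S.root e τ X = S.tp e (τ (S.pi e X)) := rfl

/-- `g` is in the unipotent radical of the stabiliser of the member of `e`. -/
structure InQ (e e' : A) (g : V ≃ₗ[F] V) : Prop where
  iso : ∀ X Y, S.form (g X) (g Y) = S.form X Y
  fix : ∀ y, g (S.tp e y) = S.tp e y
  mid : ∀ a ∈ mid S.al e e', ∀ y, ∃ w, g (S.tp a y) = S.tp a y + S.tp e w

/-- The level of an element of the radical. -/
noncomputable def lev (e e' : A) (g : V ≃ₗ[F] V) : B →ₗ[F] V := S.p0 e e' ∘ₗ g.toLinearMap ∘ₗ S.tp e'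

lemma lev_apply (e e' : A) (g : V ≃ₗ[F] V) (r : B) : S.lev e e' g r = S.p0 e e' (g (S.tp e' r)) := rfl

variable (hf : Frame S.al e e')
include hf

lemma p0_tp_mid {a : A} (ha : a ∈ mid S.al e e') (y : B) : S.p0 e e' (S.tp a y) = S.tp a y := by
  simp [p0_apply, S.al_symm a e, S.al_symm a e', (mem_mid.1 ha).1, (mem_mid.1 ha).2]

lemma p0_tp_left (y : B) : S.p0 e e' (S.tp e y) = 0 := by
  simp [p0_apply, hf.left, hf.pair, S.al_symm e e']

lemma p0_tp_right (y : B) : S.p0 e e' (S.tp e' y) = 0 := by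
  simp [p0_apply, hf.right, hf.pair, hf.pair' S.sym_al]

lemma pi_left_p0 (X : V) : S.pi e (S.p0 e e' X) = 0 := by
  simp [p0_apply, hf.left, hf.pair' S.sym_al]

lemma pi_right_p0 (X : V) : S.pi e' (S.p0 e e' X) = 0 := by
  simp [p0_apply, hf.right, hf.pair, hf.pair' S.sym_al]

lemma p0_p0 (X : V) : S.p0 e e' (S.p0 e e' X) = S.p0 e e' X := by
  conv_lhs => rw [p0_apply, S.pi_left_p0 hf, S.pi_right_p0 hf]
  simp

lemma pi_mid_p0 {a : A} (ha : a ∈ mid S.al e e') (X : V) : S.pi a (S.p0 e e' X) = S.pi a X := by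
  simp [p0_apply, (mem_mid.1 ha).1, (mem_mid.1 ha).2, S.al_symm e a, S.al_symm e' a]

lemma split (X : V) : X = S.p0 e e' X + S.tp e (S.pi e' X) + S.tp e' (S.pi e X) := by
  rw [p0_apply]; abel

lemma form_eq (X Y : V) : S.form X Y = S.form (S.p0 e e' X) (S.p0 e e' Y) +
    S.be (S.pi e X) (S.pi e' Y) + S.be (S.pi e' X) (S.pi e Y) := by
  conv_lhs => rw [S.split hf X, S.split hf Y]
  have h1 : ∀ Z w, S.form Z (S.tp e w) = S.be (S.pi e Z) w := fun Z w => (S.be_pi e Z w).symm
  have h2 : ∀ Z w, S.form Z (S.tp e' w) = S.be (S.pi e' Z) w := fun Z w => (S.be_pi e' Z w).symm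
  simp only [map_add, LinearMap.add_apply, S.form_symm (S.tp e _) (S.p0 e e' _),
    S.form_symm (S.tp e' _) (S.p0 e e' _), h1, h2, S.pi_left_p0 hf, S.pi_right_p0 hf, S.pi_tp,
    hf.left, hf.right, hf.pair, hf.pair' S.sym_al, zero_smul, one_smul, map_zero, LinearMap.zero_apply]
  ring

namespace InQ

variable {S} {g h : V ≃ₗ[F] V}

lemma pi_eq (hg : S.InQ e e' g) (X : V) : S.pi e (g X) = S.pi e X :=
  S.be_eq_of_forall fun w => by
    rw [S.be_pi, S.be_pi]
    conv_lhs => rw [← hg.fix w, hg.iso]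

lemma p0_map (hg : S.InQ e e' g) (X : V) :
    S.p0 e e' (g X) = S.p0 e e' X + S.lev e e' g (S.pi e X) := by
  have h : S.p0 e e' ∘ₗ g.toLinearMap = S.p0 e e' + S.lev e e' g ∘ₗ S.pi e := by
    refine S.hom_ext_frame hf (fun w => ?_) (fun w => ?_) fun a ha w => ?_
    · simp [hg.fix, S.p0_tp_left hf, hf.left]
    · simp [lev_apply, S.p0_tp_right hf, hf.pair' S.sym_al]
    · obtain ⟨v, hv⟩ := hg.mid a ha w
      simp [hv, S.p0_tp_left hf, S.al_symm a e, (mem_mid.1 ha).1]
  exact LinearMap.congr_fun h X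

lemma comp (hg : S.InQ e e' g) (hh : S.InQ e e' h) : S.InQ e e' (g * h) where
  iso X Y := by simp [hg.iso, hh.iso]
  fix y := by simp [hh.fix, hg.fix]
  mid a ha y := by
    obtain ⟨w, hw⟩ := hh.mid a ha y
    obtain ⟨w', hw'⟩ := hg.mid a ha y
    exact ⟨w' + w, by simp [hw, hw', hg.fix, add_assoc]⟩

lemma inv (hg : S.InQ e e' g) : S.InQ e e' g⁻¹ where
  iso X Y := by
    have := hg.iso (g⁻¹ X) (g⁻¹ Y)
    rwa [show g (g⁻¹ X) = X from g.apply_symm_apply X, show g (g⁻¹ Y) = Y from g.apply_symm_apply Y,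
      eq_comm] at this
  fix y := g.injective (by rw [show g (g⁻¹ (S.tp e y)) = S.tp e y from g.apply_symm_apply _, hg.fix])
  mid a ha y := by
    obtain ⟨w, hw⟩ := hg.mid a ha y
    refine ⟨-w, g.injective ?_⟩
    rw [show g (g⁻¹ (S.tp a y)) = S.tp a y from g.apply_symm_apply _, map_add, hw, map_neg, map_neg, hg.fix]
    abel

lemma lev_comp (hg : S.InQ e e' g) (hh : S.InQ e e' h) (r : B) :
    S.lev e e' (g * h) r = S.lev e e' g r + S.lev e e' h r := by
  rw [lev_apply, LinearEquiv.mul_apply, hg.p0_map hf, hh.pi_eq hf, ← lev_apply, add_comm]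
  simp [hf.pair' S.sym_al]

lemma lev_inv (hg : S.InQ e e' g) (r : B) : S.lev e e' g⁻¹ r = -S.lev e e' g r := by
  have h := (hg.inv hf).lev_comp hf hg r
  rw [inv_mul_cancel, lev_apply] at h
  simp [S.p0_tp_right hf] at h
  exact eq_neg_of_add_eq_zero_left h.symm

/-- An element of trivial level is a root map. -/
lemma eq_root (hg : S.InQ e e' g) (h0 : S.lev e e' g = 0) :
    ∃ τ : B →ₗ[F] B, (∀ u v, S.be (τ u) v = -S.be u (τ v)) ∧ ∀ X, g X = X + S.root e τ X := by
  let τ : B →ₗ[F] B := S.pi e' ∘ₗ g.toLinearMap ∘ₗ S.tp e'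
  have hr : ∀ r, g (S.tp e' r) = S.tp e' r + S.tp e (τ r) := fun r => by
    have h1 := LinearMap.congr_fun h0 r
    rw [lev_apply, p0_apply, hg.pi_eq hf, LinearMap.zero_apply] at h1
    simp [hf.pair' S.sym_al] at h1
    rw [sub_sub, sub_eq_zero] at h1
    rw [h1, add_comm]
    rfl
  have hm : ∀ a ∈ OTensor90.mid S.al e e', ∀ y, g (S.tp a y) = S.tp a y := fun a ha y => by
    obtain ⟨w, hw⟩ := hg.mid a ha y
    obtain ⟨h1, h2⟩ := mem_mid.1 ha
    have h3 : w = 0 := S.be_nd w fun r => by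
      have := hg.iso (S.tp a y) (S.tp e' r)
      rw [hw, hr] at this
      simp [S.form_tp, S.al_symm a e, S.al_symm a e', h1, h2, hf.left, hf.pair] at this
      exact this
    rw [hw, h3, map_zero, add_zero]
  refine ⟨τ, fun u v => ?_, LinearMap.congr_fun
    (f := (g : V →ₗ[F] V)) (g := LinearMap.id + S.root e τ) (S.hom_ext_frame hf (fun w => ?_) (fun w => ?_)
      fun a ha w => ?_)⟩
  · have := hg.iso (S.tp e' u) (S.tp e' v)
    rw [hr, hr] at this
    simp [S.form_tp, hf.left, hf.right, hf.pair, hf.pair' S.sym_al] at this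
    linear_combination this
  · simp [hg.fix, hf.left]
  · simp [hr, hf.pair' S.sym_al]
  · simp [hm a ha, S.al_symm a e, (mem_mid.1 ha).1]

/-- Commuting elements have symmetric bracket. -/
lemma bracket (hg : S.InQ e e' g) (hh : S.InQ e e' h) (hc : g * h = h * g) (r r' : B) :
    S.form (S.lev e e' g r') (S.lev e e' h r) = S.form (S.lev e e' h r') (S.lev e e' g r) := by
  let W : (V ≃ₗ[F] V) → B → B → F := fun k r r' => S.be (S.pi e' (k (S.tp e' r))) r'
  have hW : ∀ k, S.InQ e e' k → ∀ r r', W k⁻¹ r' r = W k r r' := by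
    intro k hk r r'
    show S.be (S.pi e' (k⁻¹ (S.tp e' r'))) r = S.be (S.pi e' (k (S.tp e' r))) r'
    rw [S.be_pi, S.be_pi]
    conv_lhs => rw [← hk.iso, show k (k⁻¹ (S.tp e' r')) = S.tp e' r' from k.apply_symm_apply _, S.form_symm]
  have main : ∀ a b, S.InQ e e' a → S.InQ e e' b →
      S.form (a (b (S.tp e' r))) (S.tp e' r') =
        W b r r' + W a r r' - S.form (S.lev e e' b r) (S.lev e e' a r') := by
    intro a b ha hb
    rw [← (ha.inv hf).iso, show a⁻¹ (a (b (S.tp e' r))) = b (S.tp e' r) from a.symm_apply_apply _,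
      S.form_eq hf, hb.pi_eq hf, (ha.inv hf).pi_eq hf, ← lev_apply, ← lev_apply, ha.lev_inv hf, map_neg, ← hW a ha]
    simp only [W, S.pi_tp, hf.pair' S.sym_al, one_smul, S.be_symm r]
    ring
  have e1 := main g h hg hh
  have e2 := main h g hh hg
  rw [← LinearEquiv.mul_apply, hc, LinearEquiv.mul_apply] at e1
  rw [e1] at e2
  rw [S.form_symm (S.lev e e' g r'), S.form_symm (S.lev e e' h r')]
  linear_combination -e2

end InQ

lemma tmap_eich {a : A} (ha : a ∈ mid S.al e e') (X : V) : S.tmap (eich S.al e a) LinearMap.id X =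
    X + S.tp e (S.pi a X) - S.tp a (S.pi e X) - S.tp e ((S.al a a / 2) • S.pi e X) := by
  have h : S.tmap (eich S.al e a) LinearMap.id = LinearMap.id + S.tp e ∘ₗ S.pi a - S.tp a ∘ₗ S.pi e -
      S.tp e ∘ₗ ((S.al a a / 2) • S.pi e) := S.hom_ext fun c w => by
    simp [eich_apply, S.al_symm c a, S.al_symm c e, smul_smul]
  exact LinearMap.congr_fun h X

/-- Elements equal to an Eichler map of the first factor. -/
lemma inQ_eich {a : A} (ha : a ∈ mid S.al e e') {g : V ≃ₗ[F] V}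
    (hg : ∀ X, g X = S.tmap (eich S.al e a) LinearMap.id X) :
    S.InQ e e' g ∧ ∀ r, S.lev e e' g r = -S.tp a r := by
  obtain ⟨h1, h2⟩ := mem_mid.1 ha
  refine ⟨⟨fun X Y => ?_, fun y => ?_, fun b hb y => ⟨S.al a b • y, ?_⟩⟩, fun r => ?_⟩
  · rw [hg, hg]
    exact S.tmap_form (eich_isIso S.sym_al hf.left h1) isIso_id X Y
  · rw [hg, S.tmap_tp, eich_left S.sym_al hf ha]; rfl
  · rw [hg, S.tmap_tp, eich_mid S.sym_al hf hb]
    simp
  · rw [lev_apply, hg, S.tmap_tp, eich_right S.sym_al hf ha]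
    simp [S.p0_tp_left hf, S.p0_tp_right hf, S.p0_tp_mid hf ha]

end Setting

end CfsgLib.OTensor90
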