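import Cfsg.Agent.OTensor90.Parabolic

/-!
Without root maps the group meets the radical of a member stabiliser in the Eichler maps of the first
factor only.
-/

set_option autoImplicit false
set_option linter.unusedSectionVars false
set_option linter.unusedSimpArgs false
set_option linter.unusedVariables false

namespace CfsgLib.OTensor90

open Module CfsgLib.SpO90

variable {F A B V : Type*} [Field F] [Finite F] [AddCommGroup A] [Module F A] [AddCommGroup B]
  [Module F B] [AddCommGroup V] [Module F V] [FiniteDimensional F A] [FiniteDimensional F B]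
  [FiniteDimensional F V]

/-- Pairwise commuting maps, nilpotent as differences, move some element outside `T` into `T` at once. -/
lemma exists_all_mem {X : Type*} [AddCommGroup X] [Module F X] {ι : Type*} (D : ι → Module.End F X)
    {n : ℕ} (hn : ∀ i, D i ^ n = 0) (hc : ∀ i j, D i * D j = D j * D i) {T U : Set X}
    (h0 : (0 : X) ∈ T) (hT : ∀ i, ∀ x ∈ T, D i x ∈ T) (hU : ∀ i, ∀ x ∈ U, D i x ∈ U) (s : Finset ι)
    {x : X} (hx : x ∈ U) (hxT : x ∉ T) : ∃ y ∈ U, y ∉ T ∧ ∀ i ∈ s, D i y ∈ T := by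
  classical
  induction s using Finset.induction with
  | empty => exact ⟨x, hx, hxT, by simp⟩
  | @insert j s hj ih =>
    obtain ⟨y, hy, hyT, hys⟩ := ih
    have hex : ∃ k, (D j ^ k) y ∈ T := ⟨n, by rw [hn]; exact h0⟩
    obtain ⟨m, hm⟩ : ∃ m, Nat.find hex = m + 1 := by
      refine Nat.exists_eq_succ_of_ne_zero fun h => hyT ?_
      have := Nat.find_spec hex
      rw [h, pow_zero] at this
      exact this
    have hU' : ∀ k, (D j ^ k) y ∈ U := fun k => by
      induction k with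
      | zero => simpa using hy
      | succ k ih => rw [pow_succ', Module.End.mul_apply]; exact hU j _ ih
    have hT' : ∀ k, ∀ z ∈ T, (D j ^ k) z ∈ T := fun k => by
      induction k with
      | zero => simp
      | succ k ih => intro z hz; rw [pow_succ', Module.End.mul_apply]; exact hT j _ (ih z hz)
    refine ⟨(D j ^ m) y, hU' m, Nat.find_min hex (by omega), fun i hi => ?_⟩
    rcases Finset.mem_insert.1 hi with rfl | hi
    · rw [← Module.End.mul_apply, ← pow_succ', ← hm]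
      exact Nat.find_spec hex
    · have e : D i * D j ^ m = D j ^ m * D i := Commute.pow_right (hc i j) m
      rw [← Module.End.mul_apply, e, Module.End.mul_apply]
      exact hT' m _ (hys i hi)

/-- No root map of the first factor. -/
def NoRoot (S : Setting F A B V) (M : Subgroup (V ≃ₗ[F] V)) : Prop :=
  ∀ e e', Frame S.al e e' → ∀ τ : B →ₗ[F] B, InM M (LinearMap.id + S.root e τ) → ∀ X, S.root e τ X = 0

namespace Setting

variable (S : Setting F A B V) {e e' : A} (hf : Frame S.al e e')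
include hf

lemma p0_tmap {t : B →ₗ[F] B} (ht : IsIso S.be t) (X : V) :
    S.p0 e e' (S.tmap LinearMap.id t X) = S.tmap LinearMap.id t (S.p0 e e' X) := by
  have h : S.p0 e e' ∘ₗ S.tmap LinearMap.id t = S.tmap LinearMap.id t ∘ₗ S.p0 e e' := by
    refine S.hom_ext_frame hf (fun w => ?_) (fun w => ?_) fun a ha w => ?_
    · simp [S.p0_tp_left hf]
    · simp [S.p0_tp_right hf]
    · simp [S.p0_tp_mid hf ha]
  exact LinearMap.congr_fun h X

variable {S}

/-- Conjugation of the radical by a map acting as `1 ⊗ t`. -/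
lemma InQ.conjB {g m : V ≃ₗ[F] V} (hg : S.InQ e e' g) (hmi : ∀ X Y, S.form (m X) (m Y) = S.form X Y)
    {c : F} (hc : c ≠ 0) {t : B →ₗ[F] B} (ht : IsIso S.be t)
    (hm : ∀ X, m X = c • S.tmap LinearMap.id t X) :
    S.InQ e e' (m * g * m⁻¹) ∧
      ∀ r, S.lev e e' (m * g * m⁻¹) (t r) = S.tmap LinearMap.id t (S.lev e e' g r) := by
  have hkey : ∀ a r, (m * g * m⁻¹) (S.tp a (t r)) = S.tmap LinearMap.id t (g (S.tp a r)) := fun a r => by
    have h1 : m⁻¹ (S.tp a (t r)) = c⁻¹ • S.tp a r := m.injective (by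
      rw [show m (m⁻¹ (S.tp a (t r))) = S.tp a (t r) from m.apply_symm_apply _, map_smul, hm, S.tmap_tp,
        inv_smul_smul₀ hc]
      rfl)
    rw [LinearEquiv.mul_apply, LinearEquiv.mul_apply, h1, map_smul, map_smul, hm, inv_smul_smul₀ hc]
  have hsurj : ∀ y, ∃ r, t r = y := (LinearMap.injective_iff_surjective.1 (S.sym_be.iso_injective ht))
  refine ⟨⟨fun X Y => ?_, fun y => ?_, fun a ha y => ?_⟩, fun r => ?_⟩
  · have h1 : ∀ X Y, S.form (m⁻¹ X) (m⁻¹ Y) = S.form X Y := fun X Y => by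
      rw [← hmi, show m (m⁻¹ X) = X from m.apply_symm_apply X, show m (m⁻¹ Y) = Y from m.apply_symm_apply Y]
    simp only [LinearEquiv.mul_apply, hmi, hg.iso, h1]
  · obtain ⟨r, rfl⟩ := hsurj y
    rw [hkey, hg.fix, S.tmap_tp]
    rfl
  · obtain ⟨r, rfl⟩ := hsurj y
    obtain ⟨w, hw⟩ := hg.mid a ha r
    exact ⟨t w, by rw [hkey, hw, map_add, S.tmap_tp, S.tmap_tp]; rfl⟩
  · rw [lev_apply, hkey, S.p0_tmap hf ht, lev_apply]

/-- The form of a level all whose contractions are scalar plus a rank one map. -/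
lemma exists_lev_form {w w' : B} (hw : Frame S.be w w') {D : B →ₗ[F] V}
    (h0 : ∀ r, S.pi e (D r) = 0 ∧ S.pi e' (D r) = 0)
    (h : ∀ a ∈ OTensor90.mid S.al e e', ∃ k c : F, ∀ x, S.pi a (D x) = k • x + (c * S.be w x) • w) :
    ∃ a₀ ∈ OTensor90.mid S.al e e', ∃ c₀ ∈ OTensor90.mid S.al e e',
      ∀ r, D r = S.tp a₀ r + S.be w r • S.tp c₀ w := by
  set a₀ := S.con w' (D w)
  set c₀ := S.con w' (D w')
  have hm : ∀ r, S.con w' (D r) ∈ OTensor90.mid S.al e e' := fun r => mem_mid.2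
    ⟨by rw [S.al_symm, ← S.be_pi_con, (h0 r).1]; simp,
     by rw [S.al_symm, ← S.be_pi_con, (h0 r).2]; simp⟩
  refine ⟨a₀, hm w, c₀, hm w', fun r => S.pi_flip_ext hf ?_ ?_ fun a ha => ?_⟩
  · simp [(h0 r).1, S.al_symm _ e, (mem_mid.1 (hm w)).1, (mem_mid.1 (hm w')).1, a₀, c₀]
  · simp [(h0 r).2, S.al_symm _ e', (mem_mid.1 (hm w)).2, (mem_mid.1 (hm w')).2, a₀, c₀]
  · obtain ⟨k, c, hx⟩ := h a ha
    have hk : S.al a₀ a = k := by
      rw [← S.be_pi_con, hx]
      simp [hw.left, hw.pair]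
    have hc : S.al c₀ a = c := by
      rw [← S.be_pi_con, hx]
      simp [hw.right, hw.pair]
    rw [hx, map_add, map_smul, S.pi_tp, S.pi_tp, hk, hc, smul_smul, mul_comm]

end Setting

namespace Side

variable {S : Setting F A B V} {M : Subgroup (V ≃ₗ[F] V)}

/-- An element of the radical in `M` is an Eichler map. -/
theorem radical (H : Side S M) (hno : NoRoot S M) {e e' : A} (hf : Frame S.al e e') {g : V ≃ₗ[F] V}
    (hg : g ∈ M) (hQ : S.InQ e e' g) :
    ∃ a ∈ mid S.al e e', ∀ X, g X = S.tmap (eich S.al e a) LinearMap.id X := by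
  classical
  have hkill : ∀ k ∈ M, S.InQ e e' k → S.lev e e' k = 0 → k = 1 := fun k hk hQk h0 => by
    obtain ⟨τ, -, hτ⟩ := hQk.eq_root hf h0
    refine LinearEquiv.ext fun X => ?_
    rw [hτ, hno e e' hf τ ⟨k, hk, hτ⟩ X, add_zero]
    rfl
  have hx : ∀ a ∈ mid S.al e e', ∃ x ∈ M, S.InQ e e' x ∧ (∀ X, x X = S.tmap (eich S.al e a) LinearMap.id X) ∧
      ∀ r, S.lev e e' x r = -S.tp a r := fun a ha => by
    obtain ⟨x, hx, hxe⟩ := H.eichA_mem hf.left (mem_mid.1 ha).1
    obtain ⟨h1, h2⟩ := S.inQ_eich hf ha hxe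
    exact ⟨x, hx, h1, hxe, h2⟩
  let T : Set (B →ₗ[F] V) := {D | ∃ a ∈ mid S.al e e', ∀ r, D r = S.tp a r}
  let U : Set (B →ₗ[F] V) := {D | ∃ k ∈ M, S.InQ e e' k ∧ S.lev e e' k = D}
  suffices hUT : S.lev e e' g ∈ T by
    obtain ⟨a, ha, hD⟩ := hUT
    obtain ⟨x, hxM, hxQ, hxe, hxl⟩ := hx a ha
    have h1 : g * x = 1 := hkill _ (M.mul_mem hg hxM) (hQ.comp hf hxQ) (LinearMap.ext fun r => by
      rw [hQ.lev_comp hf hxQ, hD, hxl, add_neg_cancel]; rfl)
    obtain ⟨x', hx'M, hx'Q, hx'e, hx'l⟩ := hx (-a) (Submodule.neg_mem _ ha)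
    have h2 : g = x' := by
      have h3 : x⁻¹ = x' := by
        refine inv_eq_of_mul_eq_one_right (LinearEquiv.ext fun X => ?_)
        rw [LinearEquiv.mul_apply, hxe, hx'e, ← LinearMap.comp_apply, S.tmap_comp, LinearMap.id_comp,
          eich_comp S.sym_al hf.left (mem_mid.1 ha).1 (by simp [(mem_mid.1 ha).1]), add_neg_cancel, eich_zero,
          S.tmap_id]
        rfl
      rw [← h3]
      exact eq_inv_of_mul_eq_one_left h1
    exact ⟨-a, Submodule.neg_mem _ ha, fun X => by rw [h2, hx'e]⟩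
  by_contra hne
  obtain ⟨w, hw0, hwne⟩ : ∃ w, S.be w w = 0 ∧ w ≠ 0 := by
    obtain ⟨w, -, h1, h2⟩ := S.sym_be.exists_iso_in (B := ⊤)
      (fun x _ hx => S.be_nd x fun y => hx y trivial) (by rw [finrank_top]; exact H.dB)
    exact ⟨w, h2, h1⟩
  obtain ⟨w', hw⟩ := exists_frame S.sym_be H.wB hw0 hwne
  obtain ⟨p, hp⟩ := CharP.exists F
  have := Fintype.ofFinite F
  have : Fact p.Prime := ⟨CharP.char_is_prime F p⟩
  have : Finite B := Module.finite_of_finite F
  have : Fintype (mid S.be w w') := Fintype.ofFinite _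
  let L : mid S.be w w' → V →ₗ[F] V := fun y => S.tmap LinearMap.id (eich S.be w y)
  let K : mid S.be w w' → Module.End F (B →ₗ[F] V) := fun y =>
    { toFun := fun D => L y ∘ₗ D ∘ₗ eich S.be w (-(y : B))
      map_add' := fun D D' => LinearMap.ext fun r => by simp
      map_smul' := fun c D => LinearMap.ext fun r => by simp }
  have hmy : ∀ y : mid S.be w w', S.be w (y : B) = 0 := fun y => (mem_mid.1 y.2).1
  have hK : ∀ y z, K y * K z = K (y + z) := fun y z => LinearMap.ext fun D => LinearMap.ext fun r => by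
    simp only [Module.End.mul_apply, K, LinearMap.coe_mk, AddHom.coe_mk, LinearMap.comp_apply, L,
      Submodule.coe_add]
    rw [← LinearMap.comp_apply (f := S.tmap LinearMap.id (eich S.be w (y : B))), S.tmap_comp, LinearMap.id_comp,
      eich_comp S.sym_be hw.left (hmy y) (hmy z), ← LinearMap.comp_apply (f := eich S.be w (-(z : B))),
      eich_comp S.sym_be hw.left (by simp [hmy z]) (by simp [hmy y]), neg_add_rev]
  have hK0 : K 0 = 1 := LinearMap.ext fun D => LinearMap.ext fun r => by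
    simp [K, L, eich_zero, S.tmap_id]
  have hKn : ∀ y (n : ℕ), K y ^ n = K (n • y) := fun y n => by
    induction n with
    | zero => rw [pow_zero, zero_smul, hK0]
    | succ n ih => rw [pow_succ, ih, hK, succ_nsmul]
  let Δ : mid S.be w w' → Module.End F (B →ₗ[F] V) := fun y => K y - 1
  have hKD : ∀ k ∈ M, S.InQ e e' k → ∀ y, ∃ k' ∈ M, S.InQ e e' k' ∧
      S.lev e e' k' = K y (S.lev e e' k) := by
    intro k hk hQk y
    obtain ⟨m, hm, hme⟩ := H.eichB_mem hw.left (hmy y)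
    obtain ⟨hQ', hl⟩ := hQk.conjB hf (H.iso m hm) one_ne_zero (eich_isIso S.sym_be hw.left (hmy y))
      (fun X => by rw [hme, one_smul])
    refine ⟨_, M.mul_mem (M.mul_mem hm hk) (M.inv_mem hm), hQ', LinearMap.ext fun r => ?_⟩
    show _ = L y (S.lev e e' k (eich S.be w (-(y : B)) r))
    rw [← hl, ← LinearMap.comp_apply (f := eich S.be w (y : B)), eich_comp S.sym_be hw.left (hmy y) (by simp [hmy y]),
      add_neg_cancel, eich_zero]
    rfl
  have hTfix : ∀ y, ∀ D ∈ T, Δ y D = 0 := fun y D ⟨a, ha, hD⟩ => LinearMap.ext fun r => by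
    simp only [Δ, LinearMap.sub_apply, K, LinearMap.coe_mk, AddHom.coe_mk, LinearMap.comp_apply, Module.End.one_apply,
      hD, L, S.tmap_tp, LinearMap.id_apply]
    rw [← LinearMap.comp_apply (f := eich S.be w (y : B)), eich_comp S.sym_be hw.left (hmy y) (by simp [hmy y]),
      add_neg_cancel, eich_zero]
    simp
  obtain ⟨D, ⟨k, hk, hQk, rfl⟩, hkT, hfix⟩ := exists_all_mem Δ (n := p)
    (fun y => sub_one_pow_char (p := p) (by
      rw [hKn, show p • y = 0 by rw [← Nat.cast_smul_eq_nsmul F, CharP.cast_eq_zero, zero_smul], hK0]))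
    (fun y z => by
      show (K y - 1) * (K z - 1) = (K z - 1) * (K y - 1)
      rw [sub_mul, mul_sub, mul_sub, sub_mul, mul_sub, mul_sub, hK, hK, add_comm y z, one_mul, mul_one, one_mul,
        one_mul, mul_one]
      abel)
    (T := T) (U := U) ⟨0, Submodule.zero_mem _, fun r => by simp⟩
    (fun y D hD => by rw [hTfix y D hD]; exact ⟨0, Submodule.zero_mem _, fun r => by simp⟩)
    (fun y D ⟨k, hk, hQk, hD⟩ => by
      obtain ⟨k', hk', hQk', hD'⟩ := hKD k hk hQk y
      refine ⟨k' * k⁻¹, M.mul_mem hk' (M.inv_mem hk), hQk'.comp hf (hQk.inv hf), LinearMap.ext fun r => ?_⟩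
      rw [hQk'.lev_comp hf (hQk.inv hf), hQk.lev_inv hf, hD', hD]
      simp [Δ, sub_eq_add_neg])
    Finset.univ (x := S.lev e e' g) ⟨g, hg, hQ, rfl⟩ hne
  refine hkT ?_
  set D := S.lev e e' k
  have hzero : ∀ r, S.pi e (D r) = 0 ∧ S.pi e' (D r) = 0 := fun r =>
    ⟨S.pi_left_p0 hf _, S.pi_right_p0 hf _⟩
  have hsa : ∀ a ∈ mid S.al e e', ∀ u v, S.be (S.pi a (D u)) v = S.be u (S.pi a (D v)) := by
    intro a ha u v
    obtain ⟨x, hxM, hxQ, hxe, hxl⟩ := hx a ha
    have hcom : k * x = x * k := by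
      have h1 : k * x * k⁻¹ * x⁻¹ = 1 := hkill _
        (M.mul_mem (M.mul_mem (M.mul_mem hk hxM) (M.inv_mem hk)) (M.inv_mem hxM))
        (((hQk.comp hf hxQ).comp hf (hQk.inv hf)).comp hf (hxQ.inv hf)) (LinearMap.ext fun r => by
          rw [((hQk.comp hf hxQ).comp hf (hQk.inv hf)).lev_comp hf (hxQ.inv hf),
            (hQk.comp hf hxQ).lev_comp hf (hQk.inv hf), hQk.lev_comp hf hxQ, hQk.lev_inv hf, hxQ.lev_inv hf]
          simp)
      exact eq_mul_of_mul_inv_eq (by rw [← mul_inv_eq_one, h1])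
    have := hQk.bracket hf hxQ hcom v u
    rw [hxl, hxl, map_neg, map_neg, LinearMap.neg_apply, neg_inj] at this
    rw [S.be_pi, S.be_symm u, S.be_pi, this, S.form_symm]
  have hforms : ∀ a ∈ mid S.al e e', ∃ c d : F, ∀ x, S.pi a (D x) = c • x + (d * S.be w x) • w := by
    intro a ha
    refine fixed_selfadj S.sym_be hw H.dB H.exists_sq_ne_one (φ := S.pi a ∘ₗ D) (hsa a ha) fun y hy => ?_
    obtain ⟨a', ha', he⟩ := hfix ⟨y, hy⟩ (Finset.mem_univ _)
    refine ⟨S.al a' a, fun x => ?_⟩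
    have h1 := congrArg (S.pi a) (he (eich S.be w y x))
    simp only [Δ, LinearMap.sub_apply, K, LinearMap.coe_mk, AddHom.coe_mk, LinearMap.comp_apply,
      Module.End.one_apply, L, map_sub, S.pi_tp] at h1
    rw [← LinearMap.comp_apply (f := eich S.be w (-y)),
      eich_comp S.sym_be hw.left (by simp [(mem_mid.1 hy).1]) (mem_mid.1 hy).1,
      neg_add_cancel, eich_zero, LinearMap.id_apply] at h1
    have h2 : ∀ X, S.pi a (S.tmap LinearMap.id (eich S.be w y) X) = eich S.be w y (S.pi a X) := fun X => by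
      have h3 : S.pi a ∘ₗ S.tmap LinearMap.id (eich S.be w y) = eich S.be w y ∘ₗ S.pi a :=
        S.hom_ext fun c v => by simp
      exact LinearMap.congr_fun h3 X
    rw [h2] at h1
    simpa using h1
  obtain ⟨a₀, ha₀, c₀, hc₀, hD⟩ := Setting.exists_lev_form hf hw hzero hforms
  obtain ⟨r0, hr0, hr0w, hr0w', hr0m⟩ := exists_swap S.sym_be hw H.dB
  obtain ⟨m, hm, c, hc, hme⟩ := H.exists_actB hr0
  obtain ⟨hQ', hl⟩ := hQk.conjB hf (H.iso m hm) hc hr0.1 hme
  have hcom : k * (m * k * m⁻¹) = m * k * m⁻¹ * k := by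
    set k' := m * k * m⁻¹
    have hk' : k' ∈ M := M.mul_mem (M.mul_mem hm hk) (M.inv_mem hm)
    have h1 : k * k' * k⁻¹ * k'⁻¹ = 1 := hkill _
      (M.mul_mem (M.mul_mem (M.mul_mem hk hk') (M.inv_mem hk)) (M.inv_mem hk'))
      (((hQk.comp hf hQ').comp hf (hQk.inv hf)).comp hf (hQ'.inv hf)) (LinearMap.ext fun r => by
        rw [((hQk.comp hf hQ').comp hf (hQk.inv hf)).lev_comp hf (hQ'.inv hf),
          (hQk.comp hf hQ').lev_comp hf (hQk.inv hf), hQk.lev_comp hf hQ', hQk.lev_inv hf, hQ'.lev_inv hf]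
        simp)
    exact eq_mul_of_mul_inv_eq (by rw [← mul_inv_eq_one, h1])
  have hb := hQk.bracket hf hQ' hcom w w'
  have hl1 : S.lev e e' (m * k * m⁻¹) w = S.tp a₀ w + S.tp c₀ w' := by
    have := hl w'
    rw [hr0w'] at this
    rw [this, hD, map_add, map_smul, S.tmap_tp, S.tmap_tp, hr0w', hr0w]
    simp [hw.pair]
  have hl2 : S.lev e e' (m * k * m⁻¹) w' = S.tp a₀ w' := by
    have := hl w
    rw [hr0w] at this
    rw [this, hD, map_add, map_smul, S.tmap_tp, hr0w]
    simp [hw.left]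
  rw [hl1, hl2, hD, hD] at hb
  simp [S.form_tp, hw.left, hw.right, hw.pair, hw.pair' S.sym_be] at hb
  have hc00 : c₀ = 0 := hf.aniso' hc₀ (by linear_combination hb)
  exact ⟨a₀, ha₀, fun r => by rw [hD, hc00]; simp⟩

end Side

end CfsgLib.OTensor90
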