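import Cfsg.Agent.OTensor90.Fixed

/-!
A space carrying the tensor product of two symmetric forms, with the roles of the factors interchangeable.
-/

set_option autoImplicit false
set_option linter.unusedSectionVars false
set_option linter.unusedSimpArgs false
set_option linter.unusedVariables false

namespace CfsgLib.OTensor90

open Module CfsgLib.SpO90

/-- The data of a tensor decomposition of a symmetric form. -/
structure Setting (F A B V : Type*) [Field F] [AddCommGroup A] [Module F A] [AddCommGroup B]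
    [Module F B] [AddCommGroup V] [Module F V] where
  /-- the first factor -/
  al : LinearMap.BilinForm F A
  /-- the second factor -/
  be : LinearMap.BilinForm F B
  /-- the form -/
  form : LinearMap.BilinForm F V
  /-- the pure tensors -/
  tp : A →ₗ[F] B →ₗ[F] V
  two : (2 : F) ≠ 0
  al_symm : ∀ a c, al a c = al c a
  al_nd : ∀ a, (∀ c, al a c = 0) → a = 0
  be_symm : ∀ u v, be u v = be v u
  be_nd : ∀ u, (∀ v, be u v = 0) → u = 0
  form_symm : ∀ X Y, form X Y = form Y X
  form_tp : ∀ a w a' w', form (tp a w) (tp a' w') = al a a' * be w w'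
  form_ext : ∀ X, (∀ a w, form X (tp a w) = 0) → X = 0

variable {F A B V : Type*} [Field F] [AddCommGroup A] [Module F A] [AddCommGroup B]
  [Module F B] [AddCommGroup V] [Module F V] (S : Setting F A B V)

namespace Setting

lemma sym_al : Sym S.al := ⟨S.two, S.al_symm, S.al_nd⟩

lemma sym_be : Sym S.be := ⟨S.two, S.be_symm, S.be_nd⟩

/-- The factors interchanged. -/
def swap : Setting F B A V where
  al := S.be
  be := S.al
  form := S.form
  tp := S.tp.flip
  two := S.two
  al_symm := S.be_symm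
  al_nd := S.be_nd
  be_symm := S.al_symm
  be_nd := S.al_nd
  form_symm := S.form_symm
  form_tp := fun b a b' a' => by simp [S.form_tp, mul_comm]
  form_ext := fun X hX => S.form_ext X fun a w => hX w a

lemma be_eq_of_forall {u v : B} (h : ∀ x, S.be u x = S.be v x) : u = v :=
  sub_eq_zero.1 (S.be_nd _ fun x => by simp [h])

lemma al_eq_of_forall {a c : A} (h : ∀ x, S.al a x = S.al c x) : a = c :=
  sub_eq_zero.1 (S.al_nd _ fun x => by simp [h])

lemma be_nondeg : S.be.Nondegenerate :=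
  ⟨S.be_nd, fun y h => S.be_nd y fun x => by rw [S.be_symm]; exact h x⟩

lemma al_nondeg : S.al.Nondegenerate :=
  ⟨S.al_nd, fun y h => S.al_nd y fun x => by rw [S.al_symm]; exact h x⟩

variable [FiniteDimensional F A] [FiniteDimensional F B]

/-- The contraction with a vector of the first factor. -/
noncomputable def pi : A →ₗ[F] V →ₗ[F] B :=
  LinearMap.mk₂ F (fun a X => (S.be.toDual S.be_nondeg).symm ((S.form X).comp (S.tp a)))
    (fun a a' X => by simp [LinearMap.comp_add])
    (fun c a X => by simp [LinearMap.comp_smul])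
    (fun a X X' => by simp [LinearMap.add_comp])
    (fun c a X => by simp [LinearMap.smul_comp])

/-- The contraction with a vector of the second factor. -/
noncomputable def con : B →ₗ[F] V →ₗ[F] A :=
  LinearMap.mk₂ F (fun w X => (S.al.toDual S.al_nondeg).symm ((S.form X).comp (S.tp.flip w)))
    (fun a a' X => by simp [LinearMap.comp_add])
    (fun c a X => by simp [LinearMap.comp_smul])
    (fun a X X' => by simp [LinearMap.add_comp])
    (fun c a X => by simp [LinearMap.smul_comp])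

lemma be_pi (a : A) (X : V) (w : B) : S.be (S.pi a X) w = S.form X (S.tp a w) := by
  rw [← LinearMap.BilinForm.toDual_def S.be_nondeg]
  simp [pi]

lemma al_con (w : B) (X : V) (a : A) : S.al (S.con w X) a = S.form X (S.tp a w) := by
  rw [← LinearMap.BilinForm.toDual_def S.al_nondeg]
  simp [con]

@[simp] lemma pi_tp (a c : A) (w : B) : S.pi a (S.tp c w) = S.al c a • w :=
  S.be_eq_of_forall fun v => by rw [S.be_pi, S.form_tp, map_smul, LinearMap.smul_apply, smul_eq_mul]

@[simp] lemma con_tp (v w : B) (c : A) : S.con v (S.tp c w) = S.be w v • c :=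
  S.al_eq_of_forall fun x => by
    rw [S.al_con, S.form_tp, map_smul, LinearMap.smul_apply, smul_eq_mul, mul_comm]

lemma ext_pi {X Y : V} (h : ∀ a, S.pi a X = S.pi a Y) : X = Y :=
  sub_eq_zero.1 (S.form_ext _ fun a w => by
    rw [map_sub, LinearMap.sub_apply, ← S.be_pi, ← S.be_pi, h, sub_self])

lemma be_pi_con (X : V) (a : A) (w : B) : S.be (S.pi a X) w = S.al (S.con w X) a := by
  rw [S.be_pi, S.al_con]

section expansion

variable {κ : Type*} [Fintype κ] [DecidableEq κ] (b : Basis κ F B)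

/-- The expansion of a vector along a basis of the second factor. -/
lemma expand (X : V) :
    X = ∑ i, S.tp (S.con (b i) X) (S.be.dualBasis S.be_nondeg b i) := by
  refine S.ext_pi fun a => ?_
  rw [map_sum]
  simp only [pi_tp, ← S.be_pi_con]
  conv_lhs => rw [← (S.be.dualBasis S.be_nondeg b).sum_repr (S.pi a X)]
  simp only [LinearMap.BilinForm.dualBasis_repr_apply]

end expansion

/-- Linear maps agreeing on pure tensors are equal. -/
lemma hom_ext {W : Type*} [AddCommGroup W] [Module F W] {f g : V →ₗ[F] W}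
    (h : ∀ a w, f (S.tp a w) = g (S.tp a w)) : f = g := by
  classical
  refine LinearMap.ext fun X => ?_
  rw [S.expand (Module.finBasis F B) X, map_sum, map_sum]
  exact Finset.sum_congr rfl fun i _ => h _ _

/-- A tensor map. -/
def IsT (g : V ≃ₗ[F] V) : Prop :=
  ∃ (x : A ≃ₗ[F] A) (y : B ≃ₗ[F] B), ∀ a w, g (S.tp a w) = S.tp (x a) (y w)

lemma isT_mul {g h : V ≃ₗ[F] V} (hg : S.IsT g) (hh : S.IsT h) : S.IsT (g * h) := by
  obtain ⟨x, y, hg⟩ := hg
  obtain ⟨x', y', hh⟩ := hh
  exact ⟨x'.trans x, y'.trans y, fun a w => by simp [hh, hg]⟩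

lemma isT_inv {g : V ≃ₗ[F] V} (hg : S.IsT g) : S.IsT g⁻¹ := by
  obtain ⟨x, y, hg⟩ := hg
  refine ⟨x.symm, y.symm, fun a w => g.injective ?_⟩
  rw [hg, x.apply_symm_apply, y.apply_symm_apply]
  exact g.apply_symm_apply _

/-- The tensor product of two linear maps. -/
noncomputable def tmap (x : A →ₗ[F] A) (y : B →ₗ[F] B) : V →ₗ[F] V :=
  ∑ i, (S.tp.flip (y (S.be.dualBasis S.be_nondeg (Module.finBasis F B) i))) ∘ₗ x ∘ₗ
    S.con (Module.finBasis F B i)

@[simp] lemma tmap_tp (x : A →ₗ[F] A) (y : B →ₗ[F] B) (a : A) (w : B) :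
    S.tmap x y (S.tp a w) = S.tp (x a) (y w) := by
  conv_rhs => rw [← (S.be.dualBasis S.be_nondeg (Module.finBasis F B)).sum_repr w, map_sum, map_sum]
  rw [tmap, LinearMap.sum_apply]
  refine Finset.sum_congr rfl fun i _ => ?_
  simp [LinearMap.BilinForm.dualBasis_repr_apply]

/-- The tensor product of two automorphisms. -/
noncomputable def tequiv (x : A ≃ₗ[F] A) (y : B ≃ₗ[F] B) : V ≃ₗ[F] V :=
  LinearEquiv.ofLinearMap (S.tmap (x : A →ₗ[F] A) (y : B →ₗ[F] B))
    (S.tmap (x.symm : A →ₗ[F] A) (y.symm : B →ₗ[F] B))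
    (S.hom_ext fun a w => by simp) (S.hom_ext fun a w => by simp)

@[simp] lemma tequiv_tp (x : A ≃ₗ[F] A) (y : B ≃ₗ[F] B) (a : A) (w : B) :
    S.tequiv x y (S.tp a w) = S.tp (x a) (y w) := by simp [tequiv]

lemma isT_tequiv (x : A ≃ₗ[F] A) (y : B ≃ₗ[F] B) : S.IsT (S.tequiv x y) :=
  ⟨x, y, S.tequiv_tp x y⟩

lemma form_ext_tp {φ ψ : LinearMap.BilinForm F V}
    (h : ∀ a w a' w', φ (S.tp a w) (S.tp a' w') = ψ (S.tp a w) (S.tp a' w')) : φ = ψ :=
  S.hom_ext fun a w => S.hom_ext fun a' w' => h a w a' w'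

lemma preserves_of_tp {g : V ≃ₗ[F] V}
    (h : ∀ a w a' w', S.form (g (S.tp a w)) (g (S.tp a' w')) = S.al a a' * S.be w w') (X Y : V) :
    S.form (g X) (g Y) = S.form X Y := by
  have := S.form_ext_tp (φ := S.form.compl₁₂ (g : V →ₗ[F] V) (g : V →ₗ[F] V)) (ψ := S.form)
    fun a w a' w' => by simp [h, S.form_tp]
  exact LinearMap.congr_fun₂ this X Y


lemma swap_pi (w : B) (X : V) : S.swap.pi w X = S.con w X :=
  S.al_eq_of_forall fun a => by
    rw [S.al_con]
    exact S.swap.be_pi w X a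

lemma swap_tp (a : A) (w : B) : S.swap.tp w a = S.tp a w := rfl

lemma isT_of_swap {g : V ≃ₗ[F] V} (h : S.swap.IsT g) : S.IsT g := by
  obtain ⟨x, y, h⟩ := h
  exact ⟨y, x, fun a w => h w a⟩

lemma tmap_swap (x : A →ₗ[F] A) (y : B →ₗ[F] B) : S.swap.tmap y x = S.tmap x y :=
  S.hom_ext fun a w => by
    rw [S.tmap_tp, ← S.swap_tp, S.swap.tmap_tp]
    rfl

lemma tmap_comp (x x' : A →ₗ[F] A) (y y' : B →ₗ[F] B) :
    S.tmap x y ∘ₗ S.tmap x' y' = S.tmap (x ∘ₗ x') (y ∘ₗ y') :=
  S.hom_ext fun a w => by simp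

lemma tmap_id : S.tmap LinearMap.id LinearMap.id = LinearMap.id := S.hom_ext fun a w => by simp

lemma tmap_form {x : A →ₗ[F] A} {y : B →ₗ[F] B} (hx : IsIso S.al x) (hy : IsIso S.be y) (X Y : V) :
    S.form (S.tmap x y X) (S.tmap x y Y) = S.form X Y := by
  have := S.form_ext_tp (φ := S.form.compl₁₂ (S.tmap x y) (S.tmap x y)) (ψ := S.form)
    fun a w a' w' => by simp [S.form_tp, hx _ _, hy _ _]
  exact LinearMap.congr_fun₂ this X Y

lemma pi_flip_ext {X Y : V} {e e' : A} (hf : Frame S.al e e') [Finite F] (h1 : S.pi e X = S.pi e Y)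
    (h2 : S.pi e' X = S.pi e' Y) (h3 : ∀ a ∈ mid S.al e e', S.pi a X = S.pi a Y) : X = Y :=
  S.ext_pi fun a => LinearMap.congr_fun
    (hf.hom_ext S.sym_al (f := S.pi.flip X) (g := S.pi.flip Y) h1 h2 h3) a

lemma hom_ext_frame {W : Type*} [AddCommGroup W] [Module F W] [Finite F] {e e' : A} (hf : Frame S.al e e')
    {f g : V →ₗ[F] W} (h1 : ∀ w, f (S.tp e w) = g (S.tp e w)) (h2 : ∀ w, f (S.tp e' w) = g (S.tp e' w))
    (h3 : ∀ a ∈ mid S.al e e', ∀ w, f (S.tp a w) = g (S.tp a w)) : f = g :=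
  S.hom_ext fun a w => LinearMap.congr_fun
    (hf.hom_ext S.sym_al (f := f ∘ₗ S.tp.flip w) (g := g ∘ₗ S.tp.flip w) (h1 w) (h2 w)
      (fun z hz => h3 z hz w)) a

/-- The member of a vector is injective. -/
lemma tp_injective {a : A} (ha : a ≠ 0) : Function.Injective (S.tp a) := by
  obtain ⟨y, hy⟩ : ∃ y, S.al a y ≠ 0 := by
    by_contra! h0
    exact ha (S.al_nd a h0)
  intro u v huv
  have := congrArg (S.pi y) huv
  simp only [S.pi_tp] at this
  exact smul_right_injective B hy this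

lemma tp_injective' {w : B} (hw : w ≠ 0) {a a' : A} (h : S.tp a w = S.tp a' w) : a = a' :=
  S.swap.tp_injective hw h

end Setting

/-- `M` contains the map `f`. -/
def InM {F V : Type*} [Field F] [AddCommGroup V] [Module F V] (M : Subgroup (V ≃ₗ[F] V)) (f : V →ₗ[F] V) : Prop :=
  ∃ g ∈ M, ∀ X, g X = f X

namespace InM

variable {F V : Type*} [Field F] [AddCommGroup V] [Module F V] {M : Subgroup (V ≃ₗ[F] V)} {f f' : V →ₗ[F] V}

lemma of_mem {g : V ≃ₗ[F] V} (h : g ∈ M) : InM M (g : V →ₗ[F] V) := ⟨g, h, fun _ => rfl⟩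

lemma comp (h : InM M f) (h' : InM M f') : InM M (f ∘ₗ f') := by
  obtain ⟨g, hg, e⟩ := h
  obtain ⟨g', hg', e'⟩ := h'
  exact ⟨g * g', M.mul_mem hg hg', fun X => by rw [LinearEquiv.mul_apply, e', e]; rfl⟩

lemma conj {g : V ≃ₗ[F] V} (hg : g ∈ M) (h : InM M f) (he : ∀ X, f' (g X) = g (f X)) : InM M f' := by
  obtain ⟨k, hk, e⟩ := h
  refine ⟨g * k * g⁻¹, M.mul_mem (M.mul_mem hg hk) (M.inv_mem hg), fun X => ?_⟩
  rw [LinearEquiv.mul_apply, LinearEquiv.mul_apply, e, ← he]
  exact congrArg f' (g.apply_symm_apply X)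

lemma neg_neg (h : InM M (-f)) (h' : InM M (-f')) : InM M (f ∘ₗ f') := by
  have := h.comp h'
  rwa [LinearMap.neg_comp, LinearMap.comp_neg, _root_.neg_neg] at this

end InM

variable {F A B V : Type*} [Field F] [Finite F] [AddCommGroup A] [Module F A] [AddCommGroup B]
  [Module F B] [AddCommGroup V] [Module F V] [FiniteDimensional F A] [FiniteDimensional F B]

/-- A group of isometries containing, up to sign, both groups of determinant one. -/
structure Side (S : Setting F A B V) (M : Subgroup (V ≃ₗ[F] V)) : Prop where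
  iso : ∀ g ∈ M, ∀ X Y, S.form (g X) (g Y) = S.form X Y
  memA : ∀ s, IsSO S.al s → InM M (S.tmap s LinearMap.id) ∨ InM M (-S.tmap s LinearMap.id)
  memB : ∀ t, IsSO S.be t → InM M (S.tmap LinearMap.id t) ∨ InM M (-S.tmap LinearMap.id t)
  wA : WittOne S.al
  wB : WittOne S.be
  dA : 3 ≤ finrank F A
  dB : 3 ≤ finrank F B
  hq : 5 ≤ Nat.card F

namespace Side

variable {S : Setting F A B V} {M : Subgroup (V ≃ₗ[F] V)}

lemma swap (H : Side S M) : Side S.swap M where
  iso := H.iso
  memA := fun s hs => by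
    simp only [S.tmap_swap]
    exact H.memB s hs
  memB := fun t ht => by
    simp only [S.tmap_swap]
    exact H.memA t ht
  wA := H.wB
  wB := H.wA
  dA := H.dB
  dB := H.dA
  hq := H.hq

lemma exists_sq_ne_one (H : Side S M) : ∃ k : F, k ≠ 0 ∧ k ^ 2 ≠ 1 := by
  classical
  have := Fintype.ofFinite F
  have hq := H.hq
  rw [Nat.card_eq_fintype_card] at hq
  by_contra! h
  have hle : Fintype.card F ≤ ({0, 1, -1} : Finset F).card := Finset.card_le_card fun k _ => by
    rcases eq_or_ne k 0 with rfl | hk0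
    · simp
    · rcases sq_eq_one_iff.1 (h k hk0) with rfl | rfl <;> simp
  have h3 := Finset.card_le_three (a := (0 : F)) (b := 1) (c := -1)
  omega

lemma sqA_mem (H : Side S M) {s : A →ₗ[F] A} (hs : IsSO S.al s) :
    InM M (S.tmap (s ∘ₗ s) LinearMap.id) := by
  have e : S.tmap s LinearMap.id ∘ₗ S.tmap s LinearMap.id = S.tmap (s ∘ₗ s) LinearMap.id := by
    rw [S.tmap_comp, LinearMap.id_comp]
  rw [← e]
  rcases H.memA s hs with h | h
  · exact h.comp h
  · exact h.neg_neg h

lemma sqB_mem (H : Side S M) {t : B →ₗ[F] B} (ht : IsSO S.be t) :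
    InM M (S.tmap LinearMap.id (t ∘ₗ t)) := by
  have := H.swap.sqA_mem ht
  rwa [S.tmap_swap] at this

lemma eichA_mem (H : Side S M) {e y : A} (he : S.al e e = 0) (hy : S.al e y = 0) :
    InM M (S.tmap (eich S.al e y) LinearMap.id) := by
  have h := H.sqA_mem (eich_isSO (y := (2 : F)⁻¹ • y) S.sym_al he (by simp [hy]))
  rwa [eich_comp S.sym_al he (by simp [hy]) (by simp [hy]), ← add_smul,
    show (2 : F)⁻¹ + 2⁻¹ = 1 by field_simp [S.two]; norm_num, one_smul] at h

lemma eichB_mem (H : Side S M) {w y : B} (hw : S.be w w = 0) (hy : S.be w y = 0) :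
    InM M (S.tmap LinearMap.id (eich S.be w y)) := by
  have := H.swap.eichA_mem hw hy
  rwa [S.tmap_swap] at this

/-- Some element of `M` conjugates as `1 ⊗ t`. -/
lemma exists_actB (H : Side S M) {t : B →ₗ[F] B} (ht : IsSO S.be t) :
    ∃ g ∈ M, ∃ c : F, c ≠ 0 ∧ ∀ X, g X = c • S.tmap LinearMap.id t X := by
  rcases H.memB t ht with ⟨g, hg, e⟩ | ⟨g, hg, e⟩
  · exact ⟨g, hg, 1, one_ne_zero, fun X => by rw [e, one_smul]⟩
  · exact ⟨g, hg, -1, by simp, fun X => by rw [e]; simp⟩

lemma exists_actA (H : Side S M) {s : A →ₗ[F] A} (hs : IsSO S.al s) :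
    ∃ g ∈ M, ∃ c : F, c ≠ 0 ∧ ∀ X, g X = c • S.tmap s LinearMap.id X := by
  obtain ⟨g, hg, c, hc, e⟩ := H.swap.exists_actB hs
  exact ⟨g, hg, c, hc, fun X => by rw [e, S.tmap_swap]⟩

end Side

end CfsgLib.OTensor90
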