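import Cfsg.Agent.OTensor90.Invol
import Cfsg.Agent.OrthGeo.Parity

/-!
An element preserving the product of the first factor with a hyperbolic plane is a tensor map.
-/

set_option autoImplicit false
set_option linter.unusedSectionVars false
set_option linter.unusedSimpArgs false
set_option linter.unusedVariables false

namespace CfsgLib.OTensor90

open Module CfsgLib.SpO90

variable {F A B V : Type*} [Field F] [Finite F] [AddCommGroup A] [Module F A] [AddCommGroup B]
  [Module F B] [AddCommGroup V] [Module F V] [FiniteDimensional F A] [FiniteDimensional F B]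
  [FiniteDimensional F V]

namespace Setting

variable (S : Setting F A B V)

/-- The combination of two pure tensors along a plane. -/
noncomputable def two' (w w' : B) : A × A →ₗ[F] V := (S.tp.flip w).coprod (S.tp.flip w')

lemma two'_apply (w w' : B) (p : A × A) : S.two' w w' p = S.tp p.1 w + S.tp p.2 w' := rfl

lemma form_two' {w w' : B} (hw : Frame S.be w w') (p q : A × A) :
    S.form (S.two' w w' p) (S.two' w w' q) = S.al p.1 q.2 + S.al p.2 q.1 := by
  simp [S.two'_apply, S.form_tp, hw.left, hw.right, hw.pair, hw.pair' S.sym_be]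

lemma two'_injective {w w' : B} (hw : Frame S.be w w') : Function.Injective (S.two' w w') := fun p q h => by
  refine Prod.ext (S.al_eq_of_forall fun a => ?_) (S.al_eq_of_forall fun a => ?_)
  · simpa [S.form_two' hw] using congrArg (fun X => S.form X (S.two' w w' (0, a))) h
  · simpa [S.form_two' hw] using congrArg (fun X => S.form X (S.two' w w' (a, 0))) h

end Setting

namespace Hyp

variable {S : Setting F A B V} {M : Subgroup (V ≃ₗ[F] V)}

set_option maxHeartbeats 1000000 in
/-- The central step: the image of `A ⊗ u` meets `A ⊗ w` in exactly one line. -/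
theorem isT_of_line (H : Hyp S M) (hno : NoRoot S M) {u u' w w' : B} (hu : Frame S.be u u')
    (hw : Frame S.be w w') {g : V ≃ₗ[F] V} (hg : g ∈ M)
    (hsur : ∀ p : A × A, ∃ q : A × A, g (S.two' u u' q) = S.two' w w' p)
    (hmap : ∀ q : A × A, ∃ p : A × A, g (S.two' u u' q) = S.two' w w' p)
    {x₁ x₂ : A →ₗ[F] A} (hx : ∀ a, g (S.tp a u) = S.two' w w' (x₁ a, x₂ a))
    {a₁ : A} (ha₁ : a₁ ≠ 0) (hk₁ : x₂ a₁ = 0) (hk : ∀ a, x₂ a = 0 → ∃ c : F, a = c • a₁) : S.IsT g := by
  classical
  obtain ⟨p, hpc⟩ := CharP.exists F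
  have := Fintype.ofFinite F
  have : Fact p.Prime := ⟨CharP.char_is_prime F p⟩
  have hiso : ∀ a c, S.al (x₁ a) (x₂ c) + S.al (x₂ a) (x₁ c) = 0 := fun a c => by
    have h1 := H.iso g hg (S.tp a u) (S.tp c u)
    rw [hx, hx, S.form_two' hw, S.form_tp, hu.left, mul_zero] at h1
    exact h1
  have hinj : ∀ a, x₁ a = 0 → x₂ a = 0 → a = 0 := fun a h1 h2 => by
    have h3 := hx a
    rw [h1, h2, show ((0 : A), (0 : A)) = 0 from rfl, map_zero, ← map_zero g] at h3
    exact S.tp_injective' hu.left_ne (a' := 0) (by rw [g.injective h3, map_zero, LinearMap.zero_apply])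
  set a₀ := x₁ a₁ with ha₀
  have ha₀0 : a₀ ≠ 0 := fun h0 => ha₁ (hinj a₁ h0 hk₁)
  have hR : LinearMap.range x₂ = perp S.al (F ∙ a₀) := by
    refine Submodule.eq_of_le_of_finrank_le ?_ ?_
    · rintro _ ⟨c, rfl⟩
      refine mem_perp_single.2 ?_
      have := hiso a₁ c
      rwa [hk₁, map_zero, LinearMap.zero_apply, add_zero] at this
    · have h1 := S.sym_al.finrank_perp (F ∙ a₀)
      rw [finrank_span_singleton ha₀0] at h1
      have h2 := LinearMap.finrank_range_add_finrank_ker x₂
      have h3 : LinearMap.ker x₂ ≤ F ∙ a₁ := fun a ha => by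
        obtain ⟨c, rfl⟩ := hk a ha
        exact Submodule.smul_mem _ _ (Submodule.mem_span_singleton_self _)
      have h4 := Submodule.finrank_mono h3
      rw [finrank_span_singleton ha₁] at h4
      omega
  have hfrom : ∀ z r : A, (∀ c, S.al z (x₂ c) + S.al r (x₁ c) = 0) → ∃ a, S.two' w w' (z, r) = g (S.tp a u) := by
    intro z r h
    obtain ⟨⟨a, b⟩, hq⟩ := hsur (z, r)
    refine ⟨a, ?_⟩
    have hb : b = 0 := S.al_nd b fun c => by
      have h1 := H.iso g hg (S.two' u u' (a, b)) (S.two' u u' (c, 0))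
      rw [S.form_two' hu, hq, show S.two' u u' (c, 0) = S.tp c u by simp [S.two'_apply], hx, S.form_two' hw] at h1
      simp only at h1
      rw [h, map_zero, zero_add] at h1
      exact h1.symm
    rw [← hq, hb, S.two'_apply, map_zero, LinearMap.zero_apply, add_zero]
  -- an element of `M` fixing `a₀` and preserving the image
  have key : ∀ {s₀ : A →ₗ[F] A}, InM M (S.tmap s₀ LinearMap.id) →
      (∀ a c, S.al (s₀ (x₁ a)) (x₂ c) + S.al (s₀ (x₂ a)) (x₁ c) = 0) →
      ∃ k ∈ M, (∀ X, g (k X) = S.tmap s₀ LinearMap.id (g X)) ∧ S.IsT k ∧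
        ∀ s t, (∀ X, k X = S.tmap s t X) → (∀ b, t b = 0 → b = 0) → (∀ a, s a = 0 → a = 0) →
          (∃ c : F, t u = c • u) ∧ ∃ c d : F, t u' = c • u + d • u' := by
    intro s₀ ⟨h, hh, he⟩ hB
    have hk' : ∀ X, g ((g⁻¹ * h * g) X) = S.tmap s₀ LinearMap.id (g X) := fun X => by
      simp only [LinearEquiv.mul_apply]
      rw [show g (g⁻¹ (h (g X))) = h (g X) from g.apply_symm_apply _, he]
    have hkM : g⁻¹ * h * g ∈ M := M.mul_mem (M.mul_mem (M.inv_mem hg) hh) hg
    have hE : ∀ a, ∃ a', (g⁻¹ * h * g) (S.tp a u) = S.tp a' u := fun a => by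
      obtain ⟨a', ha'⟩ := hfrom _ _ (fun c => hB a c)
      refine ⟨a', g.injective ?_⟩
      rw [hk', hx, ← ha']
      simp [S.two'_apply]
    have hE' : ∀ a, ∃ q, (g⁻¹ * h * g) (S.tp a u') = S.two' u u' q := fun a => by
      obtain ⟨⟨z, r⟩, hzr⟩ := hmap (0, a)
      obtain ⟨q, hq⟩ := hsur (s₀ z, s₀ r)
      refine ⟨q, g.injective ?_⟩
      rw [hk', hq, show S.tp a u' = S.two' u u' (0, a) by simp [S.two'_apply], hzr]
      simp [S.two'_apply]
    refine ⟨_, hkM, hk', S.isT_of_swap (H.toSide.swap.isT_of_frames (H.toSide.noRoot_swap hno) hu hu hkM hE), ?_⟩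
    intro s t hst htinj hsinj
    obtain ⟨a, -, ha⟩ := S.sym_al.exists_value_in (B := ⊤) (fun x _ hx => S.al_nd x fun y => hx y trivial)
      (by rw [finrank_top, H.three]; norm_num) 1
    have hsa : s a ≠ 0 := fun h0 => by
      rw [hsinj a h0] at ha
      simp at ha
    obtain ⟨y, hy⟩ : ∃ y, S.al (s a) y ≠ 0 := by
      by_contra! h0
      exact hsa (S.al_nd _ h0)
    obtain ⟨a', ha'⟩ := hE a
    rw [hst, S.tmap_tp] at ha'
    obtain ⟨⟨c, d⟩, hq⟩ := hE' a
    rw [hst, S.tmap_tp] at hq
    have h1 := congrArg (S.pi y) ha'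
    have h2 := congrArg (S.pi y) hq
    simp only [S.two'_apply, map_add, S.pi_tp] at h1 h2
    refine ⟨⟨(S.al (s a) y)⁻¹ * S.al a' y, ?_⟩, (S.al (s a) y)⁻¹ * S.al c y, (S.al (s a) y)⁻¹ * S.al d y, ?_⟩
    · rw [mul_smul, ← h1, inv_smul_smul₀ hy]
    · rw [mul_smul, mul_smul, ← smul_add, ← h2, inv_smul_smul₀ hy]
  rcases ne_or_eq (S.al a₀ a₀) 0 with h00 | h00
  · -- a non-singular line
    have hperp : ∀ c, S.al a₀ (x₂ c) = 0 := fun c =>
      mem_perp_single.1 (hR ▸ LinearMap.mem_range_self x₂ c)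
    obtain ⟨k, hk, hk', hkT, -⟩ := key (H.rot_mem a₀ h00) fun a c => by
      rw [rot_perp (hperp a), rot_apply, map_neg, LinearMap.neg_apply, map_sub, map_smul, LinearMap.sub_apply,
        LinearMap.smul_apply, hperp, smul_zero]
      linear_combination -hiso a c
    have hkk : ∀ X, k (k X) = X := fun X => g.injective (by
      rw [hk', hk', ← LinearMap.comp_apply, S.tmap_comp, LinearMap.id_comp,
        show rot S.al a₀ ∘ₗ rot S.al a₀ = LinearMap.id from LinearMap.ext (rot_rot S.sym_al a₀), S.tmap_id]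
      rfl)
    have h4 : nfix k.toLinearMap = 4 :=
      (nfix_eq_of_conj (f := k.toLinearMap) (f' := S.tmap (rot S.al a₀) LinearMap.id) hk').trans (H.nfix_rot_one h00)
    obtain ⟨v₁, hv₁, he₁⟩ := H.exists_rot_of_fix_four hk hkT hkk h4
    exact H.isT_of_conj hno h00 hv₁ hg fun X => by rw [← he₁, hk']
  · -- a singular line
    obtain ⟨a₀', hf⟩ := exists_frame S.sym_al H.wA h00 ha₀0
    obtain ⟨y, hy, hy0⟩ := hf.exists_mid_ne S.sym_al H.dA
    have hya : S.al a₀ y = 0 := (mem_mid.1 hy).1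
    have hperp : ∀ c, S.al a₀ (x₂ c) = 0 := fun c =>
      mem_perp_single.1 (hR ▸ LinearMap.mem_range_self x₂ c)
    obtain ⟨a₂, ha₂⟩ : a₀ ∈ LinearMap.range x₂ := by rw [hR]; exact mem_perp_single.2 h00
    -- both functionals factor through the range and kill `a₀`
    have hf₁ : ∀ a, S.al a₀ (x₁ a) = - S.al (x₁ a₂) (x₂ a) := fun a => by
      have := hiso a₂ a
      rw [ha₂] at this
      linear_combination this
    have ha22 : S.al (x₁ a₂) a₀ = 0 := by
      have := hiso a₂ a₂
      rw [ha₂, S.al_symm a₀, ← two_mul] at this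
      exact (mul_eq_zero.1 this).resolve_left S.two
    have hprop : ∀ r r' : A, S.al a₀ r = 0 → S.al a₀ r' = 0 →
        S.al (x₁ a₂) r * S.al y r' = S.al (x₁ a₂) r' * S.al y r := by
      intro r r' hr hr'
      have hdec : ∀ r, S.al a₀ r = 0 → ∃ (c : F) (m : A), m ∈ mid S.al a₀ a₀' ∧ r = c • a₀ + m := fun r hr =>
        ⟨S.al a₀' r, _, hf.decomp S.sym_al r, by rw [hr, zero_smul]; abel⟩
      obtain ⟨c, m, hm, rfl⟩ := hdec r hr
      obtain ⟨c', m', hm', rfl⟩ := hdec r' hr'
      have hmid : finrank F (mid S.al a₀ a₀') = 1 := by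
        have := hf.finrank_mid S.sym_al; rw [H.three] at this; omega
      obtain ⟨e, he0, he⟩ := finrank_eq_one_iff'.1 hmid
      obtain ⟨i, hi⟩ := he ⟨m, hm⟩
      obtain ⟨j, hj⟩ := he ⟨m', hm'⟩
      have hi' : m = i • (e : A) := (congrArg Subtype.val hi).symm
      have hj' : m' = j • (e : A) := (congrArg Subtype.val hj).symm
      subst hi' hj'
      simp only [map_add, map_smul, smul_eq_mul, ha22, S.al_symm y a₀, hya]
      ring
    obtain ⟨k, hk, hk', hkT, hpres⟩ := key (H.toSide.eichA_mem h00 hya) fun a c => by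
      have h2 := S.two
      have hP := hprop (x₂ a) (x₂ c) (hperp a) (hperp c)
      simp only [eich_apply, map_add, map_sub, map_smul, LinearMap.add_apply, LinearMap.sub_apply,
        LinearMap.smul_apply, smul_eq_mul, hperp, hf₁]
      linear_combination hiso a c + hP
    obtain ⟨s, t, hs, ht, hkst⟩ := H.normal_form hk hkT
    have htinj : ∀ b, t b = 0 → b = 0 := fun b hb => S.be_nd b fun z => by rw [← ht b z, hb]; simp
    have hsinj : ∀ a, s a = 0 → a = 0 := fun a ha => S.al_nd a fun z => by rw [← hs.1 a z, ha]; simp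
    obtain ⟨⟨c, hc⟩, c₁, d₁, hcd⟩ := hpres s t hkst htinj hsinj
    have hpow : (S.tmap s t : Module.End F V) ^ p = 1 := by
      have h1 : ∀ n : ℕ, ∀ X, g (((S.tmap s t : Module.End F V) ^ n) X) =
          ((S.tmap (eich S.al a₀ y) LinearMap.id : Module.End F V) ^ n) (g X) := by
        intro n
        induction n with
        | zero => intro X; rfl
        | succ n ih =>
          intro X
          rw [pow_succ, Module.End.mul_apply, ih, ← hkst, hk', pow_succ, Module.End.mul_apply]
      refine LinearMap.ext fun X => g.injective ?_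
      rw [h1, S.tmap_pow, eich_pow_char S.sym_al p h00 hya, id_pow]
      exact LinearMap.congr_fun S.tmap_id _
    obtain ⟨hsp, htp⟩ := H.pow_normal (p := p) hs ht hpow
    have htu : t u = u := by
      have hn : ∀ n : ℕ, ((t : Module.End F B) ^ n) u = c ^ n • u := fun n => by
        induction n with
        | zero => simp
        | succ n ih => rw [pow_succ, Module.End.mul_apply, hc, map_smul, ih, smul_smul, pow_succ, mul_comm]
      have h1 := hn p
      rw [htp, Module.End.one_apply] at h1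
      have hcp : c ^ p = 1 := sub_eq_zero.1 ((smul_eq_zero.1
        (show (c ^ p - 1) • u = 0 by rw [sub_smul, ← h1, one_smul, sub_self])).resolve_right hu.left_ne)
      rw [hc, eq_one_of_pow_char hcp, one_smul]
    have htu' : t u' = u' := by
      have h1 := ht u u'
      rw [htu, hcd, map_add, map_smul, map_smul, hu.left, hu.pair] at h1
      have hd : d₁ = 1 := by simpa using h1
      have h2 := ht u' u'
      rw [hcd, hd] at h2
      simp only [map_add, map_smul, LinearMap.add_apply, LinearMap.smul_apply, smul_eq_mul, hu.left, hu.right,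
        hu.pair, hu.pair' S.sym_be] at h2
      have hc0 : c₁ = 0 := by
        have : (2 : F) * c₁ = 0 := by linear_combination h2
        exact (mul_eq_zero.1 this).resolve_left S.two
      rw [hcd, hd, hc0, zero_smul, zero_add, one_smul]
    have htm : ∀ z ∈ mid S.be u u', t z ∈ mid S.be u u' := fun z hz => mem_mid.2 ⟨by
      nth_rw 1 [← htu]; rw [ht]; exact (mem_mid.1 hz).1, by
      nth_rw 1 [← htu']; rw [ht]; exact (mem_mid.1 hz).2⟩
    have hmid : finrank F (mid S.be u u') = 2 := by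
      have := hu.finrank_mid S.sym_be; rw [H.four] at this; omega
    have hmfix := plane_fix (p := p) S.sym_be (hu.nd_mid S.sym_be) hmid ht htm (fun z _ => by rw [htp]; rfl)
    have ht1 : t = LinearMap.id := hu.hom_ext S.sym_be htu htu' hmfix
    subst ht1
    obtain ⟨z₀, -, hz₀⟩ := S.sym_be.exists_value_in (B := ⊤) (fun x _ hx => S.be_nd x fun y => hx y trivial)
      (by rw [finrank_top, H.four]; norm_num) 1
    have hz₀0 : z₀ ≠ 0 := fun h0 => by simp [h0] at hz₀
    have he0 : eich S.al a₀ y ≠ LinearMap.id := fun h0 => by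
      have h3 := congrArg (S.al y) (LinearMap.congr_fun h0 a₀')
      rw [eich_right S.sym_al hf hy] at h3
      simp [S.al_symm y a₀, hya, S.al_symm y a₀', (mem_mid.1 hy).2] at h3
      exact hy0 (hf.aniso' hy h3)
    have hsne : s ≠ LinearMap.id := fun h0 => he0 (LinearMap.ext fun a => by
      obtain ⟨X, hX⟩ := g.surjective (S.tp a z₀)
      have h1 := hk' X
      rw [hkst, h0, S.tmap_id, LinearMap.id_apply, hX, S.tmap_tp] at h1
      exact (S.tp_injective' hz₀0 h1).symm)
    obtain ⟨l, hl0, hl, hlfix⟩ := exists_fix_line S.sym_al H.three hs hsne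
    have hll : S.al l l = 0 := by
      by_contra h0
      exact hsne (H.fix_aniso hs.1 hsp h0 hl)
    obtain ⟨l', hl'⟩ := exists_frame S.sym_al H.wA hll hl0
    obtain ⟨v₀, hv₀, hv₀e, hv₀fix⟩ := exists_fix_line S.sym_al H.three (eich_isSO S.sym_al h00 hya) he0
    have hfix : ∀ x, eich S.al a₀ y x = x → ∃ d : F, x = d • a₀ := by
      intro x hx
      obtain ⟨d, rfl⟩ := hv₀fix x hx
      obtain ⟨e, he⟩ := hv₀fix a₀ (eich_left S.sym_al hf hy)
      have he' : e ≠ 0 := fun h0 => ha₀0 (by rw [he, h0, zero_smul])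
      exact ⟨d * e⁻¹, by rw [he, smul_smul, mul_assoc, inv_mul_cancel₀ he', mul_one]⟩
    exact H.toSide.isT_of_frames hno hl' hf hg
      (S.map_fixed (eich_isSO S.sym_al h00 hya).1 ha₀0 hfix hl fun X => by rw [← hkst, hk'])

/-- An element preserving `A ⊗ <w, w'>` is a tensor map. -/
theorem isT_of_split (H : Hyp S M) (hno : NoRoot S M) {w w' : B} (hw : Frame S.be w w') {g : V ≃ₗ[F] V}
    (hg : g ∈ M) (hmap : ∀ q : A × A, ∃ p : A × A, g (S.two' w w' q) = S.two' w w' p) : S.IsT g := by
  classical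
  have hsur : ∀ p : A × A, ∃ q : A × A, g (S.two' w w' q) = S.two' w w' p := by
    have h1 : (LinearMap.range (S.two' w w')).map g.toLinearMap = LinearMap.range (S.two' w w') := by
      refine Submodule.eq_of_le_of_finrank_le ?_ ?_
      · rintro _ ⟨_, ⟨q, rfl⟩, rfl⟩
        obtain ⟨p, hp⟩ := hmap q
        exact ⟨p, hp.symm⟩
      · rw [LinearEquiv.finrank_map_eq]
    intro p
    have h2 : S.two' w w' p ∈ (LinearMap.range (S.two' w w')).map g.toLinearMap := by rw [h1]; exact ⟨p, rfl⟩
    obtain ⟨_, ⟨q, rfl⟩, hq⟩ := h2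
    exact ⟨q, hq⟩
  choose P hP using fun a => hmap (a, 0)
  have hP' : ∀ a, g (S.tp a w) = S.two' w w' (P a) := fun a => by
    rw [← hP]
    simp [S.two'_apply]
  have hadd : ∀ a b, P (a + b) = P a + P b := fun a b => S.two'_injective hw (by
    rw [map_add, ← hP', ← hP', ← hP', map_add, LinearMap.add_apply, map_add])
  have hsmul : ∀ (c : F) a, P (c • a) = c • P a := fun c a => S.two'_injective hw (by
    rw [map_smul, ← hP', ← hP', map_smul, LinearMap.smul_apply, map_smul])
  let Pl : A →ₗ[F] A × A := { toFun := P, map_add' := hadd, map_smul' := hsmul }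
  set x₁ : A →ₗ[F] A := LinearMap.fst F A A ∘ₗ Pl with hx₁
  set x₂ : A →ₗ[F] A := LinearMap.snd F A A ∘ₗ Pl with hx₂
  have hx : ∀ a, g (S.tp a w) = S.two' w w' (x₁ a, x₂ a) := hP'
  have hswap : ∀ p : A × A, S.two' w' w (p.2, p.1) = S.two' w w' p := fun p => by
    simp [S.two'_apply, add_comm]
  by_cases h2 : x₂ = 0
  · refine S.isT_of_swap (H.toSide.swap.isT_of_frames (H.toSide.noRoot_swap hno) hw hw hg fun a => ⟨x₁ a, ?_⟩)
    show g (S.tp a w) = S.tp (x₁ a) w
    rw [hx, h2, S.two'_apply]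
    simp
  by_cases h1 : x₁ = 0
  · refine S.isT_of_swap (H.toSide.swap.isT_of_frames (H.toSide.noRoot_swap hno) hw (hw.swap S.sym_be) hg
      fun a => ⟨x₂ a, ?_⟩)
    show g (S.tp a w) = S.tp (x₂ a) w'
    rw [hx, h1, S.two'_apply]
    simp
  have hiso : ∀ a c, S.al (x₁ a) (x₂ c) + S.al (x₂ a) (x₁ c) = 0 := fun a c => by
    have h := H.iso g hg (S.tp a w) (S.tp c w)
    rw [hx, hx, S.form_two' hw, S.form_tp, hw.left, mul_zero] at h
    exact h
  have hinj : ∀ a, x₁ a = 0 → x₂ a = 0 → a = 0 := fun a h1 h2 => by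
    have h3 := hx a
    rw [h1, h2, show ((0 : A), (0 : A)) = 0 from rfl, map_zero, ← map_zero g] at h3
    exact S.tp_injective' hw.left_ne (a' := 0) (by rw [g.injective h3, map_zero, LinearMap.zero_apply])
  let Bf : LinearMap.BilinForm F A := S.al.compl₁₂ x₁ x₂
  have halt : ∀ a, Bf a a = 0 := fun a => by
    have h := hiso a a
    rw [S.al_symm (x₂ a), ← two_mul] at h
    exact (mul_eq_zero.1 h).resolve_left S.two
  have hker : LinearMap.ker Bf = LinearMap.ker x₁ ⊔ LinearMap.ker x₂ := by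
    refine le_antisymm (fun a ha => ?_) (sup_le (fun a ha => ?_) (fun a ha => ?_))
    · have hinj2 : Function.Injective (x₁ ∘ₗ (LinearMap.ker x₂).subtype) :=
        (injective_iff_map_eq_zero _).2 fun b hb => Subtype.ext (hinj b hb b.2)
      have hle : LinearMap.range (x₁ ∘ₗ (LinearMap.ker x₂).subtype) ≤ perp S.al (LinearMap.range x₂) := by
        rintro _ ⟨b, rfl⟩ _ ⟨c, rfl⟩
        have h := hiso b c
        rw [show x₂ b = 0 from b.2, map_zero, LinearMap.zero_apply, add_zero] at h
        rw [S.al_symm]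
        exact h
      have heq := Submodule.eq_of_le_of_finrank_le hle (by
        have e1 := S.sym_al.finrank_perp (LinearMap.range x₂)
        have e2 := LinearMap.finrank_range_add_finrank_ker x₂
        rw [LinearMap.finrank_range_of_inj hinj2]
        omega)
      have hmem : x₁ a ∈ perp S.al (LinearMap.range x₂) := by
        rintro _ ⟨c, rfl⟩
        rw [S.al_symm]
        exact LinearMap.congr_fun (LinearMap.mem_ker.1 ha) c
      rw [← heq] at hmem
      obtain ⟨b, hb⟩ := hmem
      have hb' : x₁ (a - b) = 0 := by rw [map_sub, sub_eq_zero]; exact hb.symm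
      exact (sub_add_cancel a (b : A)) ▸ Submodule.add_mem_sup (LinearMap.mem_ker.2 hb') b.2
    · exact LinearMap.mem_ker.2 (LinearMap.ext fun c => by simp [Bf, LinearMap.mem_ker.1 ha])
    · refine LinearMap.mem_ker.2 (LinearMap.ext fun c => ?_)
      have h := hiso a c
      rw [LinearMap.mem_ker.1 ha, map_zero, LinearMap.zero_apply, add_zero] at h
      exact h
  have hdisj : LinearMap.ker x₁ ⊓ LinearMap.ker x₂ = ⊥ :=
    eq_bot_iff.2 fun a ha => (Submodule.mem_bot F).2 (hinj a ha.1 ha.2)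
  have hev := CfsgLib.OrthGeo.even_rank_of_alt _ Bf halt rfl
  have hs := Submodule.finrank_sup_add_finrank_inf_eq (LinearMap.ker x₁) (LinearMap.ker x₂)
  rw [hdisj, finrank_bot, ← hker] at hs
  have hlt : ∀ {x : A →ₗ[F] A}, x ≠ 0 → finrank F (LinearMap.ker x) < 3 := fun {x} hx0 => by
    rw [← H.three]
    exact Submodule.finrank_lt fun h => hx0 (LinearMap.ker_eq_top.1 h)
  have hl1 := hlt h1
  have hl2 := hlt h2
  rw [H.three] at hev
  obtain ⟨m, hm⟩ := hev
  have hle := Submodule.finrank_le (LinearMap.ker Bf)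
  rw [H.three] at hle
  have hcases : finrank F (LinearMap.ker x₂) = 1 ∨ finrank F (LinearMap.ker x₁) = 1 := by omega
  rcases hcases with h | h
  · obtain ⟨a₁, ha₁, hspan⟩ := finrank_eq_one_iff'.1 h
    refine H.isT_of_line hno hw hw hg hsur hmap hx (a₁ := a₁) (fun h0 => ha₁ (Subtype.ext h0)) a₁.2 fun a ha => ?_
    obtain ⟨c, hc⟩ := hspan ⟨a, ha⟩
    exact ⟨c, (congrArg Subtype.val hc).symm⟩
  · obtain ⟨a₁, ha₁, hspan⟩ := finrank_eq_one_iff'.1 h
    refine H.isT_of_line hno hw (hw.swap S.sym_be) hg (fun p => ?_) (fun q => ?_) (x₁ := x₂) (x₂ := x₁)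
      (fun a => ?_) (a₁ := a₁) (fun h0 => ha₁ (Subtype.ext h0)) a₁.2 fun a ha => ?_
    · obtain ⟨q, hq⟩ := hsur (p.2, p.1)
      exact ⟨q, by rw [hq, ← hswap]⟩
    · obtain ⟨p, hp⟩ := hmap q
      exact ⟨(p.2, p.1), by rw [hp, hswap]⟩
    · rw [hx, ← hswap]
    · obtain ⟨c, hc⟩ := hspan ⟨a, ha⟩
      exact ⟨c, (congrArg Subtype.val hc).symm⟩

end Hyp

end CfsgLib.OTensor90
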